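import Mathlib
import Cfsg.Agent.Lib.Classical.OrthCenter
import Cfsg.Agent.Lib.Classical.KleinCount

/-! Orbits of the Siegel (Eichler) groups on a finite `Ω`-set, and the dual subgroups. -/

set_option autoImplicit false
set_option linter.unusedSimpArgs false
set_option linter.unusedVariables false
set_option linter.unusedSectionVars false
set_option linter.style.haveILetI false

namespace Cfsg.Agent.Lib.MinOrth

open Matrix Module Cfsg.Agent.Lib.Classical
open scoped commutatorElement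

variable {F : Type*} [Field F] [Fintype F] {ι : Type} [Fintype ι] [DecidableEq ι] {Q : QuadraticForm F (ι → F)}

local notation "bb" => QuadraticMap.polar (DFunLike.coe Q)

/-- The standing hypotheses on the form. -/
class OS (Q : QuadraticForm F (ι → F)) : Prop where
  nd : (QuadraticMap.polarBilin Q).Nondegenerate
  big : 7 ≤ Fintype.card ι

variable [OS Q]

theorem ee_mem_omg (u w : ι → F) : ee Q u w ∈ OmG Q := by
  by_cases h : Q u = 0 ∧ bb u w = 0
  · exact ee_mem_commutator (OS.nd : (QuadraticMap.polarBilin Q).Nondegenerate) (OS.big Q) h.1 h.2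
  · have : ee Q u w = 1 := dif_neg h
    rw [this]
    exact one_mem _

/-- The Eichler transformation as an element of `Ω`. -/
noncomputable def eo (Q : QuadraticForm F (ι → F)) [OS Q] (u w : ι → F) : OmG Q := ⟨ee Q u w, ee_mem_omg u w⟩

/-- The action of `Ω` on vectors. -/
abbrev gv (g : OmG Q) (x : ι → F) : ι → F := oM g.1 *ᵥ x

omit [OS Q] in
theorem gv_mul (g h : OmG Q) (x : ι → F) : gv (g * h) x = gv g (gv h x) := oM_mul g.1 h.1 x

omit [OS Q] in
theorem gv_one (x : ι → F) : gv (1 : OmG Q) x = x := oM_one x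

omit [OS Q] in
theorem gv_inv_gv (g : OmG Q) (x : ι → F) : gv g⁻¹ (gv g x) = x := oM_inv_self g.1 x

omit [OS Q] in
theorem gv_gv_inv (g : OmG Q) (x : ι → F) : gv g (gv g⁻¹ x) = x := oM_self_inv g.1 x

omit [OS Q] in
theorem gv_add (g : OmG Q) (x y : ι → F) : gv g (x + y) = gv g x + gv g y := mulVec_add _ _ _

omit [OS Q] in
theorem gv_sub (g : OmG Q) (x y : ι → F) : gv g (x - y) = gv g x - gv g y := mulVec_sub _ _ _

omit [OS Q] in
theorem gv_neg (g : OmG Q) (x : ι → F) : gv g (-x) = - gv g x := mulVec_neg _ _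

omit [OS Q] in
theorem gv_smul (g : OmG Q) (c : F) (x : ι → F) : gv g (c • x) = c • gv g x := mulVec_smul _ _ _

omit [OS Q] in
theorem gv_zero (g : OmG Q) : gv g (0 : ι → F) = 0 := mulVec_zero _

omit [OS Q] in
theorem gv_Q (g : OmG Q) (x : ι → F) : Q (gv g x) = Q x := oM_Q g.1 x

omit [OS Q] in
theorem gv_bb (g : OmG Q) (x y : ι → F) : bb (gv g x) (gv g y) = bb x y := oM_polar g.1 x y

omit [OS Q] in
theorem gv_ne_zero (g : OmG Q) {x : ι → F} (h : x ≠ 0) : gv g x ≠ 0 := og_ne_zero g.1 h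

theorem eo_apply {u w : ι → F} (hu : Q u = 0) (h1 : bb u w = 0) (x : ι → F) :
    gv (eo Q u w) x = x + bb u x • w - bb w x • u - (Q w * bb u x) • u := ee_apply hu h1 x

theorem eo_coe (u w : ι → F) : (eo Q u w).1 = ee Q u w := rfl

theorem eo_of_nonsing {u : ι → F} (hu : Q u ≠ 0) (w : ι → F) : eo Q u w = 1 := by
  apply Subtype.ext
  change ee Q u w = 1
  exact dif_neg (fun h => hu h.1)

theorem eo_of_not {u w : ι → F} (h : bb u w ≠ 0) : eo Q u w = 1 := by
  apply Subtype.ext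
  change ee Q u w = 1
  exact dif_neg (fun h' => h h'.2)

theorem eo_add {u w w' : ι → F} (h1 : bb u w = 0) (h2 : bb u w' = 0) :
    eo Q u (w + w') = eo Q u w * eo Q u w' := by
  by_cases hu : Q u = 0
  · apply Subtype.ext
    exact (ee_mul hu h1 h2).symm
  · simp [eo_of_nonsing hu]

theorem eo_zero (u : ι → F) : eo Q u 0 = 1 := by
  by_cases hu : Q u = 0
  · apply Subtype.ext
    exact ee_zero hu
  · exact eo_of_nonsing hu _

theorem eo_neg {u w : ι → F} (h1 : bb u w = 0) : eo Q u (-w) = (eo Q u w)⁻¹ := by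
  by_cases hu : Q u = 0
  · apply Subtype.ext
    exact (ee_inv hu h1).symm
  · simp [eo_of_nonsing hu]

theorem eo_comm {u w w' : ι → F} (h1 : bb u w = 0) (h2 : bb u w' = 0) :
    eo Q u w * eo Q u w' = eo Q u w' * eo Q u w := by
  rw [← eo_add h1 h2, ← eo_add h2 h1, add_comm]

theorem eo_conj (g : OmG Q) {u w : ι → F} (hu : Q u = 0) (h1 : bb u w = 0) :
    g * eo Q u w * g⁻¹ = eo Q (gv g u) (gv g w) := by
  apply Subtype.ext
  exact ee_conj g.1 hu h1

theorem eo_smul_left {u w : ι → F} (hu : Q u = 0) (h1 : bb u w = 0) (c : F) :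
    eo Q (c • u) w = eo Q u (c • w) := by
  apply Subtype.ext
  exact ee_smul_left hu h1 c

theorem eo_add_smul {u w : ι → F} (hu : Q u = 0) (h1 : bb u w = 0) (c : F) :
    eo Q u (w + c • u) = eo Q u w := by
  apply Subtype.ext
  exact ee_add_smul hu h1 c

theorem eo_smul_self {u : ι → F} (hu : Q u = 0) (c : F) : eo Q u (c • u) = 1 := by
  have := eo_add_smul (Q := Q) hu (polar_zero_r u) c
  rwa [zero_add, eo_zero] at this

theorem eo_swap {u w : ι → F} (hu : Q u = 0) (hw : Q w = 0) (h1 : bb u w = 0) : eo Q w u = (eo Q u w)⁻¹ := by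
  rw [← eo_neg h1]
  apply Subtype.ext
  apply og_ext
  intro x
  have h2 : bb w u = 0 := by rw [polar_symm, h1]
  have h3 : bb u (-w) = 0 := by rw [polar_neg_r, h1, neg_zero]
  change gv (eo Q w u) x = gv (eo Q u (-w)) x
  rw [eo_apply hw h2, eo_apply hu h3, q_neg, hw, hu]
  simp only [polar_neg_l, zero_mul]
  module

theorem eo_comm_formula {u w a b : ι → F} (hu : Q u = 0) (hw : Q w = 0) (huw : bb u w = 0) (hua : bb u a = 0)
    (hub : bb u b = 0) (hwa : bb w a = 0) (hwb : bb w b = 0) :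
    ⁅eo Q u a, eo Q w b⁆ = eo Q u (bb a b • w) := by
  apply Subtype.ext
  exact ee_comm_formula hu hw huw hua hub hwa hwb

theorem eo_pow {u w : ι → F} (h1 : bb u w = 0) (k : ℕ) : (eo Q u w) ^ k = eo Q u ((k : F) • w) := by
  induction k with
  | zero => simp [eo_zero]
  | succ k ih =>
    have h2 : bb u ((k : F) • w) = 0 := by rw [polar_smul_r, h1, mul_zero]
    rw [pow_succ, ih, ← eo_add h2 h1, Nat.cast_succ, add_smul, one_smul]

section Orbits

variable {Ω : Type*} [MulAction (OmG Q) Ω]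

/-- The annihilator of an additive subgroup with respect to the polar form and `ψ`. -/
def bperp (Q : QuadraticForm F (ι → F)) (ψ : AddChar F ℂ) (S : AddSubgroup (ι → F)) : AddSubgroup (ι → F) where
  carrier := {v | ∀ w ∈ S, ψ (QuadraticMap.polar (⇑Q) w v) = 1}
  zero_mem' := by
    intro w _
    rw [polar_zero_r, AddChar.map_zero_eq_one]
  add_mem' := by
    intro v v' hv hv' w hw
    rw [polar_add_r, AddChar.map_add_eq_mul, hv w hw, hv' w hw, one_mul]
  neg_mem' := by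
    intro v hv w hw
    rw [polar_neg_r, AddChar.map_neg_eq_inv, hv w hw, inv_one]

theorem mem_bperp {ψ : AddChar F ℂ} {S : AddSubgroup (ι → F)} {v : ι → F} :
    v ∈ bperp Q ψ S ↔ ∀ w ∈ S, ψ (bb w v) = 1 := Iff.rfl

theorem char_sum_zero {X : Type*} [AddGroup X] [Fintype X] (f : X → ℂ)
    (hf : ∀ x y, f (x + y) = f x * f y) (x₀ : X) (h : f x₀ ≠ 1) : ∑ x, f x = 0 := by
  refine eq_zero_of_mul_eq_self_left h ?_
  rw [Finset.mul_sum]
  exact Fintype.sum_equiv (Equiv.addLeft x₀) _ _ (fun y => (hf x₀ y).symm)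

/-- Some polar value is moved. -/
theorem exists_bb_ne_one {ψ : AddChar F ℂ} {c : F} (hc : ψ c ≠ 1) {w : ι → F} (hw : w ≠ 0) :
    ∃ v : ι → F, ψ (bb w v) ≠ 1 := by
  obtain ⟨x, hx⟩ := exists_polar_eq_one (OS.nd : (QuadraticMap.polarBilin Q).Nondegenerate) hw
  refine ⟨c • x, ?_⟩
  rw [polar_smul_r, hx, mul_one]
  exact hc

theorem card_bperp_mul {ψ : AddChar F ℂ} {c : F} (hc : ψ c ≠ 1) (S : AddSubgroup (ι → F)) :
    Nat.card (bperp Q ψ S) * Nat.card S = Nat.card (ι → F) := by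
  classical
  have hA : ∀ v : ι → F, ∑ w : S, ψ (bb (w : ι → F) v) =
      if v ∈ bperp Q ψ S then (Nat.card S : ℂ) else 0 := by
    intro v
    split_ifs with hv
    · rw [Finset.sum_congr rfl (fun (w : S) _ => hv w w.2)]
      simp [Nat.card_eq_fintype_card]
    · rw [mem_bperp] at hv
      push Not at hv
      obtain ⟨w, hw, hne⟩ := hv
      refine char_sum_zero (fun w : S => ψ (bb (w : ι → F) v)) ?_ ⟨w, hw⟩ hne
      intro x y
      simp only [AddSubgroup.coe_add, polar_add_l, AddChar.map_add_eq_mul]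
  have hB : ∀ w : S, ∑ v : ι → F, ψ (bb (w : ι → F) v) =
      if (w : ι → F) = 0 then (Nat.card (ι → F) : ℂ) else 0 := by
    intro w
    split_ifs with hw
    · simp [hw, polar_zero_l, Nat.card_eq_fintype_card]
    · obtain ⟨v, hv⟩ := exists_bb_ne_one (Q := Q) hc hw
      refine char_sum_zero (fun v : ι → F => ψ (bb (w : ι → F) v)) ?_ v hv
      intro x y
      simp only [polar_add_r, AddChar.map_add_eq_mul]
  have h1 : ∑ v : ι → F, ∑ w : S, ψ (bb (w : ι → F) v) = ((Nat.card (bperp Q ψ S) * Nat.card S : ℕ) : ℂ) := by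
    rw [Finset.sum_congr rfl (fun v _ => hA v), Finset.sum_ite, Finset.sum_const_zero, add_zero,
      Finset.sum_const, nsmul_eq_mul]
    push_cast
    congr 2
    rw [Nat.card_eq_fintype_card, Fintype.card_subtype]
  have h2 : ∑ w : S, ∑ v : ι → F, ψ (bb (w : ι → F) v) = (Nat.card (ι → F) : ℂ) := by
    rw [Finset.sum_congr rfl (fun w _ => hB w)]
    rw [Finset.sum_eq_single (0 : S)]
    · simp
    · intro b _ hb
      rw [if_neg]
      intro h
      exact hb (Subtype.ext h)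
    · simp
  rw [Finset.sum_comm, h2] at h1
  exact_mod_cast h1.symm

theorem le_bperp_bperp (ψ : AddChar F ℂ) (S : AddSubgroup (ι → F)) : S ≤ bperp Q ψ (bperp Q ψ S) := by
  intro w hw v hv
  rw [polar_symm]
  exact hv w hw

/-- Double annihilator. -/
theorem bperp_bperp {ψ : AddChar F ℂ} {c : F} (hc : ψ c ≠ 1) (S : AddSubgroup (ι → F)) :
    bperp Q ψ (bperp Q ψ S) = S := by
  symm
  have h1 := card_bperp_mul (Q := Q) hc S
  have h2 := card_bperp_mul (Q := Q) hc (bperp Q ψ S)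
  have h3 : Nat.card (bperp Q ψ (bperp Q ψ S)) = Nat.card S := by
    have hpos : 0 < Nat.card (bperp Q ψ S) := Nat.card_pos
    have : Nat.card (bperp Q ψ (bperp Q ψ S)) * Nat.card (bperp Q ψ S) = Nat.card S * Nat.card (bperp Q ψ S) := by
      rw [h2, ← h1, mul_comm]
    exact Nat.eq_of_mul_eq_mul_right hpos this
  exact AddSubgroup.eq_of_le_of_card_ge (le_bperp_bperp ψ S) h3.le

/-- The vectors `w ∈ a^⊥` whose Eichler transformation with centre `a` fixes `ω`. -/
def Sg (Q : QuadraticForm F (ι → F)) [OS Q] [MulAction (OmG Q) Ω] (a : ι → F) (ω : Ω) : AddSubgroup (ι → F) where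
  carrier := {w | QuadraticMap.polar (⇑Q) a w = 0 ∧ eo Q a w • ω = ω}
  zero_mem' := ⟨polar_zero_r a, by rw [eo_zero, one_smul]⟩
  add_mem' := by
    rintro w w' ⟨h1, h2⟩ ⟨h3, h4⟩
    refine ⟨by rw [polar_add_r, h1, h3, add_zero], ?_⟩
    rw [eo_add h1 h3, mul_smul, h4, h2]
  neg_mem' := by
    rintro w ⟨h1, h2⟩
    refine ⟨by rw [polar_neg_r, h1, neg_zero], ?_⟩
    rw [eo_neg h1, inv_smul_eq_iff, h2]

theorem mem_Sg {a w : ι → F} {ω : Ω} : w ∈ Sg Q a ω ↔ bb a w = 0 ∧ eo Q a w • ω = ω := Iff.rfl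

/-- The dual subgroup. -/
def Tg (Q : QuadraticForm F (ι → F)) [OS Q] [MulAction (OmG Q) Ω] (ψ : AddChar F ℂ) (a : ι → F) (ω : Ω) :
    AddSubgroup (ι → F) := bperp Q ψ (Sg Q a ω)

theorem mem_Tg {ψ : AddChar F ℂ} {a v : ι → F} {ω : Ω} :
    v ∈ Tg Q ψ a ω ↔ ∀ w, bb a w = 0 → eo Q a w • ω = ω → ψ (bb w v) = 1 :=
  ⟨fun h w h1 h2 => h w ⟨h1, h2⟩, fun h w hw => h w hw.1 hw.2⟩

theorem smul_self_mem_Tg {ψ : AddChar F ℂ} {a : ι → F} (ω : Ω) (d : F) : d • a ∈ Tg Q ψ a ω := by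
  rw [mem_Tg]
  intro w h1 _
  rw [polar_smul_r, polar_symm, h1, mul_zero, AddChar.map_zero_eq_one]

theorem self_mem_Tg {ψ : AddChar F ℂ} {a : ι → F} (ω : Ω) : a ∈ Tg Q ψ a ω := by
  have := smul_self_mem_Tg (Q := Q) (ψ := ψ) (a := a) ω 1
  rwa [one_smul] at this

/-- The dual subgroup lies in the perpendicular space of the centre. -/
theorem Tg_perp {ψ : AddChar F ℂ} {c : F} (hc : ψ c ≠ 1) {a v : ι → F} (ha : Q a = 0) {ω : Ω}
    (hv : v ∈ Tg Q ψ a ω) : bb a v = 0 := by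
  by_contra hne
  rw [mem_Tg] at hv
  have huu := polar_self_of_singular ha
  have h := hv ((c * (bb a v)⁻¹) • a) (by rw [polar_smul_r, huu, mul_zero]) (by rw [eo_smul_self ha, one_smul])
  rw [polar_smul_l, mul_assoc, inv_mul_cancel₀ hne, mul_one] at h
  exact hc h

/-- Being in the same orbit of the Eichler group with centre `a`. -/
def orel (Q : QuadraticForm F (ι → F)) [OS Q] (Ω : Type*) [MulAction (OmG Q) Ω] (a : ι → F) : Setoid Ω where
  r ω ω' := ∃ w : ι → F, QuadraticMap.polar (⇑Q) a w = 0 ∧ eo Q a w • ω = ω'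
  iseqv :=
    { refl := fun ω => ⟨0, polar_zero_r a, by rw [eo_zero, one_smul]⟩
      symm := by
        rintro ω ω' ⟨w, h1, rfl⟩
        refine ⟨-w, by rw [polar_neg_r, h1, neg_zero], ?_⟩
        rw [eo_neg h1, inv_smul_smul]
      trans := by
        rintro ω ω' ω'' ⟨w, h1, rfl⟩ ⟨x, h2, rfl⟩
        refine ⟨x + w, by rw [polar_add_r, h1, h2, add_zero], ?_⟩
        rw [eo_add h2 h1, mul_smul] }

theorem orel_iff {a : ι → F} {ω ω' : Ω} : (orel Q Ω a).r ω ω' ↔ ∃ w : ι → F, bb a w = 0 ∧ eo Q a w • ω = ω' := Iff.rfl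

theorem Sg_le_of_rel {a : ι → F} {ω ω' : Ω} (h : (orel Q Ω a).r ω ω') : Sg Q a ω ≤ Sg Q a ω' := by
  obtain ⟨x, h1, rfl⟩ := h
  rintro w ⟨h2, h3⟩
  refine ⟨h2, ?_⟩
  rw [← mul_smul, eo_comm h2 h1, mul_smul, h3]

theorem Sg_eq_of_rel {a : ι → F} {ω ω' : Ω} (h : (orel Q Ω a).r ω ω') : Sg Q a ω = Sg Q a ω' :=
  le_antisymm (Sg_le_of_rel h) (Sg_le_of_rel ((orel Q Ω a).iseqv.symm h))

theorem Tg_eq_of_rel {ψ : AddChar F ℂ} {a : ι → F} {ω ω' : Ω} (h : (orel Q Ω a).r ω ω') : Tg Q ψ a ω = Tg Q ψ a ω' := by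
  unfold Tg
  rw [Sg_eq_of_rel h]

/-- Transport of stabilising vectors. -/
theorem Sg_act {a w : ι → F} (ha : Q a = 0) {ω : Ω} (g : OmG Q) (h : w ∈ Sg Q a ω) :
    gv g w ∈ Sg Q (gv g a) (g • ω) := by
  obtain ⟨h1, h2⟩ := h
  refine ⟨by rw [gv_bb, h1], ?_⟩
  rw [← eo_conj g ha h1, mul_smul, mul_smul, inv_smul_smul, h2]

/-- Transport of the dual subgroup. -/
theorem Tg_act {ψ : AddChar F ℂ} {a v : ι → F} (ha : Q a = 0) {ω : Ω} (g : OmG Q) (h : v ∈ Tg Q ψ a ω) :
    gv g v ∈ Tg Q ψ (gv g a) (g • ω) := by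
  intro x hx
  have hga : Q (gv g a) = 0 := by rw [gv_Q, ha]
  have h1 := Sg_act hga g⁻¹ hx
  rw [gv_inv_gv, inv_smul_smul] at h1
  have h2 := h _ h1
  have h3 := gv_bb g⁻¹ x (gv g v)
  rw [gv_inv_gv] at h3
  rwa [h3] at h2

/-- Scaling the centre. -/
theorem Tg_smul_center {ψ : AddChar F ℂ} {a v : ι → F} (ha : Q a = 0) {ω : Ω} {l : F} (hl : l ≠ 0)
    (h : v ∈ Tg Q ψ (l • a) ω) : l⁻¹ • v ∈ Tg Q ψ a ω := by
  rw [mem_Tg] at h ⊢
  intro w h1 h2
  have h3 : bb (l • a) (l⁻¹ • w) = 0 := by rw [polar_smul_r, polar_smul_l, h1]; simp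
  have h4 : eo Q (l • a) (l⁻¹ • w) = eo Q a w := by
    have h5 : bb a (l⁻¹ • w) = 0 := by rw [polar_smul_r, h1, mul_zero]
    rw [eo_smul_left ha h5, smul_smul, mul_inv_cancel₀ hl, one_smul]
  have h6 := h _ h3 (by rw [h4, h2])
  rw [polar_smul_l] at h6
  rwa [polar_smul_r, polar_smul_l] at *

/-- The semi-action of elements normalising the centre. -/
theorem Tg_semi {ψ : AddChar F ℂ} {a v : ι → F} (ha : Q a = 0) {ω : Ω} {g : OmG Q} {l : F} (hl : l ≠ 0)
    (hg : gv g a = l • a) (h : v ∈ Tg Q ψ a ω) : l⁻¹ • gv g v ∈ Tg Q ψ a (g • ω) := by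
  have h1 := Tg_act ha g h
  rw [hg] at h1
  exact Tg_smul_center ha hl h1

theorem orel_semi {a : ι → F} (ha : Q a = 0) {ω ω' : Ω} {g : OmG Q} {l : F} (hg : gv g a = l • a)
    (h : (orel Q Ω a).r ω ω') : (orel Q Ω a).r (g • ω) (g • ω') := by
  obtain ⟨w, h1, rfl⟩ := h
  have h2 : bb a (l • gv g w) = 0 := by
    by_cases hl : l = 0
    · rw [hl, zero_smul, polar_zero_r]
    · have h3 := gv_bb g a w
      rw [hg, polar_smul_l, h1] at h3
      rw [polar_smul_r, (mul_eq_zero.1 h3).resolve_left hl, mul_zero]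
  refine ⟨l • gv g w, h2, ?_⟩
  have h4 : bb a (gv g w) = 0 ∨ l = 0 := by
    by_cases hl : l = 0
    · exact Or.inr hl
    · left
      have h3 := gv_bb g a w
      rw [hg, polar_smul_l, h1] at h3
      exact (mul_eq_zero.1 h3).resolve_left hl
  have h5 : eo Q a (l • gv g w) = g * eo Q a w * g⁻¹ := by
    rw [eo_conj g ha h1, hg]
    rcases h4 with h4 | h4
    · rw [eo_smul_left ha h4]
    · have hg0 : gv g a = 0 := by rw [hg, h4, zero_smul]
      have ha0 : a = 0 := by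
        have := gv_inv_gv g a
        rw [hg0, gv_zero] at this
        exact this.symm
      subst ha0
      have e1 : ∀ x : ι → F, eo Q 0 x = 1 := fun x => Subtype.ext (ee_zero_left x)
      rw [smul_zero, e1, e1]
  rw [h5, mul_smul, mul_smul, inv_smul_smul]

theorem orel_semi_inv {a : ι → F} (ha : Q a = 0) {ω ω' : Ω} {g : OmG Q} {l : F} (hl : l ≠ 0) (hg : gv g a = l • a)
    (h : (orel Q Ω a).r (g • ω) (g • ω')) : (orel Q Ω a).r ω ω' := by
  have hg' : gv g⁻¹ a = l⁻¹ • a := by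
    have h1 := gv_inv_gv g a
    rw [hg, gv_smul] at h1
    have h2 : gv g⁻¹ a = l⁻¹ • (l • gv g⁻¹ a) := by rw [smul_smul, inv_mul_cancel₀ hl, one_smul]
    rw [h2, h1]
  have := orel_semi ha hg' h
  rwa [inv_smul_smul, inv_smul_smul] at this

/-- The perpendicular space of `a`. -/
def aPerp (Q : QuadraticForm F (ι → F)) (a : ι → F) : AddSubgroup (ι → F) where
  carrier := {w | QuadraticMap.polar (⇑Q) a w = 0}
  zero_mem' := polar_zero_r a
  add_mem' := by
    intro w w' (h1 : QuadraticMap.polar (⇑Q) a w = 0) (h2 : QuadraticMap.polar (⇑Q) a w' = 0)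
    show QuadraticMap.polar (⇑Q) a (w + w') = 0
    rw [polar_add_r, h1, h2, add_zero]
  neg_mem' := by
    intro w (h1 : QuadraticMap.polar (⇑Q) a w = 0)
    show QuadraticMap.polar (⇑Q) a (-w) = 0
    rw [polar_neg_r, h1, neg_zero]

theorem mem_aPerp {a w : ι → F} : w ∈ aPerp Q a ↔ bb a w = 0 := Iff.rfl

/-- Orbit stabiliser for the Eichler group. -/
theorem card_orbit_mul [Finite Ω] (a : ι → F) (ω : Ω) :
    Nat.card (aPerp Q a) = Nat.card {ω' // (orel Q Ω a).r ω ω'} * Nat.card (Sg Q a ω) := by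
  let f : aPerp Q a → {ω' // (orel Q Ω a).r ω ω'} := fun w => ⟨eo Q a (w : ι → F) • ω, ⟨w, w.2, rfl⟩⟩
  refine card_eq_mul_of_fibers f _ ?_
  rintro ⟨_, ⟨x, h1, rfl⟩⟩
  refine Nat.card_congr ⟨fun w => ⟨(w.1 : ι → F) - x, ?_, ?_⟩, fun s => ⟨⟨(s : ι → F) + x, ?_⟩, ?_⟩, ?_, ?_⟩
  · rw [polar_sub_r, mem_aPerp.1 w.1.2, h1, sub_zero]
  · have h2 : eo Q a (w.1 : ι → F) • ω = eo Q a x • ω := congrArg Subtype.val w.2
    have h3 : bb a (w.1 : ι → F) = 0 := w.1.2
    rw [sub_eq_add_neg, eo_add h3 (by rw [polar_neg_r, h1, neg_zero]), eo_comm h3 (by rw [polar_neg_r, h1, neg_zero]),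
      mul_smul, h2, eo_neg h1, inv_smul_smul]
  · show bb a ((s : ι → F) + x) = 0
    rw [polar_add_r, s.2.1, h1, add_zero]
  · apply Subtype.ext
    show eo Q a ((s : ι → F) + x) • ω = eo Q a x • ω
    rw [eo_add s.2.1 h1, eo_comm s.2.1 h1, mul_smul, s.2.2]
  · intro w
    apply Subtype.ext
    apply Subtype.ext
    show (w.1 : ι → F) - x + x = w.1
    rw [sub_add_cancel]
  · intro s
    apply Subtype.ext
    show (s : ι → F) + x - x = s
    rw [add_sub_cancel_right]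

/-- The perpendicular space has index `q`. -/
theorem card_aPerp_mul {a : ι → F} (ha : a ≠ 0) :
    Nat.card (aPerp Q a) * Fintype.card F = Nat.card (ι → F) := by
  classical
  obtain ⟨x, hx⟩ := exists_polar_eq_one (OS.nd : (QuadraticMap.polarBilin Q).Nondegenerate) ha
  have := card_eq_mul_of_fibers (fun v : ι → F => bb a v) (Nat.card (aPerp Q a)) ?_
  · rw [this, Nat.card_eq_fintype_card (α := F)]
    ring
  · intro t
    refine Nat.card_congr ⟨fun v => ⟨v.1 - t • x, ?_⟩, fun w => ⟨(w : ι → F) + t • x, ?_⟩, ?_, ?_⟩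
    · show bb a (v.1 - t • x) = 0
      rw [polar_sub_r, polar_smul_r, hx, v.2]
      ring
    · show bb a ((w : ι → F) + t • x) = t
      rw [polar_add_r, polar_smul_r, hx, mem_aPerp.1 w.2]
      ring
    · intro v
      apply Subtype.ext
      show v.1 - t • x + t • x = v.1
      rw [sub_add_cancel]
    · intro w
      apply Subtype.ext
      show (w : ι → F) + t • x - t • x = w
      rw [add_sub_cancel_right]

/-- The size of the dual subgroup is `q` times the orbit length. -/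
theorem card_Tg [Finite Ω] {ψ : AddChar F ℂ} {c : F} (hc : ψ c ≠ 1) {a : ι → F} (ha : a ≠ 0) (ω : Ω) :
    Nat.card (Tg Q ψ a ω) = Fintype.card F * Nat.card {ω' // (orel Q Ω a).r ω ω'} := by
  have h1 := card_bperp_mul (Q := Q) hc (Sg Q a ω)
  have h2 := card_aPerp_mul (Q := Q) ha
  rw [card_orbit_mul a ω] at h2
  have hpos : 0 < Nat.card (Sg Q a ω) := Nat.card_pos
  have h3 : Nat.card (Tg Q ψ a ω) * Nat.card (Sg Q a ω) =
      (Fintype.card F * Nat.card {ω' // (orel Q Ω a).r ω ω'}) * Nat.card (Sg Q a ω) := by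
    show Nat.card (bperp Q ψ (Sg Q a ω)) * _ = _
    rw [h1, ← h2]
    ring
  exact Nat.eq_of_mul_eq_mul_right hpos h3

/-- Summing over orbits. -/
theorem sum_card_Tg [Finite Ω] {ψ : AddChar F ℂ} {c : F} (hc : ψ c ≠ 1) {a : ι → F} (ha : a ≠ 0)
    [Fintype (Quotient (orel Q Ω a))] :
    ∑ O : Quotient (orel Q Ω a), Nat.card (Tg Q ψ a O.out) = Fintype.card F * Nat.card Ω := by
  classical
  have : Fintype Ω := Fintype.ofFinite Ω
  rw [Finset.sum_congr rfl (fun O _ => card_Tg hc ha O.out), ← Finset.mul_sum]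
  congr 1
  have h : ∀ O : Quotient (orel Q Ω a), Nat.card {ω' // (orel Q Ω a).r O.out ω'} =
      Fintype.card {ω' // Quotient.mk (orel Q Ω a) ω' = O} := by
    intro O
    rw [← Nat.card_eq_fintype_card]
    refine Nat.card_congr (Equiv.subtypeEquivRight ?_)
    intro ω'
    constructor
    · intro h
      rw [← Quotient.out_eq O]
      exact (Quotient.sound ((orel Q Ω a).iseqv.symm h))
    · intro h
      have h' : Quotient.mk (orel Q Ω a) ω' = Quotient.mk (orel Q Ω a) O.out := by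
        rw [h, Quotient.out_eq]
      exact (orel Q Ω a).iseqv.symm (Quotient.exact h')
  rw [Finset.sum_congr rfl (fun O _ => h O), Nat.card_eq_fintype_card]
  rw [← Fintype.card_sigma]
  exact Fintype.card_congr (Equiv.sigmaFiberEquiv (Quotient.mk (orel Q Ω a)))

theorem Tg_out {ψ : AddChar F ℂ} {a : ι → F} (ω : Ω) :
    Tg Q ψ a (Quotient.mk (orel Q Ω a) ω).out = Tg Q ψ a ω := by
  apply Tg_eq_of_rel
  exact Quotient.exact (Quotient.out_eq _)

/-- A vector fixed by the dual subgroup: the stabiliser contains what is orthogonal to the dual. -/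
theorem fix_of_forall {ψ : AddChar F ℂ} {c : F} (hc : ψ c ≠ 1) {a w : ι → F} {ω : Ω} (h0 : bb a w = 0)
    (h : ∀ x ∈ Tg Q ψ a ω, bb w x = 0) : eo Q a w • ω = ω := by
  have h1 : w ∈ bperp Q ψ (Tg Q ψ a ω) := by
    intro x hx
    rw [polar_symm x w, h x hx, AddChar.map_zero_eq_one]
  have h2 : w ∈ Sg Q a ω := by
    have := bperp_bperp (Q := Q) hc (Sg Q a ω)
    unfold Tg at h1
    rwa [this] at h1
  exact h2.2

end Orbits

end Cfsg.Agent.Lib.MinOrth
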