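import Mathlib
import Cfsg.Agent.Lib.MinOrth.Basic

/-! Moving vectors inside the perpendicular space of a singular vector, by elements of `Ω`. -/

set_option autoImplicit false
set_option linter.unusedSimpArgs false
set_option linter.unusedVariables false
set_option linter.unusedSectionVars false
set_option linter.style.haveILetI false

namespace Cfsg.Agent.Lib.MinOrth

open Matrix Module Cfsg.Agent.Lib.Classical
open scoped commutatorElement

variable {F : Type*} [Field F] [Fintype F] {ι : Type} [Fintype ι] [DecidableEq ι] {Q : QuadraticForm F (ι → F)}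

local notation "bb" => QuadraticMap.polar (DFunLike.coe Q)

variable [OS Q]

theorem perp_perp_eq (D : Submodule F (ι → F)) : qPerp Q (qPerp Q D) = D := by
  have h6 := LinearMap.BilinForm.orthogonal_orthogonal (OS.nd : (QuadraticMap.polarBilin Q).Nondegenerate)
    (polarBilin_isRefl (Q := Q)) D
  rw [← qPerp_eq_orthogonal, ← qPerp_eq_orthogonal] at h6
  exact h6

theorem exists_perp_one {D : Submodule F (ι → F)} {y : ι → F} (hy : y ∉ D) :
    ∃ x, (∀ d ∈ D, bb d x = 0) ∧ bb y x = 1 := by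
  have h : ¬ ∀ x ∈ qPerp Q D, bb y x = 0 := by
    intro h
    apply hy
    rw [← perp_perp_eq (Q := Q) D]
    exact h
  push Not at h
  obtain ⟨x, hx, hne⟩ := h
  refine ⟨(bb y x)⁻¹ • x, ?_, ?_⟩
  · intro d hd
    rw [polar_smul_r, polar_symm d x, hx d hd, mul_zero]
  · rw [polar_smul_r]
    exact inv_mul_cancel₀ hne

omit [OS Q] in
/-- Singular vectors separate the vectors of a non-degenerate subspace of dimension at least three. -/
theorem exists_sing_sep {C : Submodule F (ι → F)} (hC : QND Q C) (h3 : 3 ≤ finrank F C) {v : ι → F} (hv : v ∈ C)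
    (hv0 : v ≠ 0) : ∃ u ∈ C, Q u = 0 ∧ bb v u ≠ 0 := by
  obtain ⟨y, hy, z, hz, hy0, hz0, hyz⟩ := exists_hyp_in_qnd hC h3
  by_cases h1 : bb v y = 0
  swap
  · exact ⟨y, hy, hy0, h1⟩
  by_cases h2 : bb v z = 0
  swap
  · exact ⟨z, hz, hz0, h2⟩
  have h3' : ∃ w ∈ C, bb v w ≠ 0 := by
    by_contra hcon
    push Not at hcon
    exact hv0 (hC v hv hcon)
  obtain ⟨w, hw, hvw⟩ := h3'
  have hyy := polar_self_of_singular hy0
  have hzz := polar_self_of_singular hz0
  have hzy : bb z y = 1 := by rw [polar_symm, hyz]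
  set w₀ := w - bb w z • y - bb w y • z with hw₀
  have h4 : bb w₀ y = 0 := by
    rw [hw₀, polar_sub_l, polar_sub_l, polar_smul_l, polar_smul_l, hyy, hzy]
    ring
  have h5 : bb w₀ z = 0 := by
    rw [hw₀, polar_sub_l, polar_sub_l, polar_smul_l, polar_smul_l, hzz, hyz]
    ring
  have h6 : bb v w₀ = bb v w := by
    rw [hw₀, polar_sub_r, polar_sub_r, polar_smul_r, polar_smul_r, h1, h2]
    ring
  have hw₀C : w₀ ∈ C := C.sub_mem (C.sub_mem hw (C.smul_mem _ hy)) (C.smul_mem _ hz)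
  refine ⟨w₀ + y - Q w₀ • z, C.sub_mem (C.add_mem hw₀C hy) (C.smul_mem _ hz), ?_, ?_⟩
  · rw [q_sub, q_add, hy0, polar_smul_r, q_smul, hz0, polar_add_l, h5, hyz]
    have h7 : bb w₀ y = 0 := h4
    rw [h7]
    ring
  · rw [polar_sub_r, polar_add_r, polar_smul_r, h1, h2, h6]
    simpa using hvw

/-- A refined version of `exists_qnd_perp`. -/
theorem exists_qnd_perp' (D : Submodule F (ι → F)) :
    ∃ C : Submodule F (ι → F), C ≤ qPerp Q D ∧ QND Q C ∧
      (∀ x ∈ qPerp Q D, ∃ r ∈ D, r ∈ qPerp Q D ∧ ∃ c ∈ C, x = r + c) ∧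
      Fintype.card ι ≤ finrank F C + finrank F D + finrank F (D ⊓ qPerp Q D : Submodule F (ι → F)) := by
  set P := qPerp Q D with hP
  have hPP : qPerp Q P = D := perp_perp_eq D
  set R := P ⊓ qPerp Q P with hR
  obtain ⟨q', hq'⟩ := Submodule.exists_isCompl (R.comap P.subtype)
  refine ⟨q'.map P.subtype, ?_, ?_, ?_, ?_⟩
  · rintro _ ⟨x, -, rfl⟩
    exact x.2
  · rintro _ ⟨x, hx, rfl⟩ hperp
    have hxR : x ∈ R.comap P.subtype := by
      refine ⟨x.2, ?_⟩
      intro y hy
      change bb (x : ι → F) y = 0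
      have hy' : (⟨y, hy⟩ : P) ∈ (R.comap P.subtype) ⊔ q' := by
        rw [hq'.sup_eq_top]
        exact Submodule.mem_top
      obtain ⟨r, hr, c, hc, hrc⟩ := Submodule.mem_sup.1 hy'
      have hy2 : y = (r : ι → F) + (c : ι → F) := by
        have := congrArg Subtype.val hrc
        simpa using this.symm
      rw [hy2, polar_add_r]
      have h1 : bb (x : ι → F) (r : ι → F) = 0 := by
        rw [polar_symm]
        exact hr.2 x x.2
      have h2 : bb (x : ι → F) (c : ι → F) = 0 := hperp c ⟨c, hc, rfl⟩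
      rw [h1, h2, add_zero]
    have h0 : x ∈ (R.comap P.subtype) ⊓ q' := ⟨hxR, hx⟩
    rw [hq'.inf_eq_bot, Submodule.mem_bot] at h0
    rw [h0]
    rfl
  · intro x hx
    have hy' : (⟨x, hx⟩ : P) ∈ (R.comap P.subtype) ⊔ q' := by
      rw [hq'.sup_eq_top]
      exact Submodule.mem_top
    obtain ⟨r, hr, c, hc, hrc⟩ := Submodule.mem_sup.1 hy'
    have hy2 : x = (r : ι → F) + (c : ι → F) := by
      have := congrArg Subtype.val hrc
      simpa using this.symm
    have hrD : (r : ι → F) ∈ D := by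
      have h1 : (r : ι → F) ∈ qPerp Q P := hr.2
      rwa [hPP] at h1
    exact ⟨r, hrD, r.2, c, ⟨c, hc, rfl⟩, hy2⟩
  · have h1 := Submodule.finrank_add_eq_of_isCompl hq'
    have h2 : finrank F (q'.map P.subtype) = finrank F q' :=
      LinearEquiv.finrank_eq (Submodule.equivMapOfInjective _ P.injective_subtype q').symm
    have h3 : finrank F (R.comap P.subtype) ≤ finrank F (D ⊓ P : Submodule F (ι → F)) := by
      have h4 : finrank F (R.comap P.subtype) ≤ finrank F R := by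
        have := LinearMap.finrank_le_finrank_of_injective (f := (P.subtype.domRestrict (R.comap P.subtype)).codRestrict R
          (fun x => x.2)) (by
            intro a b hab
            have := congrArg Subtype.val hab
            exact Subtype.ext (Subtype.ext this))
        exact this
      have h5 : R ≤ D ⊓ P := by
        rintro x ⟨hx1, hx2⟩
        rw [hPP] at hx2
        exact ⟨hx2, hx1⟩
      exact h4.trans (Submodule.finrank_mono h5)
    have h7 := LinearMap.BilinForm.finrank_orthogonal (OS.nd : (QuadraticMap.polarBilin Q).Nondegenerate) D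
    rw [← qPerp_eq_orthogonal, Module.finrank_fintype_fun_eq_card] at h7
    have h8 : finrank F D ≤ Fintype.card ι := by
      have := Submodule.finrank_le D
      rwa [Module.finrank_fintype_fun_eq_card] at this
    change finrank F P = _ at h7
    omega

theorem finrank_span_pair_le (a e : ι → F) : finrank F (Submodule.span F ({a, e} : Set (ι → F))) ≤ 2 := by
  classical
  have := finrank_span_le_card (R := F) ({a, e} : Set (ι → F))
  refine this.trans ?_
  simp only [Set.toFinset_insert, Set.toFinset_singleton]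
  exact Finset.card_le_two

/-- A singular vector in the perpendicular space of two vectors, not orthogonal to a third one. -/
theorem exists_sing_perp {a e y : ι → F} (hy : y ∉ Submodule.span F ({a, e} : Set (ι → F))) :
    ∃ u, Q u = 0 ∧ bb a u = 0 ∧ bb e u = 0 ∧ bb y u ≠ 0 := by
  classical
  set D := Submodule.span F ({a, e} : Set (ι → F)) with hDdef
  have haD : a ∈ D := Submodule.subset_span (by simp)
  have heD : e ∈ D := Submodule.subset_span (by simp)
  obtain ⟨C, hCD, hC, hdec, hcard⟩ := exists_qnd_perp' (Q := Q) D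
  have hD2 : finrank F D ≤ 2 := finrank_span_pair_le a e
  have hD3 : finrank F (D ⊓ qPerp Q D : Submodule F (ι → F)) ≤ finrank F D := Submodule.finrank_mono inf_le_left
  have hbig := OS.big Q
  have h3 : 3 ≤ finrank F C := by omega
  by_contra hcon
  push Not at hcon
  have hD : ∀ u ∈ qPerp Q D, Q u = 0 → bb y u = 0 :=
    fun u hu hu0 => hcon u hu0 (perp_symm hu haD) (perp_symm hu heD)
  have hyC : ∀ c ∈ C, bb y c = 0 := by
    obtain ⟨p, hp, z, hz, hpz⟩ := qnd_decomp hC y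
    have hp0 : p = 0 := by
      by_contra hp0
      obtain ⟨u, hu, hu0, hne⟩ := exists_sing_sep hC h3 hp hp0
      have h1 := hD u (hCD hu) hu0
      rw [hpz, polar_add_l, hz u hu, add_zero] at h1
      exact hne h1
    intro c hc
    rw [hpz, hp0, zero_add]
    exact hz c hc
  apply hy
  rw [← perp_perp_eq (Q := Q) D]
  intro x hx
  obtain ⟨r, hrD, hrP, c, hc, rfl⟩ := hdec x hx
  rw [polar_add_r, hyC c hc, add_zero]
  by_cases hr : Q r = 0
  · exact hD r hrP hr
  · obtain ⟨s, hs, t, ht, hs0, ht0, hst⟩ := exists_hyp_in_qnd hC h3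
    set c' := s + Q r • t with hc'def
    have hc' : c' ∈ C := C.add_mem hs (C.smul_mem _ ht)
    have hQc' : Q c' = Q r := by
      rw [hc'def, q_add, hs0, q_smul, ht0, polar_smul_r, hst]
      ring
    have hrc' : bb r c' = 0 := perp_symm (hCD hc') hrD
    have hself : bb r r = 0 := hrP r hrD
    have h2 : 2 * Q r = 0 := by rw [← polar_self2]; exact hself
    have h4 := hD (r + c') ((qPerp Q D).add_mem hrP (hCD hc')) (by rw [q_add, hQc', hrc']; linear_combination h2)
    rw [polar_add_r, hyC c' hc', add_zero] at h4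
    exact h4

theorem move_one {a y y' : ι → F} (hy : bb a y = 0) (hy' : bb a y' = 0) (hQy : Q y = Q y')
    (hs : y ∉ Submodule.span F ({a, y' - y} : Set (ι → F))) : ∃ g : OmG Q, gv g a = a ∧ gv g y = y' := by
  obtain ⟨u, hu, hau, heu, hyu⟩ := exists_sing_perp (Q := Q) hs
  have hβ : bb y u = bb y' u := by
    rw [polar_sub_l, sub_eq_zero] at heu
    exact heu.symm
  obtain ⟨h1, h2⟩ := ee_move hu hQy hβ hyu
  refine ⟨eo Q u ((bb y u)⁻¹ • (y' - y)), ?_, h2⟩
  rw [eo_apply hu h1]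
  have h3 : bb u a = 0 := by rw [polar_symm, hau]
  have h4 : bb ((bb y u)⁻¹ • (y' - y)) a = 0 := by
    rw [polar_smul_l, polar_sub_l, polar_symm y' a, polar_symm y a, hy, hy']
    ring
  rw [h3, h4]
  simp

/-- Moving a vector of the perpendicular space to another one with the same norm. -/
theorem exists_fix_move {a y y' : ι → F} (hy : bb a y = 0) (hy' : bb a y' = 0) (hQy : Q y = Q y')
    (hyl : ∀ c : F, y ≠ c • a) (hyl' : ∀ c : F, y' ≠ c • a) : ∃ g : OmG Q, gv g a = a ∧ gv g y = y' := by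
  have key : ∀ {z z' : ι → F}, bb a z = 0 → bb a z' = 0 → Q z = Q z' → (∀ c : F, z ≠ c • a) →
      z' ∉ Submodule.span F ({a, z} : Set (ι → F)) → ∃ g : OmG Q, gv g a = a ∧ gv g z = z' := by
    intro z z' h1 h2 h3 h4 h5
    apply move_one h1 h2 h3
    intro hm
    obtain ⟨α, β, hab⟩ := Submodule.mem_span_pair.1 hm
    by_cases hβ : β = 0
    · subst hβ
      apply h4 α
      rw [← hab]
      simp
    · apply h5
      have e : β • (z' - z) = z - α • a := eq_sub_of_add_eq' hab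
      have : z' - z = β⁻¹ • (z - α • a) := by
        rw [← e, smul_smul, inv_mul_cancel₀ hβ, one_smul]
      have h6 : z' = z + β⁻¹ • (z - α • a) := by
        rw [← this]
        abel
      rw [h6]
      refine Submodule.add_mem _ (Submodule.subset_span (by simp)) (Submodule.smul_mem _ _ (Submodule.sub_mem _ (Submodule.subset_span (by simp)) (Submodule.smul_mem _ _ (Submodule.subset_span (by simp)))))
  by_cases h : y' ∈ Submodule.span F ({a, y} : Set (ι → F))
  · obtain ⟨s, t, hs, ht, hst, has, hys, hat, hyt⟩ := exists_hyp_perp2 (OS.nd : (QuadraticMap.polarBilin Q).Nondegenerate) (OS.big Q) a y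
    have hy2 : bb a (y + s) = 0 := by rw [polar_add_r, hy, has, add_zero]
    have hQ2 : Q y = Q (y + s) := by rw [q_add, hs, hys]; ring
    have h2t : bb (y + s) t = 1 := by rw [polar_add_l, hyt, hst, zero_add]
    have hnot1 : y + s ∉ Submodule.span F ({a, y} : Set (ι → F)) := by
      intro hm
      obtain ⟨α, β, hab⟩ := Submodule.mem_span_pair.1 hm
      rw [← hab, polar_add_l, polar_smul_l, polar_smul_l, hat, hyt] at h2t
      simp at h2t
    have hl2 : ∀ c : F, y + s ≠ c • a := by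
      intro c hc
      rw [hc, polar_smul_l, hat] at h2t
      simp at h2t
    obtain ⟨g₁, h1, h2⟩ := key hy hy2 hQ2 hyl hnot1
    have hnot2 : y' ∉ Submodule.span F ({a, y + s} : Set (ι → F)) := by
      intro hm
      obtain ⟨α, β, hab⟩ := Submodule.mem_span_pair.1 hm
      have e0 : bb y' t = 0 := by
        obtain ⟨α', β', hab'⟩ := Submodule.mem_span_pair.1 h
        rw [← hab', polar_add_l, polar_smul_l, polar_smul_l, hat, hyt]
        ring
      rw [← hab, polar_add_l, polar_smul_l, polar_smul_l, hat, h2t] at e0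
      have hβ : β = 0 := by simpa using e0
      apply hyl' α
      rw [← hab, hβ]
      simp
    obtain ⟨g₂, h3, h4⟩ := key hy2 hy' (hQ2.symm.trans hQy) hl2 hnot2
    refine ⟨g₂ * g₁, ?_, ?_⟩
    · rw [gv_mul, h1, h3]
    · rw [gv_mul, h2, h4]
  · exact key hy hy' hQy hyl h

/-- Transitivity on non-zero singular vectors. -/
theorem exists_omg_vec {a b : ι → F} (ha : Q a = 0) (hb : Q b = 0) (ha0 : a ≠ 0) (hb0 : b ≠ 0) :
    ∃ g : OmG Q, gv g a = b := by
  have hQ' := (OS.nd : (QuadraticMap.polarBilin Q).Nondegenerate)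
  have hn := OS.big Q
  have key : ∀ {x y : ι → F}, Q x = 0 → Q y = 0 → x ≠ 0 → (∀ c : F, y ≠ c • x) → ∃ g : OmG Q, gv g x = y := by
    intro x y hx hy hx0 hind
    obtain ⟨g, hg, hgu⟩ := exists_eGen_move hQ' hn (hx.trans hy.symm) hx0 hind
    exact ⟨⟨g, eGen_le_commutator hQ' hn hg⟩, hgu⟩
  by_cases hind : ∀ c : F, b ≠ c • a
  · exact key ha hb ha0 hind
  · push Not at hind
    obtain ⟨c, rfl⟩ := hind
    obtain ⟨s, t, hs, ht, hst, has, -, hat, -⟩ := exists_hyp_perp2 hQ' hn a a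
    have hs0 : s ≠ 0 := by
      rintro rfl
      rw [polar_zero_l] at hst
      exact zero_ne_one hst
    obtain ⟨g₁, h1⟩ := key ha hs ha0 (by
      intro d hd
      rw [hd, polar_smul_l, hat] at hst
      simp at hst)
    obtain ⟨g₂, h2⟩ := key hs hb hs0 (by
      intro d hd
      have : bb (c • a) t = bb (d • s) t := by rw [hd]
      rw [polar_smul_l, polar_smul_l, hat, hst] at this
      have hd0 : d = 0 := by simpa using this.symm
      rw [hd0, zero_smul] at hd
      exact hb0 hd)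
    exact ⟨g₂ * g₁, by rw [gv_mul, h1, h2]⟩

/-! ### Diagonal elements -/

omit [OS Q] in
theorem exists_dg {a a' : ι → F} (ha : Q a = 0) (ha' : Q a' = 0) (h : bb a a' = 1) {l : F} (hl : l ≠ 0) :
    ∃ (v₁ v₂ : ι → F) (h₁ : Q v₁ ≠ 0) (h₂ : Q v₂ ≠ 0), Q v₁ = -1 ∧ Q v₂ = -l ∧
      oM (rf v₁ h₁ * rf v₂ h₂) *ᵥ a = l • a ∧ oM (rf v₁ h₁ * rf v₂ h₂) *ᵥ a' = l⁻¹ • a' ∧
      ∀ x, bb a x = 0 → bb a' x = 0 → oM (rf v₁ h₁ * rf v₂ h₂) *ᵥ x = x := by
  have haa := polar_self_of_singular ha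
  have haa' := polar_self_of_singular ha'
  have h' : bb a' a = 1 := by rw [polar_symm, h]
  have hQ1 : Q (a - a') = -1 := by rw [q_sub, ha, ha', h]; ring
  have hQ2 : Q (a - l • a') = -l := by rw [q_sub, ha, q_smul, ha', polar_smul_r, h]; ring
  have h₁ : Q (a - a') ≠ 0 := by rw [hQ1]; exact neg_ne_zero.2 one_ne_zero
  have h₂ : Q (a - l • a') ≠ 0 := by rw [hQ2]; exact neg_ne_zero.2 hl
  refine ⟨a - a', a - l • a', h₁, h₂, hQ1, hQ2, ?_, ?_, ?_⟩
  · have s1 : oM (rf (a - l • a') h₂) *ᵥ a = l • a' := by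
      rw [rf_apply, hQ2, polar_sub_l, polar_smul_l, haa, h']
      have e1 : (-l)⁻¹ * (0 - l * 1) = 1 := by
        field_simp
        ring
      rw [e1, one_smul]
      abel
    have s2 : oM (rf (a - a') h₁) *ᵥ a' = a := by
      rw [rf_apply, hQ1, polar_sub_l, haa', h]
      have e1 : (-1 : F)⁻¹ * (1 - 0) = -1 := by simp
      rw [e1]
      module
    rw [oM_mul, s1, mulVec_smul, s2]
  · have s1 : oM (rf (a - l • a') h₂) *ᵥ a' = l⁻¹ • a := by
      rw [rf_apply, hQ2, polar_sub_l, polar_smul_l, haa', h]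
      have e1 : (-l)⁻¹ * (1 - l * 0) = -l⁻¹ := by
        field_simp
        ring
      rw [e1, smul_sub, smul_smul, neg_mul, inv_mul_cancel₀ hl]
      module
    have s2 : oM (rf (a - a') h₁) *ᵥ a = a' := by
      rw [rf_apply, hQ1, polar_sub_l, haa, h']
      have e1 : (-1 : F)⁻¹ * (0 - 1) = 1 := by simp
      rw [e1, one_smul]
      abel
    rw [oM_mul, s1, mulVec_smul, s2]
  · intro x hx hx'
    have h3 : bb (a - l • a') x = 0 := by rw [polar_sub_l, polar_smul_l, hx, hx']; ring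
    have h4 : bb (a - a') x = 0 := by rw [polar_sub_l, hx, hx']; ring
    rw [oM_mul, rf_fix _ h₂ h3, rf_fix _ h₁ h4]

/-- The torus element `d(ν²)` lies in `Ω`. -/
theorem exists_T {a a' : ι → F} (ha : Q a = 0) (ha' : Q a' = 0) (h : bb a a' = 1) {ν : F} (hν : ν ≠ 0) :
    ∃ t : OmG Q, gv t a = ν ^ 2 • a ∧ gv t a' = (ν ^ 2)⁻¹ • a' ∧ ∀ x, bb a x = 0 → bb a' x = 0 → gv t x = x := by
  have hl : ν ^ 2 ≠ 0 := pow_ne_zero _ hν
  obtain ⟨v₁, v₂, h₁, h₂, hQ1, hQ2, h3, h4, h5⟩ := exists_dg ha ha' h hl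
  have hQ3 : Q (ν⁻¹ • v₂) = -1 := by
    rw [q_smul, hQ2]
    field_simp
  have h₃ : Q (ν⁻¹ • v₂) ≠ 0 := by
    rw [hQ3]
    exact neg_ne_zero.2 one_ne_zero
  have e : rf (ν⁻¹ • v₂) h₃ = rf v₂ h₂ := rf_smul h₂ (inv_ne_zero hν) h₃
  have hm : rf v₁ h₁ * rf v₂ h₂ ∈ OmG Q := by
    rw [← e]
    exact rf_mul_rf_mem_commutator (OS.nd : (QuadraticMap.polarBilin Q).Nondegenerate) (card_ne_four (OS.big Q)) h₁ h₃ (hQ1.trans hQ3.symm)
  exact ⟨⟨_, hm⟩, h3, h4, h5⟩

/-- The product of two diagonal elements with the same parameter lies in `Ω`. -/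
theorem exists_DD {a a' b b' : ι → F} (ha : Q a = 0) (ha' : Q a' = 0) (h : bb a a' = 1) (hb : Q b = 0) (hb' : Q b' = 0)
    (h2 : bb b b' = 1) (hab : bb a b = 0) (hab' : bb a b' = 0) (ha'b : bb a' b = 0) (ha'b' : bb a' b' = 0)
    {l : F} (hl : l ≠ 0) :
    ∃ g : OmG Q, gv g a = l • a ∧ gv g a' = l⁻¹ • a' ∧ gv g b = l • b ∧ gv g b' = l⁻¹ • b' ∧
      ∀ x, bb a x = 0 → bb a' x = 0 → bb b x = 0 → bb b' x = 0 → gv g x = x := by
  obtain ⟨v₁, v₂, h₁, h₂, hQ1, hQ2, h3, h4, h5⟩ := exists_dg ha ha' h hl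
  obtain ⟨v₃, v₄, h₃, h₄, hQ3, hQ4, h6, h7, h8⟩ := exists_dg hb hb' h2 hl
  have hQ' := (OS.nd : (QuadraticMap.polarBilin Q).Nondegenerate)
  have hn := card_ne_four (F := F) (OS.big Q)
  have m1 := rf_mul_rf_mem_commutator hQ' hn h₁ h₃ (hQ1.trans hQ3.symm)
  have m2 := rf_mul_rf_mem_commutator hQ' hn h₂ h₄ (hQ2.trans hQ4.symm)
  have hm : (rf v₁ h₁ * rf v₂ h₂) * (rf v₃ h₃ * rf v₄ h₄) ∈ OmG Q := by
    change _ ∈ commutator (OG Q)
    rw [← Abelianization.ker_of, MonoidHom.mem_ker] at m1 m2 ⊢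
    rw [map_mul] at m1 m2
    rw [map_mul, map_mul, map_mul, mul_mul_mul_comm, m1, m2, one_mul]
  have hba : bb b a = 0 := by rw [polar_symm, hab]
  have hb'a : bb b' a = 0 := by rw [polar_symm, hab']
  have hba' : bb b a' = 0 := by rw [polar_symm, ha'b]
  have hb'a' : bb b' a' = 0 := by rw [polar_symm, ha'b']
  refine ⟨⟨_, hm⟩, ?_, ?_, ?_, ?_, ?_⟩
  · change oM ((rf v₁ h₁ * rf v₂ h₂) * (rf v₃ h₃ * rf v₄ h₄)) *ᵥ a = _
    rw [oM_mul, h8 a hba hb'a, h3]
  · change oM ((rf v₁ h₁ * rf v₂ h₂) * (rf v₃ h₃ * rf v₄ h₄)) *ᵥ a' = _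
    rw [oM_mul, h8 a' hba' hb'a', h4]
  · change oM ((rf v₁ h₁ * rf v₂ h₂) * (rf v₃ h₃ * rf v₄ h₄)) *ᵥ b = _
    rw [oM_mul, h6, mulVec_smul, h5 b hab ha'b]
  · change oM ((rf v₁ h₁ * rf v₂ h₂) * (rf v₃ h₃ * rf v₄ h₄)) *ᵥ b' = _
    rw [oM_mul, h7, mulVec_smul, h5 b' hab' ha'b']
  · intro x hx1 hx2 hx3 hx4
    change oM ((rf v₁ h₁ * rf v₂ h₂) * (rf v₃ h₃ * rf v₄ h₄)) *ᵥ x = _
    rw [oM_mul, h8 x hx3 hx4, h5 x hx1 hx2]

/-- A partner of a singular vector, orthogonal to further vectors. -/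
theorem exists_partner {a : ι → F} (ha : Q a = 0) {D : Submodule F (ι → F)} (hD : ∀ d ∈ D, bb a d = 0) (haD : a ∉ D) :
    ∃ a', Q a' = 0 ∧ bb a a' = 1 ∧ ∀ d ∈ D, bb d a' = 0 := by
  obtain ⟨x, h1, h2⟩ := exists_perp_one (Q := Q) haD
  have haa := polar_self_of_singular ha
  refine ⟨x - Q x • a, ?_, ?_, ?_⟩
  · rw [q_sub, q_smul, ha, polar_smul_r, polar_symm x a, h2]
    ring
  · rw [polar_sub_r, polar_smul_r, h2, haa]
    ring
  · intro d hd
    rw [polar_sub_r, polar_smul_r, h1 d hd, polar_symm d a, hD d hd]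
    ring

/-- Scaling by semi-linear moves: `y ↦ μ y`. -/
theorem exists_scale {a y : ι → F} (ha : Q a = 0) (ha0 : a ≠ 0) (hy : bb a y = 0) (hyl : ∀ c : F, y ≠ c • a) {μ : F}
    (hμ : μ ≠ 0) : ∃ (g : OmG Q) (l : F), l ≠ 0 ∧ gv g a = l • a ∧ l⁻¹ • gv g y = μ • y := by
  have hQ' := (OS.nd : (QuadraticMap.polarBilin Q).Nondegenerate)
  obtain ⟨b, b', hb, hb', hbb, hab, hyb, hab', hyb'⟩ := exists_hyp_perp2 hQ' (OS.big Q) a y
  -- a partner of `a` orthogonal to `y`, `b`, `b'`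
  let D : Submodule F (ι → F) := Submodule.span F {y, b, b'}
  have hD : ∀ d ∈ D, bb a d = 0 := by
    intro d hd
    obtain ⟨α, β, γ, rfl⟩ := Submodule.mem_span_triple.1 hd
    rw [polar_add_r, polar_add_r, polar_smul_r, polar_smul_r, polar_smul_r, hy, hab, hab']
    ring
  have haD : a ∉ D := by
    intro hm
    obtain ⟨α, β, γ, hαβγ⟩ := Submodule.mem_span_triple.1 hm
    have e1 : bb a b = β * bb b b + γ * bb b' b + α * bb y b := by
      rw [← hαβγ, polar_add_l, polar_add_l, polar_smul_l, polar_smul_l, polar_smul_l]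
      ring
    have e2 : bb a b' = β * bb b b' + γ * bb b' b' + α * bb y b' := by
      rw [← hαβγ, polar_add_l, polar_add_l, polar_smul_l, polar_smul_l, polar_smul_l]
      ring
    rw [hab, polar_self_of_singular hb, polar_symm b' b, hbb, hyb] at e1
    rw [hab', polar_self_of_singular hb', hbb, hyb'] at e2
    have hβ : β = 0 := by linear_combination -e2
    have hγ : γ = 0 := by linear_combination -e1
    rw [hβ, hγ] at hαβγ
    simp only [zero_smul, add_zero] at hαβγ
    have hα : α ≠ 0 := by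
      rintro rfl
      apply ha0
      rw [← hαβγ, zero_smul]
    apply hyl α⁻¹
    rw [← hαβγ, smul_smul, inv_mul_cancel₀ hα, one_smul]
  obtain ⟨a', ha', haa', hDa'⟩ := exists_partner ha hD haD
  have mem1 : y ∈ D := Submodule.subset_span (by simp)
  have mem2 : b ∈ D := Submodule.subset_span (by simp)
  have mem3 : b' ∈ D := Submodule.subset_span (by simp)
  have hya' := hDa' y mem1
  have hba' := hDa' b mem2
  have hb'a' := hDa' b' mem3
  have hl : μ⁻¹ ≠ 0 := inv_ne_zero hμ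
  obtain ⟨g₁, h1, h2, h3, h4, h5⟩ := exists_DD ha ha' haa' hb hb' hbb hab hab' (by rw [polar_symm, hba']) (by rw [polar_symm, hb'a']) hl
  refine ⟨g₁, μ⁻¹, hl, h1, ?_⟩
  rw [h5 y hy (by rw [polar_symm, hya']) (by rw [polar_symm, hyb]) (by rw [polar_symm, hyb']), inv_inv]

/-- The class of a vector of the perpendicular space: vectors with norms in the same square class. -/
theorem exists_semi_class {a y y' : ι → F} (ha : Q a = 0) (ha0 : a ≠ 0) (hy : bb a y = 0) (hy' : bb a y' = 0)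
    (hyl : ∀ c : F, y ≠ c • a) (hyl' : ∀ c : F, y' ≠ c • a) {μ : F} (hμ : μ ≠ 0) (hQy : Q y' = μ ^ 2 * Q y) :
    ∃ (g : OmG Q) (l : F), l ≠ 0 ∧ gv g a = l • a ∧ l⁻¹ • gv g y = y' := by
  obtain ⟨g, l, hl, h1, h2⟩ := exists_scale ha ha0 hy hyl hμ
  have hy2 : bb a (μ • y) = 0 := by rw [polar_smul_r, hy, mul_zero]
  have hyl2 : ∀ c : F, μ • y ≠ c • a := by
    intro c hc
    apply hyl (μ⁻¹ * c)
    rw [← smul_smul, ← hc, smul_smul, inv_mul_cancel₀ hμ, one_smul]
  obtain ⟨g', h3, h4⟩ := exists_fix_move hy2 hy' (by rw [q_smul, hQy]) hyl2 hyl'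
  refine ⟨g' * g, l, hl, ?_, ?_⟩
  · rw [gv_mul, h1, gv_smul, h3]
  · rw [gv_mul, ← gv_smul, h2, h4]

end Cfsg.Agent.Lib.MinOrth
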