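import Mathlib
import Cfsg.Agent.Lib.MinOrth.Moves

/-! The shape of the dual subgroups. -/

set_option autoImplicit false
set_option linter.unusedSimpArgs false
set_option linter.unusedVariables false
set_option linter.unusedSectionVars false
set_option linter.style.haveILetI false

namespace Cfsg.Agent.Lib.MinOrth

open Matrix Module Cfsg.Agent.Lib.Classical
open scoped commutatorElement

variable {F : Type*} [Field F] [Fintype F] {ι : Type} [Fintype ι] [DecidableEq ι] {Q : QuadraticForm F (ι → F)}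

local notation "bb" => QuadraticMap.polar (DFunLike.coe Q)

variable [OS Q] {Ω : Type*} [MulAction (OmG Q) Ω] {ψ : AddChar F ℂ}

/-- The invariance hypothesis at `y`: root elements fixing `a` and `y` preserve the orbits whose dual
subgroup contains `y`. -/
def TInv (Q : QuadraticForm F (ι → F)) [OS Q] (Ω : Type*) [MulAction (OmG Q) Ω] (ψ : AddChar F ℂ) (a y : ι → F) : Prop :=
  ∀ (ω : Ω) (x w : ι → F), y ∈ Tg Q ψ a ω → Q x = 0 → QuadraticMap.polar (⇑Q) a x = 0 →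
    QuadraticMap.polar (⇑Q) y x = 0 → QuadraticMap.polar (⇑Q) a w = 0 → QuadraticMap.polar (⇑Q) y w = 0 →
    QuadraticMap.polar (⇑Q) x w = 0 → (orel Q Ω a).r (eo Q x w • ω) ω

theorem Tg_inv_of_TInv {a y x w z : ι → F} {ω : Ω} (ha : Q a = 0) (hinv : TInv Q Ω ψ a y) (hyT : y ∈ Tg Q ψ a ω)
    (hx : Q x = 0) (hax : bb a x = 0) (hyx : bb y x = 0) (haw : bb a w = 0) (hyw : bb y w = 0) (hxw : bb x w = 0)
    (hzT : z ∈ Tg Q ψ a ω) : gv (eo Q x w) z ∈ Tg Q ψ a ω := by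
  have h1 : gv (eo Q x w) a = a := by
    rw [eo_apply hx hxw, polar_symm x a, hax, polar_symm w a, haw]
    simp
  have h2 := Tg_act (ψ := ψ) ha (eo Q x w) hzT
  rw [h1, Tg_eq_of_rel (hinv ω x w hyT hx hax hyx haw hyw hxw)] at h2
  exact h2

theorem inv_step {a y x w z : ι → F} {ω : Ω} (ha : Q a = 0) (hinv : TInv Q Ω ψ a y) (hyT : y ∈ Tg Q ψ a ω)
    (hx : Q x = 0) (hax : bb a x = 0) (hyx : bb y x = 0) (hxz : bb x z = 1) (haw : bb a w = 0) (hyw : bb y w = 0)
    (hxw : bb x w = 0) (hzT : z ∈ Tg Q ψ a ω) : w - (bb w z + Q w) • x ∈ Tg Q ψ a ω := by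
  have h1 := Tg_inv_of_TInv ha hinv hyT hx hax hyx haw hyw hxw hzT
  rw [eo_apply hx hxw, hxz] at h1
  have h2 := (Tg Q ψ a ω).sub_mem h1 hzT
  have e : z + (1 : F) • w - bb w z • x - (Q w * 1) • x - z = w - (bb w z + Q w) • x := by
    module
  rwa [e] at h2

theorem exists_pair_perp3 (a y x : ι → F) : ∃ w₀ w₁ : ι → F, bb a w₀ = 0 ∧ bb y w₀ = 0 ∧ bb x w₀ = 0 ∧ bb a w₁ = 0 ∧
    bb y w₁ = 0 ∧ bb x w₁ = 0 ∧ bb w₀ w₁ = 1 := by
  classical
  obtain ⟨C, hCD, hC, hcard⟩ := exists_qnd_perp (OS.nd : (QuadraticMap.polarBilin Q).Nondegenerate) (Submodule.span F ({a, y, x} : Set (ι → F)))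
  have h1 : finrank F (Submodule.span F ({a, y, x} : Set (ι → F))) ≤ 3 := by
    have := finrank_span_le_card (R := F) ({a, y, x} : Set (ι → F))
    refine this.trans ?_
    simp only [Set.toFinset_insert, Set.toFinset_singleton]
    exact Finset.card_le_three
  have hbig := OS.big Q
  have h2 : 1 ≤ finrank F C := by omega
  have h3 : ∃ w₀ ∈ C, w₀ ≠ 0 := by
    by_contra hcon
    push Not at hcon
    have : C = ⊥ := by
      rw [eq_bot_iff]
      intro v hv
      exact hcon v hv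
    rw [this] at h2
    simp at h2
  obtain ⟨w₀, hw₀, hne⟩ := h3
  have h4 : ∃ w₁ ∈ C, bb w₀ w₁ ≠ 0 := by
    by_contra hcon
    push Not at hcon
    exact hne (hC w₀ hw₀ hcon)
  obtain ⟨w₁, hw₁, h5⟩ := h4
  have ha : a ∈ Submodule.span F ({a, y, x} : Set (ι → F)) := Submodule.subset_span (by simp)
  have hy : y ∈ Submodule.span F ({a, y, x} : Set (ι → F)) := Submodule.subset_span (by simp)
  have hx : x ∈ Submodule.span F ({a, y, x} : Set (ι → F)) := Submodule.subset_span (by simp)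
  have hm : (bb w₀ w₁)⁻¹ • w₁ ∈ C := C.smul_mem _ hw₁
  exact ⟨w₀, (bb w₀ w₁)⁻¹ • w₁, perp_symm (hCD hw₀) ha, perp_symm (hCD hw₀) hy, perp_symm (hCD hw₀) hx,
    perp_symm (hCD hm) ha, perp_symm (hCD hm) hy, perp_symm (hCD hm) hx, by
      rw [polar_smul_r]
      exact inv_mul_cancel₀ h5⟩

theorem inv_line {a y x z : ι → F} {ω : Ω} (ha : Q a = 0) (hinv : TInv Q Ω ψ a y) (hyT : y ∈ Tg Q ψ a ω)
    (hx : Q x = 0) (hax : bb a x = 0) (hyx : bb y x = 0) (hxz : bb x z = 1) (hzT : z ∈ Tg Q ψ a ω) (c : F) :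
    c • x ∈ Tg Q ψ a ω := by
  obtain ⟨w₀, w₁, h1, h2, h3, h4, h5, h6, h7⟩ := exists_pair_perp3 (Q := Q) a y x
  have a1 : bb a (c • w₀) = 0 := by rw [polar_smul_r, h1, mul_zero]
  have a2 : bb y (c • w₀) = 0 := by rw [polar_smul_r, h2, mul_zero]
  have a3 : bb x (c • w₀) = 0 := by rw [polar_smul_r, h3, mul_zero]
  have d1 := inv_step ha hinv hyT hx hax hyx hxz a1 a2 a3 hzT
  have d2 := inv_step ha hinv hyT hx hax hyx hxz h4 h5 h6 hzT
  have d3 := inv_step ha hinv hyT hx hax hyx hxz (w := c • w₀ + w₁) (by rw [polar_add_r, a1, h4, add_zero])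
    (by rw [polar_add_r, a2, h5, add_zero]) (by rw [polar_add_r, a3, h6, add_zero]) hzT
  have h8 := (Tg Q ψ a ω).sub_mem ((Tg Q ψ a ω).add_mem d1 d2) d3
  have e : (c • w₀ - (bb (c • w₀) z + Q (c • w₀)) • x) + (w₁ - (bb w₁ z + Q w₁) • x) -
      ((c • w₀ + w₁) - (bb (c • w₀ + w₁) z + Q (c • w₀ + w₁)) • x) = c • x := by
    rw [q_add, polar_add_l, polar_smul_l c w₀ z, polar_smul_l c w₀ w₁, h7]
    module
  rwa [e] at h8

/-- The first consequence: the whole perpendicular space of `a, y, x` and the line of `x`. -/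
theorem inv_all {a y x z : ι → F} {ω : Ω} (ha : Q a = 0) (hinv : TInv Q Ω ψ a y) (hyT : y ∈ Tg Q ψ a ω)
    (hx : Q x = 0) (hax : bb a x = 0) (hyx : bb y x = 0) (hxz : bb x z ≠ 0) (hzT : z ∈ Tg Q ψ a ω) :
    (∀ c : F, c • x ∈ Tg Q ψ a ω) ∧ ∀ w, bb a w = 0 → bb y w = 0 → bb x w = 0 → w ∈ Tg Q ψ a ω := by
  set β := bb x z with hβ
  have hx' : Q (β⁻¹ • x) = 0 := by rw [q_smul, hx, mul_zero]
  have hax' : bb a (β⁻¹ • x) = 0 := by rw [polar_smul_r, hax, mul_zero]
  have hyx' : bb y (β⁻¹ • x) = 0 := by rw [polar_smul_r, hyx, mul_zero]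
  have hxz' : bb (β⁻¹ • x) z = 1 := by
    rw [polar_smul_l, ← hβ]
    exact inv_mul_cancel₀ hxz
  have hl := inv_line ha hinv hyT hx' hax' hyx' hxz' hzT
  constructor
  · intro c
    have := hl (c * β)
    rwa [smul_smul, mul_assoc, mul_inv_cancel₀ hxz, mul_one] at this
  · intro w h1 h2 h3
    have h4 : bb (β⁻¹ • x) w = 0 := by rw [polar_smul_l, h3, mul_zero]
    have h5 := inv_step ha hinv hyT hx' hax' hyx' hxz' h1 h2 h4 hzT
    have h6 := (Tg Q ψ a ω).add_mem h5 (hl (bb w z + Q w))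
    rwa [sub_add_cancel] at h6

theorem E_le_T {a y z : ι → F} {ω : Ω} {c₀ : F} (hc₀ : ψ c₀ ≠ 1) (ha : Q a = 0) (hinv : TInv Q Ω ψ a y) (hyT : y ∈ Tg Q ψ a ω)
    (hQy : Q y ≠ 0) (hy : bb a y = 0) (hzT : z ∈ Tg Q ψ a ω)
    (hz : z ∉ Submodule.span F ({a, y} : Set (ι → F))) : ∀ e, bb a e = 0 → bb y e = 0 → e ∈ Tg Q ψ a ω := by
  obtain ⟨x, hx, hax, hyx, hzx⟩ := exists_sing_perp (Q := Q) hz
  have hxz : bb x z ≠ 0 := by rwa [polar_symm]
  have hza : bb z a = 0 := by rw [polar_symm]; exact Tg_perp hc₀ ha hzT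
  have hxs : x ∉ Submodule.span F ({a, y} : Set (ι → F)) := by
    intro hm
    obtain ⟨α, β, hab⟩ := Submodule.mem_span_pair.1 hm
    have h1 : β = 0 := by
      have h2 : Q x = β ^ 2 * Q y := by
        rw [← hab, q_add, q_smul, q_smul, ha, polar_smul_l, polar_smul_r, hy]
        ring
      rw [hx] at h2
      have h3 := (mul_eq_zero.1 h2.symm).resolve_right hQy
      exact pow_eq_zero_iff (by norm_num) |>.1 h3
    rw [← hab, h1, polar_add_r, polar_smul_r, polar_smul_r, hza] at hzx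
    simp at hzx
  obtain ⟨x₁, hx₁, hax₁, hyx₁, hxx₁⟩ := exists_sing_perp (Q := Q) hxs
  obtain ⟨hl₁, hp₁⟩ := inv_all ha hinv hyT hx hax hyx hxz hzT
  have hnot : x₁ ∉ Submodule.span F ({a, y, x} : Set (ι → F)) := by
    intro hm
    obtain ⟨α, β, γ, hab⟩ := Submodule.mem_span_triple.1 hm
    apply hxx₁
    rw [polar_symm, ← hab, polar_add_l, polar_add_l, polar_smul_l, polar_smul_l, polar_smul_l, hax, hyx,
      polar_self_of_singular hx]
    ring
  obtain ⟨z₂, h1, h2⟩ := exists_perp_one (Q := Q) hnot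
  have hz₂T : z₂ ∈ Tg Q ψ a ω := hp₁ z₂ (h1 a (Submodule.subset_span (by simp))) (h1 y (Submodule.subset_span (by simp)))
    (h1 x (Submodule.subset_span (by simp)))
  obtain ⟨hl₂, -⟩ := inv_all ha hinv hyT hx₁ hax₁ hyx₁ (by rw [h2]; exact one_ne_zero) hz₂T
  intro e h3 h4
  have hxx₁' : bb x₁ x ≠ 0 := by rwa [polar_symm]
  set r := bb e x * (bb x₁ x)⁻¹ with hr
  have h5 := hp₁ (e - r • x₁) (by rw [polar_sub_r, polar_smul_r, h3, hax₁]; ring)
    (by rw [polar_sub_r, polar_smul_r, h4, hyx₁]; ring)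
    (by
      rw [polar_sub_r, polar_smul_r, polar_symm x e, polar_symm x x₁, hr]
      field_simp
      ring)
  have h6 := (Tg Q ψ a ω).add_mem h5 (hl₂ r)
  rwa [sub_add_cancel] at h6

/-- If the dual subgroup contains a non-singular vector `y` and a vector outside `⟨a, y⟩`, it is everything. -/
theorem full_of_two {a y z : ι → F} {ω : Ω} {c₀ : F} (hc₀ : ψ c₀ ≠ 1) (ha : Q a = 0)
    (hinv : ∀ y', bb a y' = 0 → Q y' = Q y → TInv Q Ω ψ a y') (hyT : y ∈ Tg Q ψ a ω)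
    (hQy : Q y ≠ 0) (hy : bb a y = 0) (hzT : z ∈ Tg Q ψ a ω)
    (hz : z ∉ Submodule.span F ({a, y} : Set (ι → F))) : ∀ v, bb a v = 0 → v ∈ Tg Q ψ a ω := by
  have E1 := E_le_T hc₀ ha (hinv y hy rfl) hyT hQy hy hzT hz
  obtain ⟨s, t, hs, ht, hst, has, hys, hat, hyt⟩ := exists_hyp_perp2 (OS.nd : (QuadraticMap.polarBilin Q).Nondegenerate) (OS.big Q) a y
  have hy2 : bb a (y + s) = 0 := by rw [polar_add_r, hy, has, add_zero]
  have hQ2 : Q (y + s) = Q y := by rw [q_add, hs, hys]; ring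
  have hy2T : y + s ∈ Tg Q ψ a ω := (Tg Q ψ a ω).add_mem hyT (E1 s has hys)
  have h2t : bb (y + s) t = 1 := by rw [polar_add_l, hyt, hst, zero_add]
  have hnot : y ∉ Submodule.span F ({a, y + s} : Set (ι → F)) := by
    intro hm
    obtain ⟨α, β, hab⟩ := Submodule.mem_span_pair.1 hm
    have e0 : bb y t = α * bb a t + β * bb (y + s) t := by
      conv_lhs => rw [← hab]
      rw [polar_add_l, polar_smul_l, polar_smul_l]
    rw [hyt, hat, h2t] at e0
    have hβ : β = 0 := by linear_combination -e0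
    rw [hβ, zero_smul, add_zero] at hab
    apply hQy
    rw [← hab, q_smul, ha, mul_zero]
  have E2 := E_le_T hc₀ ha (hinv (y + s) hy2 hQ2) hy2T (by rwa [hQ2]) hy2 hyT hnot
  obtain ⟨t₁, h1, h2⟩ := exists_perp_one (Q := Q) hnot
  have hat₁ : bb a t₁ = 0 := h1 a (Submodule.subset_span (by simp))
  have hyt₁ : bb (y + s) t₁ = 0 := h1 _ (Submodule.subset_span (by simp))
  intro v hv
  have h3 := E1 (v - bb y v • t₁) (by rw [polar_sub_r, polar_smul_r, hv, hat₁]; ring)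
    (by rw [polar_sub_r, polar_smul_r, h2]; ring)
  have h4 := E2 (bb y v • t₁) (by rw [polar_smul_r, hat₁, mul_zero]) (by rw [polar_smul_r, hyt₁, mul_zero])
  have h5 := (Tg Q ψ a ω).add_mem h3 h4
  rwa [sub_add_cancel] at h5

/-! ### The number of orbits whose dual subgroup contains a given vector -/

section Cnt

variable [Finite Ω]

open scoped _root_.Classical in
/-- The orbits of the Eichler group with centre `a` whose dual subgroup contains `v`. -/
noncomputable def Ov (Q : QuadraticForm F (ι → F)) [OS Q] (Ω : Type*) [MulAction (OmG Q) Ω] [Finite Ω] (ψ : AddChar F ℂ) (a v : ι → F) :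
    Finset (Quotient (orel Q Ω a)) :=
  haveI : Fintype (Quotient (orel Q Ω a)) := Fintype.ofFinite _
  Finset.univ.filter (fun O : Quotient (orel Q Ω a) => v ∈ Tg Q ψ a O.out)

theorem mem_Ov {a v : ι → F} {O : Quotient (orel Q Ω a)} : O ∈ Ov Q Ω ψ a v ↔ v ∈ Tg Q ψ a O.out := by
  simp [Ov]

theorem mk_mem_Ov {a v : ι → F} {ω : Ω} : Quotient.mk (orel Q Ω a) ω ∈ Ov Q Ω ψ a v ↔ v ∈ Tg Q ψ a ω := by
  rw [mem_Ov, Tg_out]

/-- The number of such orbits. -/
noncomputable def cnt (Q : QuadraticForm F (ι → F)) [OS Q] (Ω : Type*) [MulAction (OmG Q) Ω] [Finite Ω] (ψ : AddChar F ℂ) (a v : ι → F) : ℕ :=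
  (Ov Q Ω ψ a v).card

/-- The sum over all vectors. -/
theorem sum_cnt {c : F} (hc : ψ c ≠ 1) {a : ι → F} (ha : a ≠ 0) :
    ∑ v : ι → F, cnt Q Ω ψ a v = Fintype.card F * Nat.card Ω := by
  classical
  haveI : Fintype (Quotient (orel Q Ω a)) := Fintype.ofFinite _
  have h := sum_card_Tg (Q := Q) (Ω := Ω) hc ha
  rw [← h]
  simp only [cnt, Ov]
  simp_rw [Finset.card_filter]
  rw [Finset.sum_comm]
  refine Finset.sum_congr (by ext; simp) (fun O _ => ?_)
  rw [Nat.card_eq_fintype_card, Fintype.card_subtype, Finset.card_filter]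

/-- Semi-linear transport of the count. -/
theorem cnt_le_of_semi {a : ι → F} (ha : Q a = 0) {g : OmG Q} {l : F} (hl : l ≠ 0) (hg : gv g a = l • a) (v : ι → F) :
    cnt Q Ω ψ a v ≤ cnt Q Ω ψ a (l⁻¹ • gv g v) := by
  classical
  refine Finset.card_le_card_of_injOn (fun O => Quotient.mk (orel Q Ω a) (g • O.out)) ?_ ?_
  · intro O hO
    have hO' := mem_Ov.1 hO
    exact mk_mem_Ov.2 (Tg_semi ha hl hg hO')
  · intro O _ O' _ h
    have h1 : (orel Q Ω a).r (g • O.out) (g • O'.out) := Quotient.exact h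
    have h2 := orel_semi_inv ha hl hg h1
    have h3 : Quotient.mk (orel Q Ω a) O.out = Quotient.mk (orel Q Ω a) O'.out := Quotient.sound h2
    rwa [Quotient.out_eq, Quotient.out_eq] at h3

/-- Two different orbits. -/
theorem two_le_cnt {a v : ι → F} {ω₁ ω₂ : Ω} (h1 : v ∈ Tg Q ψ a ω₁) (h2 : v ∈ Tg Q ψ a ω₂)
    (hne : ¬ (orel Q Ω a).r ω₁ ω₂) : 2 ≤ cnt Q Ω ψ a v := by
  refine Nat.succ_le_of_lt (Finset.one_lt_card.2 ⟨_, mk_mem_Ov.2 h1, _, mk_mem_Ov.2 h2, ?_⟩)
  intro he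
  exact hne (Quotient.exact he)

theorem one_le_cnt {a v : ι → F} {ω : Ω} (h1 : v ∈ Tg Q ψ a ω) : 1 ≤ cnt Q Ω ψ a v :=
  Finset.card_pos.2 ⟨_, mk_mem_Ov.2 h1⟩

/-- A `p`-element fixing `a` and `y` preserves each orbit counted at `y`, when there are fewer than `p` of them. -/
theorem rel_of_cnt_lt {a y : ι → F} (ha : Q a = 0) {g : OmG Q} (hga : gv g a = a) (hgy : gv g y = y)
    {p : ℕ} (hp : p.Prime) (hgp : g ^ p = 1) (hcnt : cnt Q Ω ψ a y < p) {ω : Ω} (hyT : y ∈ Tg Q ψ a ω) :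
    (orel Q Ω a).r (g • ω) ω := by
  classical
  have hg' : gv g a = (1 : F) • a := by rw [one_smul, hga]
  let σ : Quotient (orel Q Ω a) → Quotient (orel Q Ω a) :=
    Quotient.map (fun ω => g • ω) (fun ω ω' h => orel_semi ha hg' h)
  have hσ : ∀ (k : ℕ) (ω' : Ω), σ^[k] (Quotient.mk _ ω') = Quotient.mk _ (g ^ k • ω') := by
    intro k
    induction k with
    | zero => simp
    | succ k ih =>
      intro ω'
      rw [Function.iterate_succ_apply, show σ (Quotient.mk _ ω') = Quotient.mk _ (g • ω') from rfl, ih, pow_succ, mul_smul]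
  set x := Quotient.mk (orel Q Ω a) ω with hx
  have hper : Function.IsPeriodicPt σ p x := by
    show σ^[p] x = x
    rw [hx, hσ, hgp, one_smul]
  have hdvd := hper.minimalPeriod_dvd
  rcases (Nat.dvd_prime hp).1 hdvd with h1 | h1
  · have h2 : Function.IsFixedPt σ x := Function.minimalPeriod_eq_one_iff_isFixedPt.1 h1
    have h3 : Quotient.mk (orel Q Ω a) (g • ω) = Quotient.mk _ ω := h2
    exact Quotient.exact h3
  · exfalso
    have hinj := Function.iterate_injOn_Iio_minimalPeriod (f := σ) (x := x)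
    rw [h1] at hinj
    have hle : (Finset.range p).card ≤ (Ov Q Ω ψ a y).card := by
      refine Finset.card_le_card_of_injOn (fun k => σ^[k] x) ?_ ?_
      · intro k _
        show σ^[k] x ∈ Ov Q Ω ψ a y
        rw [hx, hσ]
        refine mk_mem_Ov.2 ?_
        have hpow : ∀ k : ℕ, gv (g ^ k) a = a ∧ gv (g ^ k) y = y := by
          intro k
          induction k with
          | zero => simp [gv_one]
          | succ k ih =>
            rw [pow_succ, gv_mul, gv_mul, hga, hgy]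
            exact ih
        have h5 := Tg_act (ψ := ψ) ha (g ^ k) hyT
        rwa [(hpow k).1, (hpow k).2] at h5
      · intro k hk k' hk' h
        exact hinj (by simpa using hk) (by simpa using hk') h
    rw [Finset.card_range] at hle
    exact absurd hcnt (not_lt.2 hle)

/-- The invariance hypothesis from a small count. -/
theorem TInv_of_cnt_lt {a y : ι → F} (ha : Q a = 0) {p : ℕ} (hp : p.Prime) (hchar : (p : F) = 0)
    (hcnt : cnt Q Ω ψ a y < p) : TInv Q Ω ψ a y := by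
  intro ω x w hyT hx hax hyx haw hyw hxw
  have hga : gv (eo Q x w) a = a := by
    rw [eo_apply hx hxw, polar_symm x a, hax, polar_symm w a, haw]
    simp
  have hgy : gv (eo Q x w) y = y := by
    rw [eo_apply hx hxw, polar_symm x y, hyx, polar_symm w y, hyw]
    simp
  have hgp : (eo Q x w) ^ p = 1 := by
    rw [eo_pow hxw, hchar, zero_smul, eo_zero]
  exact rel_of_cnt_lt ha hga hgy hp hgp hcnt hyT

end Cnt

/-- The shape of a dual subgroup. -/
theorem Tg_shape {a : ι → F} {c₀ : F} (hc₀ : ψ c₀ ≠ 1) (ha : Q a = 0)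
    (hinv : ∀ y, bb a y = 0 → Q y ≠ 0 → TInv Q Ω ψ a y) (ω : Ω) :
    (∀ v, bb a v = 0 → v ∈ Tg Q ψ a ω) ∨
    (∃ y, bb a y = 0 ∧ Q y ≠ 0 ∧ y ∈ Tg Q ψ a ω ∧ ∀ z ∈ Tg Q ψ a ω, z ∈ Submodule.span F ({a, y} : Set (ι → F))) ∨
    (∀ z ∈ Tg Q ψ a ω, Q z = 0) := by
  by_cases h : ∃ y ∈ Tg Q ψ a ω, Q y ≠ 0
  · obtain ⟨y, hyT, hQy⟩ := h
    have hy := Tg_perp hc₀ ha hyT
    by_cases h2 : ∀ z ∈ Tg Q ψ a ω, z ∈ Submodule.span F ({a, y} : Set (ι → F))
    · exact Or.inr (Or.inl ⟨y, hy, hQy, hyT, h2⟩)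
    · push Not at h2
      obtain ⟨z, hzT, hz⟩ := h2
      refine Or.inl (full_of_two hc₀ ha (fun y' h1 h3 => hinv y' h1 (by rw [h3]; exact hQy)) hyT hQy hy hzT hz)
  · push Not at h
    exact Or.inr (Or.inr h)

end Cfsg.Agent.Lib.MinOrth
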