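import Mathlib
import Cfsg.Agent.Lib.MinOrth.Shape

/-! Counting vectors of given norm in perpendicular spaces. -/

set_option autoImplicit false
set_option linter.unusedSimpArgs false
set_option linter.unusedVariables false
set_option linter.unusedSectionVars false
set_option linter.style.haveILetI false

namespace Cfsg.Agent.Lib.MinOrth

open Matrix Module Cfsg.Agent.Lib.Classical
open scoped commutatorElement

variable {F : Type*} [Field F] [Fintype F] {ι : Type} [Fintype ι] [DecidableEq ι] {Q : QuadraticForm F (ι → F)}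

local notation "bb" => QuadraticMap.polar (DFunLike.coe Q)

/-- The part of `P` orthogonal to `u`. -/
def pp (Q : QuadraticForm F (ι → F)) (P : Submodule F (ι → F)) (u : ι → F) : Submodule F (ι → F) where
  carrier := {x | x ∈ P ∧ QuadraticMap.polar (⇑Q) u x = 0}
  add_mem' := by
    rintro x y ⟨h1, h2⟩ ⟨h3, h4⟩
    exact ⟨P.add_mem h1 h3, by rw [polar_add_r, h2, h4, add_zero]⟩
  zero_mem' := ⟨P.zero_mem, polar_zero_r u⟩
  smul_mem' := by
    rintro c x ⟨h1, h2⟩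
    exact ⟨P.smul_mem c h1, by rw [polar_smul_r, h2, mul_zero]⟩

theorem mem_pp {P : Submodule F (ι → F)} {u x : ι → F} : x ∈ pp Q P u ↔ x ∈ P ∧ bb u x = 0 := Iff.rfl

/-- The number of vectors of norm `κ` in `P`. -/
noncomputable def Nk (Q : QuadraticForm F (ι → F)) (P : Submodule F (ι → F)) (κ : F) : ℕ :=
  Nat.card {x : ι → F // x ∈ P ∧ Q x = κ}

variable {P : Submodule F (ι → F)} {u x₁ : ι → F}

theorem card_fiber_eq (hx₁ : x₁ ∈ P) (h1 : bb u x₁ = 1) (c : F) :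
    Nat.card {x : ι → F // x ∈ P ∧ bb u x = c} = Nat.card (pp Q P u) := by
  refine Nat.card_congr ⟨fun x => ⟨x.1 - c • x₁, P.sub_mem x.2.1 (P.smul_mem _ hx₁), ?_⟩, fun y => ⟨(y : ι → F) + c • x₁, P.add_mem y.2.1 (P.smul_mem _ hx₁), ?_⟩, ?_, ?_⟩
  · rw [polar_sub_r, polar_smul_r, h1, x.2.2]
    ring
  · rw [polar_add_r, polar_smul_r, h1, y.2.2]
    ring
  · intro x
    apply Subtype.ext
    show x.1 - c • x₁ + c • x₁ = x.1
    rw [sub_add_cancel]
  · intro y
    apply Subtype.ext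
    show (y : ι → F) + c • x₁ - c • x₁ = y
    rw [add_sub_cancel_right]

theorem card_P_mul (hx₁ : x₁ ∈ P) (h1 : bb u x₁ = 1) :
    Nat.card P = Nat.card (pp Q P u) * Fintype.card F := by
  have h := card_eq_mul_of_fibers (fun x : P => bb u (x : ι → F)) (Nat.card (pp Q P u)) (by
    intro c
    rw [← card_fiber_eq (Q := Q) hx₁ h1 c]
    refine Nat.card_congr ⟨fun x => ⟨x.1.1, x.1.2, x.2⟩, fun x => ⟨⟨x.1, x.2.1⟩, x.2.2⟩, fun _ => rfl, fun _ => rfl⟩)
  rw [h, Nat.card_eq_fintype_card (α := F), mul_comm]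

theorem card_value_fiber (hu : u ∈ P) (hQu : Q u = 0) (hx₁ : x₁ ∈ P) (h1 : bb u x₁ = 1) {c : F} (hc : c ≠ 0) (κ : F) :
    Fintype.card F * Nat.card {x : ι → F // x ∈ P ∧ bb u x = c ∧ Q x = κ} = Nat.card (pp Q P u) := by
  rw [← card_fiber_eq (Q := Q) hx₁ h1 c, ← Nat.card_eq_fintype_card, ← Nat.card_prod]
  symm
  have huu := polar_self_of_singular hQu
  refine Nat.card_congr ⟨fun x => (Q x.1, ⟨x.1 - ((Q x.1 - κ) * c⁻¹) • u, P.sub_mem x.2.1 (P.smul_mem _ hu), ?_, ?_⟩),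
    fun y => ⟨y.2.1 + ((y.1 - κ) * c⁻¹) • u, P.add_mem y.2.2.1 (P.smul_mem _ hu), ?_⟩, ?_, ?_⟩
  · rw [polar_sub_r, polar_smul_r, huu, x.2.2]
    ring
  · rw [q_sub, q_smul, hQu, polar_smul_r, polar_symm x.1 u, x.2.2]
    field_simp
    ring
  · rw [polar_add_r, polar_smul_r, huu, y.2.2.2.1]
    ring
  · intro x
    apply Subtype.ext
    show x.1 - ((Q x.1 - κ) * c⁻¹) • u + ((Q x.1 - κ) * c⁻¹) • u = x.1
    rw [sub_add_cancel]
  · rintro ⟨t, y⟩
    have hQ1 : Q (y.1 + ((t - κ) * c⁻¹) • u) = t := by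
      rw [q_add, y.2.2.2, q_smul, hQu, polar_smul_r, polar_symm y.1 u, y.2.2.1]
      field_simp
      ring
    apply Prod.ext
    · exact hQ1
    · apply Subtype.ext
      show y.1 + ((t - κ) * c⁻¹) • u - ((Q (y.1 + ((t - κ) * c⁻¹) • u) - κ) * c⁻¹) • u = y.1
      rw [hQ1, add_sub_cancel_right]

/-- The basic count. -/
theorem Nk_step (hu : u ∈ P) (hQu : Q u = 0) (hx₁ : x₁ ∈ P) (h1 : bb u x₁ = 1) (κ : F) :
    Fintype.card F * Nk Q P κ = Fintype.card F * Nk Q (pp Q P u) κ + (Fintype.card F - 1) * Nat.card (pp Q P u) := by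
  classical
  have h2 : Nk Q P κ = ∑ c : F, Nat.card {x : ι → F // x ∈ P ∧ bb u x = c ∧ Q x = κ} := by
    unfold Nk
    rw [← Nat.card_congr (Equiv.sigmaFiberEquiv (fun x : {x : ι → F // x ∈ P ∧ Q x = κ} => bb u (x : ι → F))),
      Nat.card_sigma]
    refine Finset.sum_congr rfl (fun c _ => ?_)
    refine Nat.card_congr ⟨fun x => ⟨x.1.1, x.1.2.1, x.2, x.1.2.2⟩, fun x => ⟨⟨x.1, x.2.1, x.2.2.2⟩, x.2.2.1⟩, fun _ => rfl, fun _ => rfl⟩
  have h3 : Nat.card {x : ι → F // x ∈ P ∧ bb u x = 0 ∧ Q x = κ} = Nk Q (pp Q P u) κ := by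
    refine Nat.card_congr ⟨fun x => ⟨x.1, ⟨x.2.1, x.2.2.1⟩, x.2.2.2⟩, fun x => ⟨x.1, x.2.1.1, x.2.1.2, x.2.2⟩, fun _ => rfl, fun _ => rfl⟩
  rw [h2, Finset.mul_sum, ← Finset.add_sum_erase _ _ (Finset.mem_univ (0 : F)), h3]
  congr 1
  rw [Finset.sum_congr rfl (fun c hc => card_value_fiber hu hQu hx₁ h1 (Finset.ne_of_mem_erase hc) κ)]
  rw [Finset.sum_const, Finset.card_erase_of_mem (Finset.mem_univ _), Finset.card_univ, smul_eq_mul]

variable [OS Q]

/-- The perpendicular space of a vector. -/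
abbrev P1 (Q : QuadraticForm F (ι → F)) (a : ι → F) : Submodule F (ι → F) := pp Q ⊤ a

theorem mem_P1 {a x : ι → F} : x ∈ P1 Q a ↔ bb a x = 0 := by
  rw [P1, mem_pp]
  simp

theorem card_P1_mul {a : ι → F} (ha : a ≠ 0) : Nat.card (P1 Q a) * Fintype.card F = Fintype.card F ^ Fintype.card ι := by
  obtain ⟨x, hx⟩ := exists_polar_eq_one (OS.nd : (QuadraticMap.polarBilin Q).Nondegenerate) ha
  have := card_P_mul (P := ⊤) Submodule.mem_top hx
  rw [← this, Nat.card_congr (Submodule.topEquiv (R := F) (M := ι → F)).toEquiv, Nat.card_eq_fintype_card]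
  simp

theorem card_P1 {a : ι → F} (ha : a ≠ 0) : Nat.card (P1 Q a) = Fintype.card F ^ (Fintype.card ι - 1) := by
  have h := card_P1_mul (Q := Q) ha
  have hq : 0 < Fintype.card F := Fintype.card_pos
  have hn := OS.big Q
  apply Nat.eq_of_mul_eq_mul_right hq
  rw [h, ← pow_succ]
  congr 1
  omega

/-- The number of vectors with given norm in the perpendicular space of `a`. -/
theorem N_top_eq {a : ι → F} (ha : Q a = 0) (ha0 : a ≠ 0) (κ : F) :
    Nk Q ⊤ κ = Nk Q (P1 Q a) κ + (Fintype.card F - 1) * Fintype.card F ^ (Fintype.card ι - 2) := by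
  obtain ⟨x, hx⟩ := exists_polar_eq_one (OS.nd : (QuadraticMap.polarBilin Q).Nondegenerate) ha0
  have h := Nk_step (P := ⊤) (u := a) Submodule.mem_top ha Submodule.mem_top hx κ
  have hq : 0 < Fintype.card F := Fintype.card_pos
  have hn := OS.big Q
  rw [card_P1 ha0] at h
  apply Nat.eq_of_mul_eq_mul_left hq
  rw [h, Nat.mul_add]
  congr 1
  have e : Fintype.card ι - 1 = (Fintype.card ι - 2) + 1 := by omega
  rw [e, pow_succ]
  ring

/-- The second step. -/
theorem N_P1_eq {a v x₁ : ι → F} (ha0 : a ≠ 0) (hv : Q v = 0) (hav : bb a v = 0) (hax₁ : bb a x₁ = 0) (h1 : bb v x₁ = 1) (κ : F) :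
    Nk Q (P1 Q a) κ = Nk Q (pp Q (P1 Q a) v) κ + (Fintype.card F - 1) * Fintype.card F ^ (Fintype.card ι - 3) := by
  have h := Nk_step (P := P1 Q a) (u := v) (mem_P1.2 hav) hv (mem_P1.2 hax₁) h1 κ
  have hq : 0 < Fintype.card F := Fintype.card_pos
  have hn := OS.big Q
  have h2 := card_P_mul (Q := Q) (P := P1 Q a) (mem_P1.2 hax₁) h1
  rw [card_P1 ha0] at h2
  have e : Fintype.card ι - 1 = (Fintype.card ι - 3) + 1 + 1 := by omega
  have h3 : Nat.card (pp Q (P1 Q a) v) = Fintype.card F ^ (Fintype.card ι - 3) * Fintype.card F := by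
    apply Nat.eq_of_mul_eq_mul_right hq
    rw [← h2, e, pow_succ, pow_succ]
  rw [h3] at h
  apply Nat.eq_of_mul_eq_mul_left hq
  rw [h, Nat.mul_add]
  congr 1
  ring

theorem card_P2 {a v x₁ : ι → F} (ha0 : a ≠ 0) (hav : bb a v = 0) (hax₁ : bb a x₁ = 0) (h1 : bb v x₁ = 1) :
    Nat.card (pp Q (P1 Q a) v) = Fintype.card F ^ (Fintype.card ι - 2) := by
  have hq : 0 < Fintype.card F := Fintype.card_pos
  have hn := OS.big Q
  have h2 := card_P_mul (Q := Q) (P := P1 Q a) (mem_P1.2 hax₁) h1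
  rw [card_P1 ha0] at h2
  have e : Fintype.card ι - 1 = (Fintype.card ι - 2) + 1 := by omega
  apply Nat.eq_of_mul_eq_mul_right hq
  rw [← h2, e, pow_succ]

/-- A lower bound for the number of vectors of given norm in the perpendicular space of `a`. -/
theorem N_P1_ge {a : ι → F} (ha0 : a ≠ 0) (κ : F) :
    (Fintype.card F - 1) * Fintype.card F ^ (Fintype.card ι - 3) + (Fintype.card F - 1) * Fintype.card F ^ (Fintype.card ι - 4) ≤ Nk Q (P1 Q a) κ := by
  have hQ' := (OS.nd : (QuadraticMap.polarBilin Q).Nondegenerate)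
  have hn := OS.big Q
  have hq : 0 < Fintype.card F := Fintype.card_pos
  obtain ⟨v, x₁, hv, hx₁, h1, hav, -, hax₁, -⟩ := exists_hyp_perp2 hQ' hn a a
  rw [N_P1_eq ha0 hv hav hax₁ h1 κ, add_comm]
  refine Nat.add_le_add_right ?_ _
  obtain ⟨v₂, x₂, hv₂, hx₂, h2, hav₂, hvv₂, hax₂, hvx₂⟩ := exists_hyp_perp2 hQ' hn a v
  have hm1 : v₂ ∈ pp Q (P1 Q a) v := ⟨mem_P1.2 hav₂, hvv₂⟩
  have hm2 : x₂ ∈ pp Q (P1 Q a) v := ⟨mem_P1.2 hax₂, hvx₂⟩
  have h3 := Nk_step hm1 hv₂ hm2 h2 κ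
  have h4 := card_P_mul (Q := Q) hm2 h2
  rw [card_P2 ha0 hav hax₁ h1] at h4
  have e : Fintype.card ι - 2 = (Fintype.card ι - 4) + 1 + 1 := by omega
  have h5 : Nat.card (pp Q (pp Q (P1 Q a) v) v₂) = Fintype.card F ^ (Fintype.card ι - 4) * Fintype.card F := by
    apply Nat.eq_of_mul_eq_mul_right hq
    rw [← h4, e, pow_succ, pow_succ]
  rw [h5] at h3
  apply Nat.le_of_mul_le_mul_left _ hq
  rw [h3]
  calc Fintype.card F * ((Fintype.card F - 1) * Fintype.card F ^ (Fintype.card ι - 4))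
      = (Fintype.card F - 1) * (Fintype.card F ^ (Fintype.card ι - 4) * Fintype.card F) := by ring
    _ ≤ _ := Nat.le_add_left _ _

/-- The class of norms: vectors in `a^⊥` with norm a non-zero square multiple of `κ`. -/
def Cl (Q : QuadraticForm F (ι → F)) (a : ι → F) (κ : F) : Set (ι → F) :=
  {v | QuadraticMap.polar (⇑Q) a v = 0 ∧ ∃ μ : F, μ ≠ 0 ∧ Q v = μ ^ 2 * κ}

/-- The class has at least half as many elements as the number of values times the lower bound. -/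
theorem card_Cl_ge {a : ι → F} (ha0 : a ≠ 0) {κ : F} (hκ : κ ≠ 0) :
    (Fintype.card F - 1) * ((Fintype.card F - 1) * Fintype.card F ^ (Fintype.card ι - 3) + (Fintype.card F - 1) * Fintype.card F ^ (Fintype.card ι - 4)) ≤ 2 * Nat.card (Cl Q a κ) := by
  classical
  set L := (Fintype.card F - 1) * Fintype.card F ^ (Fintype.card ι - 3) + (Fintype.card F - 1) * Fintype.card F ^ (Fintype.card ι - 4) with hL
  let A : Finset F := Finset.univ.erase 0
  let B : Finset (ι → F) := Finset.univ.filter (fun v => v ∈ Cl Q a κ)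
  let r : F → (ι → F) → Prop := fun μ v => bb a v = 0 ∧ Q v = μ ^ 2 * κ
  have hcount := Finset.sum_card_bipartiteAbove_eq_sum_card_bipartiteBelow (s := A) (t := B) r
  have h1 : ∀ μ ∈ A, L ≤ (Finset.bipartiteAbove r B μ).card := by
    intro μ hμ
    have hμ0 : μ ≠ 0 := Finset.ne_of_mem_erase hμ
    have h2 := N_P1_ge (Q := Q) ha0 (μ ^ 2 * κ)
    refine h2.trans (le_of_eq ?_)
    unfold Nk
    rw [Nat.card_eq_fintype_card, Fintype.card_subtype]
    congr 1
    ext v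
    simp only [Finset.bipartiteAbove, Finset.mem_filter, Finset.mem_univ, true_and, B, r, mem_P1]
    constructor
    · rintro ⟨h3, h4⟩
      exact ⟨⟨h3, μ, hμ0, h4⟩, h3, h4⟩
    · rintro ⟨-, h3, h4⟩
      exact ⟨h3, h4⟩
  have h2 : ∀ v ∈ B, (Finset.bipartiteBelow r A v).card ≤ 2 := by
    intro v _
    by_cases h : ∃ μ₀ ∈ Finset.bipartiteBelow r A v, True
    · obtain ⟨μ₀, h0, -⟩ := h
      have h3 : Finset.bipartiteBelow r A v ⊆ {μ₀, -μ₀} := by
        intro μ hμ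
        simp only [Finset.bipartiteBelow, Finset.mem_filter, r] at hμ h0
        have h4 : μ ^ 2 * κ = μ₀ ^ 2 * κ := by rw [← hμ.2.2, h0.2.2]
        have h5 : μ ^ 2 = μ₀ ^ 2 := mul_right_cancel₀ hκ h4
        have h6 : (μ - μ₀) * (μ + μ₀) = 0 := by linear_combination h5
        simp only [Finset.mem_insert, Finset.mem_singleton]
        rcases mul_eq_zero.1 h6 with h7 | h7
        · exact Or.inl (sub_eq_zero.1 h7)
        · exact Or.inr (eq_neg_of_add_eq_zero_left h7)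
      exact (Finset.card_le_card h3).trans Finset.card_le_two
    · have h3 : Finset.bipartiteBelow r A v = ∅ := by
        rw [Finset.eq_empty_iff_forall_notMem]
        intro μ hμ
        exact h ⟨μ, hμ, trivial⟩
      rw [h3]
      simp
  have h3 : A.card = Fintype.card F - 1 := by
    simp [A, Finset.card_erase_of_mem]
  have h4 : Nat.card (Cl Q a κ) = B.card := by
    rw [Nat.card_eq_fintype_card, Fintype.card_subtype]
  calc (Fintype.card F - 1) * L = A.card * L := by rw [h3]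
    _ ≤ ∑ μ ∈ A, (Finset.bipartiteAbove r B μ).card := Finset.card_nsmul_le_sum _ _ _ h1
    _ = ∑ v ∈ B, (Finset.bipartiteBelow r A v).card := hcount
    _ ≤ B.card * 2 := Finset.sum_le_card_nsmul _ _ _ h2
    _ = 2 * Nat.card (Cl Q a κ) := by rw [h4, mul_comm]

/-- In characteristic two, the class consists of all non-singular vectors of `a^⊥`. -/
theorem card_Cl_even [CharP F 2] {a : ι → F} (ha0 : a ≠ 0) {κ : F} (hκ : κ ≠ 0) :
    Nat.card (Cl Q a κ) + Nk Q (P1 Q a) 0 = Fintype.card F ^ (Fintype.card ι - 1) := by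
  classical
  rw [← card_P1 (Q := Q) ha0]
  have h1 : Cl Q a κ = {v | bb a v = 0 ∧ Q v ≠ 0} := by
    ext v
    constructor
    · rintro ⟨h1, μ, hμ, h2⟩
      exact ⟨h1, by rw [h2]; exact mul_ne_zero (pow_ne_zero _ hμ) hκ⟩
    · rintro ⟨h1, h2⟩
      refine ⟨h1, ?_⟩
      obtain ⟨μ, hμ⟩ := exists_sqrt2 (Q v * κ⁻¹)
      refine ⟨μ, ?_, ?_⟩
      · rintro rfl
        rw [zero_pow (by norm_num)] at hμ
        exact mul_ne_zero h2 (inv_ne_zero hκ) hμ.symm
      · rw [hμ]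
        field_simp
  rw [h1]
  have h2 : Nat.card {x : P1 Q a // Q (x : ι → F) = 0} = Nk Q (P1 Q a) 0 := by
    refine Nat.card_congr ⟨fun x => ⟨x.1.1, x.1.2, x.2⟩, fun x => ⟨⟨x.1, x.2.1⟩, x.2.2⟩, fun _ => rfl, fun _ => rfl⟩
  have h3 : Nat.card {x : P1 Q a // ¬ Q (x : ι → F) = 0} = Nat.card ({v | bb a v = 0 ∧ Q v ≠ 0} : Set (ι → F)) := by
    refine Nat.card_congr ⟨fun x => ⟨x.1.1, mem_P1.1 x.1.2, x.2⟩, fun x => ⟨⟨x.1, mem_P1.2 x.2.1⟩, x.2.2⟩, fun _ => rfl, fun _ => rfl⟩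
  have h4 := Nat.card_congr (Equiv.sumCompl (fun x : P1 Q a => Q (x : ι → F) = 0))
  rw [Nat.card_sum, h2, h3] at h4
  rw [← h4, add_comm]

end Cfsg.Agent.Lib.MinOrth
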