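import Mathlib
import Cfsg.Agent.Lib.MinOrth.Count

/-! Generation of `Ω` by large parts of the root groups, and double counting. -/

set_option autoImplicit false
set_option linter.unusedSimpArgs false
set_option linter.unusedVariables false
set_option linter.unusedSectionVars false
set_option linter.style.haveILetI false

namespace Cfsg.Agent.Lib.MinOrth

open Matrix Module Cfsg.Agent.Lib.Classical
open scoped commutatorElement LinearAlgebra.Projectivization

variable {F : Type*} [Field F] [Fintype F] {ι : Type} [Fintype ι] [DecidableEq ι] {Q : QuadraticForm F (ι → F)}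

local notation "bb" => QuadraticMap.polar (DFunLike.coe Q)

variable [OS Q]

/-- A subgroup containing all Eichler transformations is everything. -/
theorem eq_top_of_eo (H : Subgroup (OmG Q)) (h : ∀ a w, Q a = 0 → bb a w = 0 → eo Q a w ∈ H) : H = ⊤ := by
  have hQ' := (OS.nd : (QuadraticMap.polarBilin Q).Nondegenerate)
  have hn := OS.big Q
  rw [eq_top_iff]
  intro x _
  have hx : (x : OG Q) ∈ eGen Q := commutator_le_eGen hQ' hn x.2
  have hle : eGen Q ≤ H.map (OmG Q).subtype := by
    rw [eGen, Subgroup.closure_le]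
    rintro _ ⟨u, w, hu, h1, rfl⟩
    exact ⟨eo Q u w, h u w hu h1, rfl⟩
  obtain ⟨y, hy, hyx⟩ := hle hx
  have : y = x := Subtype.ext hyx
  rwa [← this]

/-- It is enough to have the Eichler transformations with singular directions. -/
theorem eq_top_of_eo_sing (H : Subgroup (OmG Q)) (h : ∀ a e, Q a = 0 → Q e = 0 → bb a e = 0 → eo Q a e ∈ H) : H = ⊤ := by
  have hQ' := (OS.nd : (QuadraticMap.polarBilin Q).Nondegenerate)
  have hn := OS.big Q
  apply eq_top_of_eo
  intro a w ha h1
  obtain ⟨s₁, s₂, s₃, h₁, h₂, h₃, hw, hu₁, hu₂, hu₃⟩ := exists_three_singular hQ' hn a w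
  have hu₁' : bb a s₁ = 0 := by rw [hu₁, h1]
  rw [hw, eo_add (by rw [polar_add_r, hu₁', hu₂, add_zero]) hu₃, eo_add hu₁' hu₂]
  exact mul_mem (mul_mem (h _ _ ha h₁ hu₁') (h _ _ ha h₂ hu₂)) (h _ _ ha h₃ hu₃)

/-- Generation from the large parts of the root groups. -/
theorem eq_top_of_lines (H : Subgroup (OmG Q))
    (hL : ∀ a, Q a = 0 → a ≠ 0 → ∃ v, ∀ w, bb a w = 0 → bb v w = 0 → eo Q a w ∈ H) : H = ⊤ := by
  have hQ' := (OS.nd : (QuadraticMap.polarBilin Q).Nondegenerate)
  have hn := OS.big Q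
  apply eq_top_of_eo_sing
  intro a e ha he hae
  by_cases ha0 : a = 0
  · subst ha0
    have : eo Q 0 e = 1 := Subtype.ext (ee_zero_left e)
    rw [this]
    exact one_mem _
  by_cases he0 : e = 0
  · subst he0
    rw [eo_zero]
    exact one_mem _
  obtain ⟨v, hv⟩ := hL a ha ha0
  obtain ⟨v', hv'⟩ := hL e he he0
  by_cases h1 : bb v e = 0
  · exact hv e hae h1
  have hea : bb e a = 0 := by rw [polar_symm, hae]
  by_cases h2 : bb v' a = 0
  · have h3 := hv' a hea h2
    rw [eo_swap he ha hea]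
    exact inv_mem h3
  obtain ⟨p, p', hp, hp', hpp, hap, hep, hap', hep'⟩ := exists_hyp_perp2 hQ' hn a e
  set τ := - (bb v p * (bb v e)⁻¹) with hτ
  set τ' := - (bb v' p' * (bb v' a)⁻¹) with hτ'
  set c := p + τ • e with hc
  set c' := p' + τ' • a with hc'
  have haa := polar_self_of_singular ha
  have hee := polar_self_of_singular he
  have hac : bb a c = 0 := by rw [hc, polar_add_r, polar_smul_r, hap, hae]; ring
  have hec : bb e c = 0 := by rw [hc, polar_add_r, polar_smul_r, hep, hee]; ring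
  have hac' : bb a c' = 0 := by rw [hc', polar_add_r, polar_smul_r, hap', haa]; ring
  have hec' : bb e c' = 0 := by rw [hc', polar_add_r, polar_smul_r, hep', hea]; ring
  have hvc : bb v c = 0 := by
    rw [hc, polar_add_r, polar_smul_r, hτ]
    field_simp
    ring
  have hvc' : bb v' c' = 0 := by
    rw [hc', polar_add_r, polar_smul_r, hτ']
    field_simp
    ring
  have hcc : bb c c' = 1 := by
    rw [hc, hc', polar_add_l, polar_add_r, polar_add_r, polar_smul_l, polar_smul_l, polar_smul_r, polar_smul_r, hpp,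
      polar_symm p a, hap, hep', polar_symm e a, hae]
    ring
  have hm := eo_comm_formula ha he hae hac hac' hec hec'
  rw [hcc, one_smul] at hm
  rw [← hm]
  rw [commutatorElement_def]
  exact mul_mem (mul_mem (mul_mem (hv c hac hvc) (hv' c' hec' hvc')) (inv_mem (hv c hac hvc))) (inv_mem (hv' c' hec' hvc'))

/-! ### Double counting over singular points -/

section Double

variable {Ω : Type*} [MulAction (OmG Q) Ω] [Finite Ω]

theorem gv_rep_smul (g : OmG Q) (p : SPt Q) : ∃ c : F, c ≠ 0 ∧ (g • p).1.rep = c • gv g p.1.rep := by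
  obtain ⟨v, hv, hvv, rfl⟩ := spt_ind p
  have h1 : g • (spMk hv hvv : SPt Q) = spMk (og_ne_zero g.1 hv) ((oM_Q g.1 v).trans hvv) := omg_smul_spMk g hv hvv
  rw [h1]
  obtain ⟨a, ha⟩ := Projectivization.exists_smul_eq_mk_rep F v hv
  obtain ⟨b, hb⟩ := Projectivization.exists_smul_eq_mk_rep F (oM g.1 *ᵥ v) (og_ne_zero g.1 hv)
  have e1 : (spMk hv hvv : SPt Q).1.rep = (a : F) • v := ha.symm
  have e2 : (spMk (og_ne_zero g.1 hv) ((oM_Q g.1 v).trans hvv) : SPt Q).1.rep = (b : F) • (oM g.1 *ᵥ v) := hb.symm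
  rw [e1, e2, gv_smul]
  refine ⟨(b : F) * ((a : F))⁻¹, mul_ne_zero b.ne_zero (inv_ne_zero a.ne_zero), ?_⟩
  rw [smul_smul, mul_assoc, inv_mul_cancel₀ a.ne_zero, mul_one]

theorem rep_singular (p : SPt Q) : Q p.1.rep = 0 := p.2

theorem rep_ne (p : SPt Q) : p.1.rep ≠ 0 := p.1.rep_nonzero

/-- Double counting for a relation between singular vectors and a transitive `Ω`-set. -/
theorem double_count (R : (ι → F) → Ω → Prop) (hscale : ∀ a ω (c : F), c ≠ 0 → R a ω → R (c • a) ω)
    (hact : ∀ a ω (g : OmG Q), R a ω → R (gv g a) (g • ω)) [MulAction.IsPretransitive (OmG Q) Ω]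
    {e : ℕ} (he : ∀ a, Q a = 0 → a ≠ 0 → Nat.card {ω // R a ω} = e) (ω₀ : Ω) :
    ∃ b, Nat.card (SPt Q) * e = Nat.card Ω * b := by
  classical
  have : Fintype Ω := Fintype.ofFinite Ω
  have : Finite (SPt Q) := by
    have : Finite (ℙ F (ι → F)) := inferInstance
    exact Subtype.finite
  have : Fintype (SPt Q) := Fintype.ofFinite _
  let b : Ω → ℕ := fun ω => (Finset.univ.filter (fun p : SPt Q => R p.1.rep ω)).card
  have hb : ∀ ω, b ω = b ω₀ := by
    have key : ∀ (g : OmG Q) ω, b ω ≤ b (g • ω) := by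
      intro g ω
      refine Finset.card_le_card_of_injOn (fun p => g • p) ?_ ?_
      · intro p hp
        have hp' : R p.1.rep ω := (Finset.mem_filter.1 hp).2
        refine Finset.mem_filter.2 ⟨Finset.mem_univ _, ?_⟩
        obtain ⟨c, hc, h2⟩ := gv_rep_smul g p
        rw [h2]
        exact hscale _ _ c hc (hact _ _ g hp')
      · intro p _ p' _ h
        exact MulAction.injective g h
    intro ω
    obtain ⟨g, rfl⟩ := MulAction.exists_smul_eq (OmG Q) ω₀ ω
    apply le_antisymm
    · have := key g⁻¹ (g • ω₀)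
      rwa [inv_smul_smul] at this
    · exact key g ω₀
  refine ⟨b ω₀, ?_⟩
  have h1 : ∑ p : SPt Q, (Finset.univ.filter (fun ω : Ω => R p.1.rep ω)).card = ∑ ω : Ω, b ω := by
    simp only [b]
    simp_rw [Finset.card_filter]
    rw [Finset.sum_comm]
  have h2 : ∀ p : SPt Q, (Finset.univ.filter (fun ω : Ω => R p.1.rep ω)).card = e := by
    intro p
    rw [← he p.1.rep p.2 p.1.rep_nonzero, Nat.card_eq_fintype_card, Fintype.card_subtype]
  rw [Finset.sum_congr rfl (fun p _ => h2 p), Finset.sum_congr rfl (fun ω _ => hb ω)] at h1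
  simp only [Finset.sum_const, Finset.card_univ, smul_eq_mul] at h1
  rw [Nat.card_eq_fintype_card, Nat.card_eq_fintype_card]
  exact h1

end Double

end Cfsg.Agent.Lib.MinOrth
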