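import Mathlib
import Cfsg.Agent.Lib.MinOrth.Gen

/-! The regular orbits of the Siegel groups; the torus trick. -/

set_option autoImplicit false
set_option linter.unusedSimpArgs false
set_option linter.unusedVariables false
set_option linter.unusedSectionVars false
set_option linter.style.haveILetI false

namespace Cfsg.Agent.Lib.MinOrth

open Matrix Module Cfsg.Agent.Lib.Classical
open scoped commutatorElement

variable {F : Type*} [Field F] [Fintype F] {ι : Type} [Fintype ι] [DecidableEq ι] {Q : QuadraticForm F (ι → F)}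

local notation "bb" => QuadraticMap.polar (DFunLike.coe Q)

variable [OS Q] {Ω : Type*} [MulAction (OmG Q) Ω] {ψ : AddChar F ℂ} {c₀ : F}

/-- The dual subgroup is the whole perpendicular space: the orbit is regular. -/
def Reg (Q : QuadraticForm F (ι → F)) [OS Q] [MulAction (OmG Q) Ω] (ψ : AddChar F ℂ) (a : ι → F) (ω : Ω) : Prop :=
  ∀ v, QuadraticMap.polar (⇑Q) a v = 0 → v ∈ Tg Q ψ a ω

theorem Reg_act {a : ι → F} (ha : Q a = 0) {ω : Ω} (g : OmG Q) (h : Reg Q ψ a ω) : Reg Q ψ (gv g a) (g • ω) := by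
  intro v hv
  have h1 : bb a (gv g⁻¹ v) = 0 := by
    have := gv_bb g⁻¹ (gv g a) v
    rw [gv_inv_gv, hv] at this
    exact this
  have h2 := Tg_act (ψ := ψ) ha g (h _ h1)
  rwa [gv_gv_inv] at h2

theorem Tg_smul_center' {a v : ι → F} (ha : Q a = 0) {ω : Ω} {l : F} (hl : l ≠ 0) (h : v ∈ Tg Q ψ a ω) :
    l • v ∈ Tg Q ψ (l • a) ω := by
  have hla : Q (l • a) = 0 := by rw [q_smul, ha, mul_zero]
  have h1 : v ∈ Tg Q ψ (l⁻¹ • (l • a)) ω := by rwa [smul_smul, inv_mul_cancel₀ hl, one_smul]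
  have h2 := Tg_smul_center hla (inv_ne_zero hl) h1
  rwa [inv_inv] at h2

theorem Reg_smul {a : ι → F} (ha : Q a = 0) {ω : Ω} {l : F} (hl : l ≠ 0) (h : Reg Q ψ a ω) : Reg Q ψ (l • a) ω := by
  intro v hv
  rw [polar_smul_l] at hv
  have h1 : bb a (l⁻¹ • v) = 0 := by
    rw [polar_smul_r, (mul_eq_zero.1 hv).resolve_left hl, mul_zero]
  have h2 := Tg_smul_center' ha hl (h _ h1)
  rwa [smul_smul, mul_inv_cancel₀ hl, one_smul] at h2

theorem Reg_rel {a : ι → F} {ω ω' : Ω} (hr : (orel Q Ω a).r ω ω') (h : Reg Q ψ a ω) : Reg Q ψ a ω' := by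
  intro v hv
  rw [← Tg_eq_of_rel hr]
  exact h v hv

theorem smul_mem_span_self {a c : ι → F} : c ∈ Submodule.span F ({a} : Set (ι → F)) ↔ ∃ d : F, c = d • a := by
  rw [Submodule.mem_span_singleton]
  constructor
  · rintro ⟨d, rfl⟩
    exact ⟨d, rfl⟩
  · rintro ⟨d, rfl⟩
    exact ⟨d, rfl⟩

/-- In a regular orbit the stabiliser is trivial. -/
theorem Sg_of_Reg (hc₀ : ψ c₀ ≠ 1) {a w : ι → F} {ω : Ω} (h : Reg Q ψ a ω) (hw : bb a w = 0) (hfix : eo Q a w • ω = ω) :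
    ∃ c : F, w = c • a := by
  by_contra hne
  have hn : w ∉ Submodule.span F ({a} : Set (ι → F)) := fun hm => hne (smul_mem_span_self.1 hm)
  obtain ⟨x, h1, h2⟩ := exists_perp_one (Q := Q) hn
  have h3 : bb a (c₀ • x) = 0 := by
    rw [polar_smul_r, h1 a (Submodule.mem_span_singleton_self a), mul_zero]
  have h4 := (mem_Tg.1 (h _ h3)) w hw hfix
  rw [polar_smul_r, h2, mul_one] at h4
  exact hc₀ h4

section Finite

variable [Finite Ω]

theorem sum_le_of_le {c : F} (hc : ψ c ≠ 1) {a : ι → F} (ha0 : a ≠ 0) (f : (ι → F) → ℕ)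
    (h : ∀ v, f v ≤ cnt Q Ω ψ a v) : ∑ v, f v ≤ Fintype.card F * Nat.card Ω := by
  rw [← sum_cnt (Q := Q) (Ω := Ω) hc ha0]
  exact Finset.sum_le_sum (fun v _ => h v)

open scoped _root_.Classical in
theorem sum_ite_card (A : Set (ι → F)) (k : ℕ) : (∑ v : ι → F, if v ∈ A then k else 0) = k * Nat.card A := by
  rw [Finset.sum_ite, Finset.sum_const_zero, add_zero, Finset.sum_const, smul_eq_mul, mul_comm]
  congr 1
  rw [Nat.card_eq_fintype_card, Fintype.card_subtype]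

/-- One level set. -/
theorem le_of_one {c : F} (hc : ψ c ≠ 1) {a : ι → F} (ha0 : a ≠ 0) (A : Set (ι → F)) (k : ℕ)
    (h : ∀ v ∈ A, k ≤ cnt Q Ω ψ a v) : k * Nat.card A ≤ Fintype.card F * Nat.card Ω := by
  classical
  rw [← sum_ite_card]
  refine sum_le_of_le (Q := Q) (Ω := Ω) hc ha0 _ (fun v => ?_)
  split_ifs with hv
  · exact h v hv
  · exact Nat.zero_le _

open scoped _root_.Classical in
/-- Two level sets. -/
theorem le_of_two {c : F} (hc : ψ c ≠ 1) {a : ι → F} (ha0 : a ≠ 0) (A B : Set (ι → F)) (k l : ℕ)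
    (h : ∀ v, (if v ∈ A then k else 0) + (if v ∈ B then l else 0) ≤ cnt Q Ω ψ a v) :
    k * Nat.card A + l * Nat.card B ≤ Fintype.card F * Nat.card Ω := by
  classical
  rw [← sum_ite_card, ← sum_ite_card, ← Finset.sum_add_distrib]
  exact sum_le_of_le (Q := Q) (Ω := Ω) hc ha0 _ h

open scoped _root_.Classical in
/-- Three level sets. -/
theorem le_of_three {c : F} (hc : ψ c ≠ 1) {a : ι → F} (ha0 : a ≠ 0) (A B C : Set (ι → F)) (k l m : ℕ)
    (h : ∀ v, (if v ∈ A then k else 0) + (if v ∈ B then l else 0) + (if v ∈ C then m else 0) ≤ cnt Q Ω ψ a v) :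
    k * Nat.card A + l * Nat.card B + m * Nat.card C ≤ Fintype.card F * Nat.card Ω := by
  classical
  rw [← sum_ite_card, ← sum_ite_card, ← sum_ite_card, ← Finset.sum_add_distrib, ← Finset.sum_add_distrib]
  exact sum_le_of_le (Q := Q) (Ω := Ω) hc ha0 _ h

/-- The singular vectors of `a^⊥` outside the line of `a`. -/
def Bs (Q : QuadraticForm F (ι → F)) (a : ι → F) : Set (ι → F) :=
  {v | Q v = 0 ∧ QuadraticMap.polar (⇑Q) a v = 0 ∧ ∀ c : F, v ≠ c • a}

/-- The line of `a`. -/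
def Ln (a : ι → F) : Set (ι → F) := {v | ∃ c : F, v = c • a}

/-- The non-singular vectors of `a^⊥`. -/
def Ns (Q : QuadraticForm F (ι → F)) (a : ι → F) : Set (ι → F) :=
  {v | Q v ≠ 0 ∧ QuadraticMap.polar (⇑Q) a v = 0}

theorem card_Ln {a : ι → F} (ha0 : a ≠ 0) : Nat.card (Ln a) = Fintype.card F := by
  rw [← Nat.card_eq_fintype_card]
  symm
  refine Nat.card_congr (Equiv.ofBijective (fun c : F => (⟨c • a, ⟨c, rfl⟩⟩ : Ln a)) ⟨?_, ?_⟩)
  · intro c d h
    have h' : c • a = d • a := congrArg Subtype.val h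
    exact smul_left_injective F ha0 h'
  · rintro ⟨_, ⟨c, rfl⟩⟩
    exact ⟨c, rfl⟩

theorem card_Bs_add {a : ι → F} (ha : Q a = 0) (ha0 : a ≠ 0) :
    Nat.card (Bs Q a) + Fintype.card F = Nk Q (P1 Q a) 0 := by
  classical
  rw [← card_Ln ha0]
  have haa := polar_self_of_singular ha
  let T := {x : ι → F // x ∈ P1 Q a ∧ Q x = 0}
  have e := Nat.card_congr (Equiv.sumCompl (fun x : T => ∃ c : F, (x : ι → F) = c • a))
  rw [Nat.card_sum] at e
  have h1 : Nat.card {x : T // ∃ c : F, (x : ι → F) = c • a} = Nat.card (Ln a) := by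
    refine Nat.card_congr ⟨fun x => ⟨x.1.1, x.2⟩, fun x => ⟨⟨x.1, ?_, ?_⟩, x.2⟩, fun _ => rfl, fun _ => rfl⟩
    · obtain ⟨c, hc⟩ := x.2
      rw [hc]
      exact mem_P1.2 (by rw [polar_smul_r, haa, mul_zero])
    · obtain ⟨c, hc⟩ := x.2
      rw [hc, q_smul, ha, mul_zero]
  have h2 : Nat.card {x : T // ¬ ∃ c : F, (x : ι → F) = c • a} = Nat.card (Bs Q a) := by
    refine Nat.card_congr ⟨fun x => ⟨x.1.1, x.1.2.2, mem_P1.1 x.1.2.1, ?_⟩, fun x => ⟨⟨x.1, mem_P1.2 x.2.2.1, x.2.1⟩, ?_⟩, fun _ => rfl, fun _ => rfl⟩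
    · intro c hc
      exact x.2 ⟨c, hc⟩
    · rintro ⟨c, hc⟩
      exact x.2.2.2 c hc
  rw [h1, h2] at e
  rw [add_comm, e]
  rfl

theorem card_Ns_add {a : ι → F} (ha0 : a ≠ 0) :
    Nk Q (P1 Q a) 0 + Nat.card (Ns Q a) = Fintype.card F ^ (Fintype.card ι - 1) := by
  classical
  rw [← card_P1 (Q := Q) ha0]
  have h2 : Nat.card {x : P1 Q a // Q (x : ι → F) = 0} = Nk Q (P1 Q a) 0 := by
    refine Nat.card_congr ⟨fun x => ⟨x.1.1, x.1.2, x.2⟩, fun x => ⟨⟨x.1, x.2.1⟩, x.2.2⟩, fun _ => rfl, fun _ => rfl⟩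
  have h3 : Nat.card {x : P1 Q a // ¬ Q (x : ι → F) = 0} = Nat.card (Ns Q a) := by
    refine Nat.card_congr ⟨fun x => ⟨x.1.1, x.2, mem_P1.1 x.1.2⟩, fun x => ⟨⟨x.1, mem_P1.2 x.2.2⟩, x.2.1⟩, fun _ => rfl, fun _ => rfl⟩
  have h4 := Nat.card_congr (Equiv.sumCompl (fun x : P1 Q a => Q (x : ι → F) = 0))
  rw [Nat.card_sum, h2, h3] at h4
  exact h4

theorem card_P1_set {a : ι → F} (ha0 : a ≠ 0) :
    Nat.card ({v | bb a v = 0} : Set (ι → F)) = Fintype.card F ^ (Fintype.card ι - 1) := by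
  rw [← card_P1 (Q := Q) ha0]
  refine Nat.card_congr ⟨fun x => ⟨x.1, mem_P1.2 x.2⟩, fun x => ⟨x.1, mem_P1.1 x.2⟩, fun _ => rfl, fun _ => rfl⟩

/-- There is at most one regular orbit. -/
theorem reg_unique {c : F} (hc : ψ c ≠ 1) {a : ι → F} (ha0 : a ≠ 0)
    (hd : Fintype.card F * Nat.card Ω < 2 * Fintype.card F ^ (Fintype.card ι - 1)) {ω₁ ω₂ : Ω}
    (h1 : Reg Q ψ a ω₁) (h2 : Reg Q ψ a ω₂) : (orel Q Ω a).r ω₁ ω₂ := by
  by_contra hne
  have := le_of_one (Q := Q) (Ω := Ω) hc ha0 {v | bb a v = 0} 2 (fun v hv => two_le_cnt (h1 v hv) (h2 v hv) hne)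
  rw [card_P1_set ha0] at this
  omega

theorem ne_smul_of_ns {a y : ι → F} (ha : Q a = 0) (hQy : Q y ≠ 0) : ∀ c : F, y ≠ c • a := by
  intro c hc
  apply hQy
  rw [hc, q_smul, ha, mul_zero]

/-- The count is constant on classes. -/
theorem cnt_class {a y v : ι → F} (ha : Q a = 0) (ha0 : a ≠ 0) (hy : bb a y = 0) (hQy : Q y ≠ 0)
    (hv : v ∈ Cl Q a (Q y)) : cnt Q Ω ψ a y ≤ cnt Q Ω ψ a v := by
  obtain ⟨hv1, μ, hμ, hv2⟩ := hv
  have hQv : Q v ≠ 0 := by
    rw [hv2]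
    exact mul_ne_zero (pow_ne_zero _ hμ) hQy
  obtain ⟨g, l, hl, h1, h2⟩ := exists_semi_class ha ha0 hy hv1 (ne_smul_of_ns ha hQy) (ne_smul_of_ns ha hQv) hμ hv2
  have := cnt_le_of_semi (Ω := Ω) (ψ := ψ) ha hl h1 y
  rwa [h2] at this

theorem cnt_sing {a v v' : ι → F} (ha : Q a = 0) (hv : v ∈ Bs Q a) (hv' : v' ∈ Bs Q a) :
    cnt Q Ω ψ a v ≤ cnt Q Ω ψ a v' := by
  obtain ⟨h1, h2, h3⟩ := hv
  obtain ⟨h4, h5, h6⟩ := hv'
  obtain ⟨g, hg1, hg2⟩ := exists_fix_move h2 h5 (h1.trans h4.symm) h3 h6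
  have := cnt_le_of_semi (Ω := Ω) (ψ := ψ) (v := v) ha (l := 1) one_ne_zero (by rw [one_smul, hg1])
  rwa [inv_one, one_smul, hg2] at this

/-- A non-regular orbit contains no non-singular vector in its dual. -/
theorem ns_rel {c : F} (hc : ψ c ≠ 1) {a y : ι → F} (ha : Q a = 0) (ha0 : a ≠ 0) {K : ℕ}
    (hK : K ≤ Nat.card (Cl Q a (Q y)))
    (hd : Fintype.card F * Nat.card Ω < Fintype.card F ^ (Fintype.card ι - 1) + K) {ω₁ ω₂ : Ω}
    (h1 : Reg Q ψ a ω₁) (hyT : y ∈ Tg Q ψ a ω₂) (hQy : Q y ≠ 0) : (orel Q Ω a).r ω₁ ω₂ := by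
  classical
  by_contra hne
  have hy := Tg_perp hc ha hyT
  have h2 : 2 ≤ cnt Q Ω ψ a y := two_le_cnt (h1 y hy) hyT hne
  have := le_of_two (Q := Q) (Ω := Ω) hc ha0 {v | bb a v = 0} (Cl Q a (Q y)) 1 1 (by
    intro v
    by_cases hv : v ∈ Cl Q a (Q y)
    · have h3 : v ∈ ({v | bb a v = 0} : Set (ι → F)) := hv.1
      rw [if_pos h3, if_pos hv]
      exact h2.trans (cnt_class ha ha0 hy hQy hv)
    · rw [if_neg hv, add_zero]
      split_ifs with h3
      · exact one_le_cnt (h1 v h3)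
      · exact Nat.zero_le _)
  rw [card_P1_set ha0] at this
  omega

/-- A non-singular vector perpendicular to three given vectors. -/
theorem exists_nonsing_perp3 (a v x : ι → F) : ∃ w, bb a w = 0 ∧ bb v w = 0 ∧ bb x w = 0 ∧ Q w ≠ 0 := by
  classical
  obtain ⟨C, hCD, hC, hcard⟩ := exists_qnd_perp (OS.nd : (QuadraticMap.polarBilin Q).Nondegenerate) (Submodule.span F ({a, v, x} : Set (ι → F)))
  have h1 : finrank F (Submodule.span F ({a, v, x} : Set (ι → F))) ≤ 3 := by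
    have := finrank_span_le_card (R := F) ({a, v, x} : Set (ι → F))
    refine this.trans ?_
    simp only [Set.toFinset_insert, Set.toFinset_singleton]
    exact Finset.card_le_three
  have hbig := OS.big Q
  have h2 : 1 ≤ finrank F C := by omega
  have h3 : C ≠ ⊥ := by
    rintro rfl
    simp at h2
  obtain ⟨w, hw, hQw⟩ := exists_nonsingular hC h3
  exact ⟨w, perp_symm (hCD hw) (Submodule.subset_span (by simp)), perp_symm (hCD hw) (Submodule.subset_span (by simp)),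
    perp_symm (hCD hw) (Submodule.subset_span (by simp)), hQw⟩

theorem polar_of_all_sing {T : AddSubgroup (ι → F)} (h : ∀ z ∈ T, Q z = 0) {x y : ι → F} (hx : x ∈ T) (hy : y ∈ T) :
    bb x y = 0 := by
  have h1 := h _ (T.add_mem hx hy)
  rw [q_add, h x hx, h y hy] at h1
  linear_combination h1

/-- If the orbit is preserved by the stabiliser of `a` and `v`, the dual subgroup lies in `⟨a, v⟩`. -/
theorem Tg_le_span_of_stable {c : F} (hc : ψ c ≠ 1) {a v : ι → F} (ha : Q a = 0) {ω : Ω}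
    (hTs : ∀ z ∈ Tg Q ψ a ω, Q z = 0)
    (hst : ∀ g : OmG Q, gv g a = a → gv g v = v → (orel Q Ω a).r ω (g • ω)) :
    ∀ z ∈ Tg Q ψ a ω, z ∈ Submodule.span F ({a, v} : Set (ι → F)) := by
  intro z hzT
  by_contra hz
  obtain ⟨x, hx, hax, hvx, hzx⟩ := exists_sing_perp (Q := Q) hz
  obtain ⟨w, haw, hvw, hxw, hQw⟩ := exists_nonsing_perp3 (Q := Q) a v x
  have hga : gv (eo Q x w) a = a := by
    rw [eo_apply hx hxw, polar_symm x a, hax, polar_symm w a, haw]
    simp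
  have hgv : gv (eo Q x w) v = v := by
    rw [eo_apply hx hxw, polar_symm x v, hvx, polar_symm w v, hvw]
    simp
  have h1 := Tg_act (ψ := ψ) ha (eo Q x w) hzT
  rw [hga, ← Tg_eq_of_rel (hst _ hga hgv)] at h1
  have h2 := polar_of_all_sing hTs h1 hzT
  have hzz : bb z z = 0 := polar_of_all_sing hTs hzT hzT
  rw [eo_apply hx hxw] at h2
  simp only [polar_sub_l, polar_add_l, polar_smul_l, hzz, polar_symm z x] at h2
  have h3 : Q w * bb x z ^ 2 = 0 := by linear_combination -h2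
  rw [polar_symm] at hzx
  exact (mul_ne_zero hQw (pow_ne_zero 2 hzx)) h3

theorem card_le_of_le_span {T : AddSubgroup (ι → F)} {a v : ι → F} (h : ∀ z ∈ T, z ∈ Submodule.span F ({a, v} : Set (ι → F))) :
    Nat.card T ≤ Fintype.card F ^ 2 := by
  classical
  set S := Submodule.span F ({a, v} : Set (ι → F))
  have h1 : Nat.card T ≤ Nat.card S := by
    refine Nat.card_le_card_of_injective (fun x => (⟨x.1, h x.1 x.2⟩ : S)) ?_
    intro x y hxy
    have h5 : (x : ι → F) = y := congrArg (fun z : S => (z : ι → F)) hxy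
    exact Subtype.ext h5
  have h2 : Nat.card S = Fintype.card F ^ finrank F S := by
    rw [Nat.card_eq_fintype_card]
    exact Module.card_eq_pow_finrank
  have h3 : finrank F S ≤ 2 := finrank_span_pair_le a v
  rw [h2] at h1
  exact h1.trans (Nat.pow_le_pow_right Fintype.card_pos h3)

end Finite

end Cfsg.Agent.Lib.MinOrth
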