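import Mathlib
import Cfsg.Agent.Lib.MinOrth.Reg

/-! The torus trick, and the exclusion of regular orbits. -/

set_option autoImplicit false
set_option linter.unusedSimpArgs false
set_option linter.unusedVariables false
set_option linter.unusedSectionVars false
set_option linter.style.haveILetI false

namespace Cfsg.Agent.Lib.MinOrth

open Matrix Module Cfsg.Agent.Lib.Classical
open scoped commutatorElement

variable {F : Type*} [Field F] [Fintype F] {ι : Type} [Fintype ι] [DecidableEq ι] {Q : QuadraticForm F (ι → F)}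

local notation "bb" => QuadraticMap.polar (DFunLike.coe Q)

variable [OS Q] {Ω : Type*} [MulAction (OmG Q) Ω] {ψ : AddChar F ℂ} {c₀ : F}

/-- Projection to the perpendicular space of a hyperbolic pair, for vectors perpendicular to `a`. -/
theorem exists_proj {a a' w : ι → F} (ha : Q a = 0) (haa' : bb a a' = 1) (hw : bb a w = 0) :
    ∃ w₀ : ι → F, bb a w₀ = 0 ∧ bb a' w₀ = 0 ∧ eo Q a w₀ = eo Q a w := by
  have haa := polar_self_of_singular ha
  have h1 : bb a (w - bb w a' • a) = 0 := by rw [polar_sub_r, polar_smul_r, hw, haa]; ring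
  refine ⟨w - bb w a' • a, h1, ?_, ?_⟩
  · rw [polar_sub_r, polar_smul_r, polar_symm a' a, haa', polar_symm a' w]
    ring
  · have := eo_add_smul (Q := Q) ha h1 (bb w a')
    rwa [sub_add_cancel, eq_comm] at this

theorem torus_conj {a a' w : ι → F} (ha : Q a = 0) {l : F} {t : OmG Q} (h1 : gv t a = l • a)
    (h2 : ∀ x, bb a x = 0 → bb a' x = 0 → gv t x = x) (hw : bb a w = 0) (hw' : bb a' w = 0) :
    t * eo Q a w * t⁻¹ = eo Q a (l • w) := by
  rw [eo_conj t ha hw, h1, h2 w hw hw', eo_smul_left ha hw]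

/-- A fixed point of the torus element in an invariant orbit. -/
theorem exists_torus_fix {a a' : ι → F} (ha : Q a = 0) (haa' : bb a a' = 1) {l : F} (hl : l ≠ 1) {t : OmG Q}
    (h1 : gv t a = l • a) (h2 : ∀ x, bb a x = 0 → bb a' x = 0 → gv t x = x) {ω : Ω}
    (hr : (orel Q Ω a).r ω (t • ω)) : ∃ ω₁, (orel Q Ω a).r ω ω₁ ∧ t • ω₁ = ω₁ := by
  obtain ⟨w₁, hw₁, h⟩ := hr
  obtain ⟨w₀, h3, h4, h5⟩ := exists_proj ha haa' hw₁
  rw [← h5] at h
  have hl' : 1 - l ≠ 0 := sub_ne_zero.2 hl.symm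
  set w := (1 - l)⁻¹ • w₀ with hw
  have h6 : bb a w = 0 := by rw [hw, polar_smul_r, h3, mul_zero]
  have h7 : bb a' w = 0 := by rw [hw, polar_smul_r, h4, mul_zero]
  refine ⟨eo Q a w • ω, ⟨w, h6, rfl⟩, ?_⟩
  have h8 : t • (eo Q a w • ω) = (t * eo Q a w * t⁻¹) • (t • ω) := by
    rw [mul_smul, mul_smul, inv_smul_smul]
  rw [h8, torus_conj ha h1 h2 h6 h7, ← h, ← mul_smul, ← eo_add (by rw [polar_smul_r, h6, mul_zero]) h3]
  have h9 : l • w + w₀ = w := by
    have h10 : w₀ = (1 - l) • w := by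
      rw [hw, smul_smul, mul_inv_cancel₀ hl', one_smul]
    rw [h10, sub_smul, one_smul]
    abel
  rw [h9]

/-- Rigidity of the fixed point. -/
theorem torus_rigid {a a' : ι → F} (ha : Q a = 0) (haa' : bb a a' = 1) {l : F} (hl : l ≠ 1) {t : OmG Q}
    (h1 : gv t a = l • a) (h2 : ∀ x, bb a x = 0 → bb a' x = 0 → gv t x = x) {ω₁ : Ω} (ht : t • ω₁ = ω₁)
    {g : OmG Q} (hcomm : g * t = t * g) (hr : (orel Q Ω a).r ω₁ (g • ω₁))
    (hS : ∀ w (μ : F), w ∈ Sg Q a ω₁ → μ • w ∈ Sg Q a ω₁) : g • ω₁ = ω₁ := by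
  obtain ⟨z₁, hz₁, hz⟩ := hr
  obtain ⟨z, h3, h4, h5⟩ := exists_proj ha haa' hz₁
  rw [← h5] at hz
  have h6 : t • (g • ω₁) = g • ω₁ := by
    rw [← mul_smul, ← hcomm, mul_smul, ht]
  have h7 : t • (eo Q a z • ω₁) = eo Q a (l • z) • ω₁ := by
    have h8 : t • (eo Q a z • ω₁) = (t * eo Q a z * t⁻¹) • (t • ω₁) := by
      rw [mul_smul, mul_smul, inv_smul_smul]
    rw [h8, ht, torus_conj ha h1 h2 h3 h4]
  rw [← hz] at h6
  rw [h7] at h6
  have hlz : bb a (l • z) = 0 := by rw [polar_smul_r, h3, mul_zero]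
  have hnz : bb a (-z) = 0 := by rw [polar_neg_r, h3, neg_zero]
  have h9 : eo Q a ((l - 1) • z) • ω₁ = ω₁ := by
    have e : (l - 1) • z = -z + l • z := by
      rw [sub_smul, one_smul]
      abel
    rw [e, eo_add hnz hlz, mul_smul, h6, eo_neg h3, inv_smul_smul]
  have hm : (l - 1) • z ∈ Sg Q a ω₁ := ⟨by rw [polar_smul_r, h3, mul_zero], h9⟩
  have hm2 := hS _ (l - 1)⁻¹ hm
  rw [smul_smul, inv_mul_cancel₀ (sub_ne_zero.2 hl), one_smul] at hm2
  rw [← hz]
  exact hm2.2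

/-- The dual closed under scalars implies the stabiliser closed under scalars. -/
theorem Sg_smul_of_Tg {c : F} (hc : ψ c ≠ 1) {a : ι → F} {ω : Ω} (hT : ∀ v (μ : F), v ∈ Tg Q ψ a ω → μ • v ∈ Tg Q ψ a ω) :
    ∀ w (μ : F), w ∈ Sg Q a ω → μ • w ∈ Sg Q a ω := by
  intro w μ hw
  have h1 : w ∈ bperp Q ψ (Tg Q ψ a ω) := le_bperp_bperp ψ (Sg Q a ω) hw
  have h2 : μ • w ∈ bperp Q ψ (Tg Q ψ a ω) := by
    intro v hv
    rw [polar_smul_r, ← polar_smul_l]
    exact h1 _ (hT v μ hv)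
  have h3 := bperp_bperp (Q := Q) hc (Sg Q a ω)
  unfold Tg at h2
  rwa [h3] at h2

section Finite

variable [Finite Ω]

/-- All orbits cannot be regular, when the field is large enough. -/
theorem no_all_reg {c : F} (hc : ψ c ≠ 1) [Nonempty Ω] {ν : F} (hν : ν ≠ 0) (hν1 : ν ^ 2 ≠ 1)
    (hd : Fintype.card F * Nat.card Ω < 2 * Fintype.card F ^ (Fintype.card ι - 1))
    (hall : ∀ a, Q a = 0 → a ≠ 0 → ∀ ω : Ω, Reg Q ψ a ω) : False := by
  have hQ' := (OS.nd : (QuadraticMap.polarBilin Q).Nondegenerate)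
  have hn := OS.big Q
  obtain ⟨a, a', ha, ha', haa', -, -, -, -⟩ := exists_hyp_perp2 hQ' hn (0 : ι → F) 0
  have ha0 : a ≠ 0 := by
    rintro rfl
    rw [polar_zero_l] at haa'
    exact zero_ne_one haa'
  obtain ⟨u, u', hu, hu', huu', hau, ha'u, hau', ha'u'⟩ := exists_hyp_perp2 hQ' hn a a'
  have hu0 : u ≠ 0 := by
    rintro rfl
    rw [polar_zero_l] at huu'
    exact zero_ne_one huu'
  obtain ⟨x, x', h1, h2, h3, -, -, h6, h7⟩ := exists_pair_perp3 (Q := Q) a a' u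
  obtain ⟨t, h8, -, h9⟩ := exists_T ha ha' haa' hν
  obtain ⟨ω⟩ := ‹Nonempty Ω›
  have hr : (orel Q Ω a).r ω (t • ω) := reg_unique hc ha0 hd (hall a ha ha0 ω) (hall a ha ha0 _)
  obtain ⟨ω₁, -, ht⟩ := exists_torus_fix ha haa' hν1 h8 h9 hr
  have hreg₁ := hall a ha ha0 ω₁
  have hcomm : eo Q u x * t = t * eo Q u x := by
    have e := eo_conj t hu h3
    rw [h9 u hau ha'u, h9 x h1 h2] at e
    have e2 : eo Q u x * t = (t * eo Q u x * t⁻¹) * t := by rw [e]
    rw [e2]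
    group
  have hg := torus_rigid ha haa' hν1 h8 h9 ht hcomm (reg_unique hc ha0 hd hreg₁ (hall a ha ha0 _)) (by
    intro w μ hw
    obtain ⟨d, rfl⟩ := Sg_of_Reg hc hreg₁ hw.1 hw.2
    refine ⟨by rw [polar_smul_r, hw.1, mul_zero], ?_⟩
    rw [smul_smul, eo_smul_self ha, one_smul])
  obtain ⟨d, hd'⟩ := Sg_of_Reg hc (hall u hu hu0 ω₁) h3 hg
  rw [hd', polar_smul_l, h6, mul_zero] at h7
  exact zero_ne_one h7

theorem cnt_line (a : ι → F) (d : F) : cnt Q Ω ψ a (d • a) = Nat.card (Quotient (orel Q Ω a)) := by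
  classical
  haveI inst : Fintype (Quotient (orel Q Ω a)) := Fintype.ofFinite _
  have h : Ov Q Ω ψ a (d • a) = Finset.univ := by
    ext O
    simp only [Finset.mem_univ, iff_true]
    exact mem_Ov.2 (smul_self_mem_Tg _ _)
  unfold cnt
  rw [h, Finset.card_univ, Nat.card_eq_fintype_card]

theorem card_Tg_le {c : F} (hc : ψ c ≠ 1) {a : ι → F} (ha : Q a = 0) (ha0 : a ≠ 0) (ω : Ω) :
    Nat.card (Tg Q ψ a ω) ≤ Fintype.card F ^ (Fintype.card ι - 1) := by
  rw [← card_P1_set (Q := Q) ha0]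
  refine Nat.card_le_card_of_injective (fun x => (⟨x.1, Tg_perp hc ha x.2⟩ : ({v | bb a v = 0} : Set (ι → F)))) ?_
  intro x y hxy
  have h5 : (x : ι → F) = y := congrArg (fun z : ({v | bb a v = 0} : Set (ι → F)) => (z : ι → F)) hxy
  exact Subtype.ext h5

/-- The size of a regular orbit. -/
theorem card_reg_orbit {c : F} (hc : ψ c ≠ 1) {a : ι → F} (ha : Q a = 0) (ha0 : a ≠ 0) {ω : Ω} (h : Reg Q ψ a ω) :
    Nat.card {ω' // (orel Q Ω a).r ω ω'} = Fintype.card F ^ (Fintype.card ι - 2) := by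
  have h1 := card_Tg (Q := Q) hc ha0 ω
  have h2 : Nat.card (Tg Q ψ a ω) = Fintype.card F ^ (Fintype.card ι - 1) := by
    rw [← card_P1_set (Q := Q) ha0]
    refine Nat.card_congr ⟨fun x => ⟨x.1, Tg_perp hc ha x.2⟩, fun x => ⟨x.1, h x.1 x.2⟩, fun _ => rfl, fun _ => rfl⟩
  rw [h2] at h1
  have hq : 0 < Fintype.card F := Fintype.card_pos
  have hn := OS.big Q
  have e : Fintype.card ι - 1 = (Fintype.card ι - 2) + 1 := by omega
  rw [e, pow_succ, mul_comm] at h1
  exact (Nat.eq_of_mul_eq_mul_left hq h1).symm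

/-- The number of points `ω` for which the orbit is regular. -/
theorem card_reg {c : F} (hc : ψ c ≠ 1) {a : ι → F} (ha : Q a = 0) (ha0 : a ≠ 0)
    (hd : Fintype.card F * Nat.card Ω < 2 * Fintype.card F ^ (Fintype.card ι - 1)) {ω : Ω} (h : Reg Q ψ a ω) :
    Nat.card {ω' : Ω // Reg Q ψ a ω'} = Fintype.card F ^ (Fintype.card ι - 2) := by
  rw [← card_reg_orbit (Ω := Ω) hc ha ha0 h]
  refine Nat.card_congr (Equiv.subtypeEquivRight (fun ω' => ⟨fun h1 => reg_unique hc ha0 hd h h1, fun h1 => Reg_rel h1 h⟩))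

theorem card_not_reg_add {a : ι → F} :
    Nat.card {ω' : Ω // ¬ Reg Q ψ a ω'} + Nat.card {ω' : Ω // Reg Q ψ a ω'} = Nat.card Ω := by
  classical
  have h4 := Nat.card_congr (Equiv.sumCompl (fun x : Ω => Reg Q ψ a x))
  rw [Nat.card_sum] at h4
  rw [add_comm]
  exact h4

theorem arith_regA {q K₀ X Bc Nc d N A₀ : ℕ} (hq : 2 ≤ q) (hK₀ : 0 < K₀) (hBc : Bc + q = A₀) (hNs : A₀ + Nc = X * q)
    (hlow : K₀ * q + 2 * Bc + 1 * Nc ≤ q * d) (hup : q * d ≤ X * q + (K₀ - 1) * q ^ 2)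
    (hN : (q - 1) * N = Bc + (q - 1) * (X + 1)) (hdN : d < N) : d + 1 = N := by
  obtain ⟨p, rfl⟩ : ∃ p, q = p + 1 := ⟨q - 1, by omega⟩
  obtain ⟨k, rfl⟩ : ∃ k, K₀ = k + 1 := ⟨K₀ - 1, by omega⟩
  simp only [add_tsub_cancel_right] at hup hN
  have hp1 : 1 ≤ p := by omega
  have e1 : (k + 1) * (p + 1) = k * (p + 1) + (p + 1) := by ring
  have h1 : k * (p + 1) + Bc + X * (p + 1) ≤ (p + 1) * d := by omega
  have e2 : X * (p + 1) + k * (p + 1) ^ 2 = (p + 1) * (X + k * (p + 1)) := by ring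
  rw [e2] at hup
  have h3 : d ≤ X + k * (p + 1) := Nat.le_of_mul_le_mul_left hup (by omega)
  have h4 : X ≤ d := by
    have h5 : (p + 1) * X ≤ (p + 1) * d := by
      have e3 : (p + 1) * X = X * (p + 1) := by ring
      omega
    exact Nat.le_of_mul_le_mul_left h5 (by omega)
  obtain ⟨e, rfl⟩ : ∃ e, d = X + e := ⟨d - X, by omega⟩
  have h6 : e ≤ k * (p + 1) := by omega
  have e4 : (p + 1) * (X + e) = X * (p + 1) + (p * e + e) := by ring
  have h7 : Bc ≤ p * e := by omega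
  have h8 : p * N ≤ p * (X + e + 1) := by
    have e5 : p * (X + e + 1) = p * e + p * (X + 1) := by ring
    omega
  have h9 := Nat.le_of_mul_le_mul_left h8 (by omega)
  omega

set_option maxHeartbeats 2000000 in
/-- The exclusion of regular orbits. -/
theorem no_reg (hc₀ : ψ c₀ ≠ 1) [MulAction.IsPretransitive (OmG Q) Ω] [Nontrivial Ω]
    {K A₀ N : ℕ} {ν : F} (hν : ν ≠ 0) (hν1 : ν ^ 2 ≠ 1)
    (hK : ∀ a κ, Q a = 0 → a ≠ 0 → κ ≠ 0 → K ≤ Nat.card (Cl Q a κ))
    (hd1 : Fintype.card F * Nat.card Ω < 2 * Fintype.card F ^ (Fintype.card ι - 1))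
    (hd2 : Fintype.card F * Nat.card Ω < Fintype.card F ^ (Fintype.card ι - 1) + K)
    (hd3 : Fintype.card F * Nat.card Ω < Fintype.card F ^ (Fintype.card ι - 1) + 2 * (A₀ - Fintype.card F))
    (hA : ∀ a, Q a = 0 → a ≠ 0 → Nk Q (P1 Q a) 0 = A₀)
    (hN : (Fintype.card F - 1) * N = (A₀ - Fintype.card F) + (Fintype.card F - 1) * (Fintype.card F ^ (Fintype.card ι - 2) + 1))
    (hNp : Nat.card (SPt Q) = N) (hdN : Nat.card Ω < N)
    {a₀ : ι → F} {ω₀ : Ω} (ha₀ : Q a₀ = 0) (ha₀0 : a₀ ≠ 0) (hreg : Reg Q ψ a₀ ω₀) : False := by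
  classical
  have hQ' := (OS.nd : (QuadraticMap.polarBilin Q).Nondegenerate)
  have hbig := OS.big Q
  have hq2 : 2 ≤ Fintype.card F := Fintype.one_lt_card
  have hRegAll : ∀ a, Q a = 0 → a ≠ 0 → ∃ ω : Ω, Reg Q ψ a ω := by
    intro a ha ha0
    obtain ⟨g, hg⟩ := exists_omg_vec ha₀ ha ha₀0 ha0
    refine ⟨g • ω₀, ?_⟩
    have := Reg_act ha₀ g hreg
    rwa [hg] at this
  have hS : ∀ a (ω : Ω) z, Q a = 0 → a ≠ 0 → ¬ Reg Q ψ a ω → z ∈ Tg Q ψ a ω → Q z = 0 := by
    intro a ω z ha ha0 hnr hz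
    by_contra hQz
    obtain ⟨ω_R, hR⟩ := hRegAll a ha ha0
    exact hnr (Reg_rel (ns_rel hc₀ ha ha0 (hK a (Q z) ha ha0 hQz) hd2 hR hz hQz) hR)
  by_cases hA' : ∃ a v, ∃ ω : Ω, Q a = 0 ∧ a ≠ 0 ∧ v ∈ Bs Q a ∧ ¬ Reg Q ψ a ω ∧ v ∈ Tg Q ψ a ω
  · obtain ⟨a, v, ω, ha, ha0, hvB, hnr, hvT⟩ := hA'
    obtain ⟨ω_R, hR⟩ := hRegAll a ha ha0
    have hfixinv : ∀ (g : OmG Q) (ω' : Ω), gv g a = a → Reg Q ψ a (g • ω') → Reg Q ψ a ω' := by
      intro g ω' hg h
      have h1 := Reg_act ha g⁻¹ h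
      have e : gv g⁻¹ a = a := by
        have := gv_inv_gv g a
        rwa [hg] at this
      rwa [e, inv_smul_smul] at h1
    have hTrans : ∀ v', v' ∈ Bs Q a → ∃ ω' : Ω, ¬ Reg Q ψ a ω' ∧ v' ∈ Tg Q ψ a ω' := by
      intro v' hv'
      obtain ⟨g, hg1, hg2⟩ := exists_fix_move hvB.2.1 hv'.2.1 (hvB.1.trans hv'.1.symm) hvB.2.2 hv'.2.2
      refine ⟨g • ω, fun hR' => hnr (hfixinv g ω hg1 hR'), ?_⟩
      have := Tg_act (ψ := ψ) ha g hvT
      rwa [hg1, hg2] at this
    have hBc := card_Bs_add (Q := Q) ha ha0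
    have hNs := card_Ns_add (Q := Q) ha0
    rw [hA a ha ha0] at hBc hNs
    have huniq : ∀ v', v' ∈ Bs Q a → ∀ ω₁ ω₂ : Ω, ¬ Reg Q ψ a ω₁ → ¬ Reg Q ψ a ω₂ → v' ∈ Tg Q ψ a ω₁ → v' ∈ Tg Q ψ a ω₂ →
        (orel Q Ω a).r ω₁ ω₂ := by
      intro v' hv' ω₁ ω₂ hn₁ hn₂ h₁ h₂
      by_contra hne
      have h3 : 3 ≤ cnt Q Ω ψ a v' := by
        refine Nat.succ_le_of_lt (Finset.two_lt_card.2 ⟨_, mk_mem_Ov.2 (hR v' hv'.2.1), _, mk_mem_Ov.2 h₁, _, mk_mem_Ov.2 h₂, ?_, ?_, ?_⟩)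
        · intro he
          exact hn₁ (Reg_rel (Quotient.exact he) hR)
        · intro he
          exact hn₂ (Reg_rel (Quotient.exact he) hR)
        · intro he
          exact hne (Quotient.exact he)
      have := le_of_two (Q := Q) (Ω := Ω) hc₀ ha0 {v | bb a v = 0} (Bs Q a) 1 2 (by
        intro x
        by_cases hx : x ∈ Bs Q a
        · rw [if_pos (show x ∈ {v | bb a v = 0} from hx.2.1), if_pos hx]
          exact h3.trans (cnt_sing ha hv' hx)
        · rw [if_neg hx, add_zero]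
          split_ifs with h
          · exact one_le_cnt (hR x h)
          · exact Nat.zero_le _)
      rw [card_P1_set ha0] at this
      omega
    have hshape : ∀ ω' : Ω, ¬ Reg Q ψ a ω' → Nat.card (Tg Q ψ a ω') ≤ Fintype.card F ^ 2 := by
      intro ω' hn'
      have hTs := fun z hz => hS a ω' z ha ha0 hn' hz
      by_cases h : ∃ z ∈ Tg Q ψ a ω', ∀ c : F, z ≠ c • a
      · obtain ⟨z, hz, hzl⟩ := h
        have hzB : z ∈ Bs Q a := ⟨hTs z hz, Tg_perp hc₀ ha hz, hzl⟩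
        refine card_le_of_le_span (a := a) (v := z) (Tg_le_span_of_stable hc₀ ha hTs ?_)
        intro g hg1 hg2
        refine huniq z hzB ω' (g • ω') hn' (fun h' => hn' (hfixinv g ω' hg1 h')) hz ?_
        have := Tg_act (ψ := ψ) ha g hz
        rwa [hg1, hg2] at this
      · push Not at h
        refine card_le_of_le_span (a := a) (v := a) ?_
        intro z hz
        obtain ⟨c, rfl⟩ := h z hz
        exact Submodule.smul_mem _ _ (Submodule.subset_span (by simp))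
    haveI inst : Fintype (Quotient (orel Q Ω a)) := Fintype.ofFinite _
    have hsum := sum_card_Tg (Q := Q) (Ω := Ω) hc₀ ha0
    have hK₀' : Nat.card (Quotient (orel Q Ω a)) = Fintype.card (Quotient (orel Q Ω a)) := Nat.card_eq_fintype_card
    have hup : Fintype.card F * Nat.card Ω ≤ Fintype.card F ^ (Fintype.card ι - 1) +
        (Nat.card (Quotient (orel Q Ω a)) - 1) * Fintype.card F ^ 2 := by
      rw [← hsum, ← Finset.add_sum_erase _ _ (Finset.mem_univ (Quotient.mk (orel Q Ω a) ω_R))]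
      refine Nat.add_le_add (card_Tg_le hc₀ ha ha0 _) ?_
      refine (Finset.sum_le_card_nsmul _ _ (Fintype.card F ^ 2) ?_).trans ?_
      · intro O hO
        refine hshape _ ?_
        intro hRO
        have hne := Finset.ne_of_mem_erase hO
        apply hne
        have h1 := reg_unique hc₀ ha0 hd1 hR hRO
        have h2 : Quotient.mk (orel Q Ω a) ω_R = Quotient.mk _ O.out := Quotient.sound h1
        rw [Quotient.out_eq] at h2
        exact h2.symm
      · rw [Finset.card_erase_of_mem (Finset.mem_univ _), Finset.card_univ, smul_eq_mul, ← hK₀']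
    have hlow := le_of_three (Q := Q) (Ω := Ω) hc₀ ha0 (Ln a) (Bs Q a) (Ns Q a) (Nat.card (Quotient (orel Q Ω a))) 2 1 (by
      intro x
      by_cases h1 : x ∈ Ln a
      · obtain ⟨c, rfl⟩ := id h1
        have h2 : c • a ∉ Bs Q a := fun h => h.2.2 c rfl
        have h3 : c • a ∉ Ns Q a := fun h => h.1 (by rw [q_smul, ha, mul_zero])
        rw [if_pos h1, if_neg h2, if_neg h3, cnt_line]
        simp
      · rw [if_neg h1, zero_add]
        by_cases h2 : x ∈ Bs Q a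
        · have h3 : x ∉ Ns Q a := fun h => h.1 h2.1
          rw [if_pos h2, if_neg h3]
          obtain ⟨ω', hn', hx'⟩ := hTrans x h2
          exact two_le_cnt (hR x h2.2.1) hx' (fun hr => hn' (Reg_rel hr hR))
        · rw [if_neg h2, zero_add]
          split_ifs with h3
          · exact one_le_cnt (hR x h3.2)
          · exact Nat.zero_le _)
    rw [card_Ln ha0] at hlow
    have hK₀pos : 0 < Nat.card (Quotient (orel Q Ω a)) := by
      haveI : Nonempty (Quotient (orel Q Ω a)) := ⟨Quotient.mk _ ω⟩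
      exact Nat.card_pos
    have hpow : Fintype.card F ^ (Fintype.card ι - 1) = Fintype.card F ^ (Fintype.card ι - 2) * Fintype.card F := by
      rw [← pow_succ]
      congr 1
      omega
    have hXpos : 0 < Fintype.card F ^ (Fintype.card ι - 2) := pow_pos (by omega) _
    rw [hpow] at hNs hup
    have hBq : A₀ - Fintype.card F = Nat.card (Bs Q a) := by omega
    rw [hBq] at hN
    -- the arithmetic
    have hdN' : Nat.card Ω + 1 = N := by
      exact arith_regA hq2 hK₀pos hBc hNs hlow hup hN hdN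
    -- double counting
    let R : (ι → F) → Ω → Prop := fun a' ω' => Q a' = 0 ∧ ¬ Reg Q ψ a' ω'
    obtain ⟨b, hb⟩ := double_count (Q := Q) (Ω := Ω) R (by
        rintro a' ω' c hc ⟨h1, h2⟩
        have h3 : Q (c • a') = 0 := by rw [q_smul, h1, mul_zero]
        refine ⟨h3, fun h4 => h2 ?_⟩
        have h5 := Reg_smul h3 (inv_ne_zero hc) h4
        rwa [smul_smul, inv_mul_cancel₀ hc, one_smul] at h5) (by
        rintro a' ω' g ⟨h1, h2⟩
        have h3 : Q (gv g a') = 0 := by rw [gv_Q, h1]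
        refine ⟨h3, fun h4 => h2 ?_⟩
        have h5 := Reg_act h3 g⁻¹ h4
        rwa [gv_inv_gv, inv_smul_smul] at h5)
      (e := Nat.card Ω - Fintype.card F ^ (Fintype.card ι - 2)) (by
        intro a' ha' ha'0
        obtain ⟨ω', hω'⟩ := hRegAll a' ha' ha'0
        have h1 := card_reg hc₀ ha' ha'0 hd1 hω'
        have h2 := card_not_reg_add (Q := Q) (Ω := Ω) (ψ := ψ) (a := a')
        have h3 : Nat.card {ω' : Ω // R a' ω'} = Nat.card {ω' : Ω // ¬ Reg Q ψ a' ω'} := by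
          refine Nat.card_congr (Equiv.subtypeEquivRight (fun x => ⟨fun h => h.2, fun h => ⟨ha', h⟩⟩))
        rw [h3]
        omega) ω
    rw [hNp, ← hdN'] at hb
    have hepos : 0 < Nat.card Ω - Fintype.card F ^ (Fintype.card ι - 2) := by
      have h1 := card_reg hc₀ ha ha0 hd1 hR
      have h2 := card_not_reg_add (Q := Q) (Ω := Ω) (ψ := ψ) (a := a)
      have h3 : 0 < Nat.card {ω' : Ω // ¬ Reg Q ψ a ω'} := by
        haveI : Nonempty {ω' : Ω // ¬ Reg Q ψ a ω'} := ⟨⟨ω, hnr⟩⟩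
        exact Nat.card_pos
      omega
    have hdvd : Nat.card Ω ∣ (Nat.card Ω + 1) * (Nat.card Ω - Fintype.card F ^ (Fintype.card ι - 2)) := ⟨b, hb⟩
    have hcop : Nat.Coprime (Nat.card Ω) (Nat.card Ω + 1) := by simp
    have hdvd2 := hcop.dvd_of_dvd_mul_left hdvd
    have hle := Nat.le_of_dvd hepos hdvd2
    omega
  · push Not at hA'
    have hsmall : ∀ a (ω : Ω), Q a = 0 → a ≠ 0 → ¬ Reg Q ψ a ω → ∀ w, bb a w = 0 → eo Q a w • ω = ω := by
      intro a ω ha ha0 hnr w hw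
      refine fix_of_forall hc₀ hw (fun x hx => ?_)
      by_cases hx' : ∃ c : F, x = c • a
      · obtain ⟨c, rfl⟩ := hx'
        rw [polar_smul_r, polar_symm, hw, mul_zero]
      · push Not at hx'
        exact absurd hx (hA' a x ω ha ha0 ⟨hS a ω x ha ha0 hnr hx, Tg_perp hc₀ ha hx, hx'⟩ hnr)
    have step : ∀ a b (ω : Ω), Q a = 0 → a ≠ 0 → Q b = 0 → b ≠ 0 → ¬ Reg Q ψ a ω → bb a b = 0 → (∀ c : F, b ≠ c • a) → ¬ Reg Q ψ b ω := by
      intro a b ω ha ha0 hb hb0 hnr hab hind hR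
      have h1 := hsmall a ω ha ha0 hnr b hab
      have h2 : eo Q b a • ω = ω := by
        rw [eo_swap ha hb hab, inv_smul_eq_iff, h1]
      obtain ⟨c, hc⟩ := Sg_of_Reg hc₀ hR (by rw [polar_symm, hab]) h2
      have hc0 : c ≠ 0 := by
        rintro rfl
        apply ha0
        rw [hc, zero_smul]
      apply hind c⁻¹
      rw [hc, smul_smul, inv_mul_cancel₀ hc0, one_smul]
    by_cases hall : ∀ a, Q a = 0 → a ≠ 0 → ∀ ω : Ω, Reg Q ψ a ω
    · exact no_all_reg hc₀ hν hν1 hd1 hall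
    · push Not at hall
      obtain ⟨a, ha, ha0, ω, hnr⟩ := hall
      have hnrall : ∀ b, Q b = 0 → b ≠ 0 → ¬ Reg Q ψ b ω := by
        intro b hb hb0
        obtain ⟨s, t, hs, ht, hst, has, hbs, hat, hbt⟩ := exists_hyp_perp2 hQ' hbig a b
        have hs0 : s ≠ 0 := by
          rintro rfl
          rw [polar_zero_l] at hst
          exact zero_ne_one hst
        have h1 := step a s ω ha ha0 hs hs0 hnr has (by
          intro c hc
          rw [hc, polar_smul_l, hat, mul_zero] at hst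
          exact zero_ne_one hst)
        refine step s b ω hs hs0 hb hb0 h1 (by rw [polar_symm, hbs]) ?_
        intro c hc
        rw [hc, polar_smul_l, hst, mul_one] at hbt
        apply hb0
        rw [hc, hbt, zero_smul]
      have htop : MulAction.stabilizer (OmG Q) ω = ⊤ := by
        apply eq_top_of_eo
        intro b w hb hw
        by_cases hb0 : b = 0
        · subst hb0
          have : eo Q 0 w = 1 := Subtype.ext (ee_zero_left w)
          rw [this]
          exact one_mem _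
        · exact hsmall b ω hb hb0 (hnrall b hb hb0) w hw
      obtain ⟨ω', hne⟩ := exists_ne ω
      obtain ⟨g, rfl⟩ := MulAction.exists_smul_eq (OmG Q) ω ω'
      apply hne
      have : g ∈ MulAction.stabilizer (OmG Q) ω := by
        rw [htop]
        trivial
      exact this

end Finite

end Cfsg.Agent.Lib.MinOrth
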