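import Mathlib
import Cfsg.Agent.Lib.MinOrth.NoReg

/-! The covering argument for totally singular dual subgroups. -/

set_option autoImplicit false
set_option linter.unusedSimpArgs false
set_option linter.unusedVariables false
set_option linter.unusedSectionVars false
set_option linter.style.haveILetI false

namespace Cfsg.Agent.Lib.MinOrth

open Matrix Module Cfsg.Agent.Lib.Classical
open scoped commutatorElement

variable {F : Type*} [Field F] [Fintype F] {ι : Type} [Fintype ι] [DecidableEq ι] {Q : QuadraticForm F (ι → F)}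

local notation "bb" => QuadraticMap.polar (DFunLike.coe Q)

variable [OS Q]

/-- Singular vectors of `⟨a, v⟩^⊥` outside `⟨a, v⟩`. -/
def Zs (Q : QuadraticForm F (ι → F)) (a v : ι → F) : Set (ι → F) :=
  {z | Q z = 0 ∧ QuadraticMap.polar (⇑Q) a z = 0 ∧ QuadraticMap.polar (⇑Q) v z = 0 ∧ z ∉ Submodule.span F ({a, v} : Set (ι → F))}

omit [Fintype F] [OS Q] in
theorem mem_span_quad {a b c d x : ι → F} (h : x ∈ Submodule.span F ({a, b, c, d} : Set (ι → F))) :
    ∃ α β γ δ : F, x = α • a + β • b + γ • c + δ • d := by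
  obtain ⟨α, y, hy, rfl⟩ := Submodule.mem_span_insert.1 h
  obtain ⟨β, γ, δ, rfl⟩ := Submodule.mem_span_triple.1 hy
  exact ⟨α, β, γ, δ, by abel⟩

/-- One step: an Eichler transformation fixing `a`, `v` moves `z` to a multiple of `z'`. -/
theorem step_move {a v z z' u : ι → F} (hz : Q z = 0) (hz' : Q z' = 0) (haz : bb a z = 0) (hvz : bb v z = 0)
    (haz' : bb a z' = 0) (hvz' : bb v z' = 0) (hu : Q u = 0) (hau : bb a u = 0) (hvu : bb v u = 0)
    (h1 : bb z u ≠ 0) (h2 : bb z' u ≠ 0) :
    ∃ g : OmG Q, gv g a = a ∧ gv g v = v ∧ gv g z = (bb z u * (bb z' u)⁻¹) • z' := by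
  set μ := bb z u * (bb z' u)⁻¹ with hμ
  have hQ1 : Q z = Q (μ • z') := by rw [hz, q_smul, hz', mul_zero]
  have hβ : bb z u = bb (μ • z') u := by
    rw [polar_smul_l, hμ]
    field_simp
  obtain ⟨h3, h4⟩ := ee_move hu hQ1 hβ h1
  set t := (bb z u)⁻¹ • (μ • z' - z) with ht
  have hua : bb u a = 0 := by rw [polar_symm, hau]
  have huv : bb u v = 0 := by rw [polar_symm, hvu]
  have hta : bb t a = 0 := by
    rw [ht, polar_smul_l, polar_sub_l, polar_smul_l, polar_symm z' a, polar_symm z a, haz, haz']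
    ring
  have htv : bb t v = 0 := by
    rw [ht, polar_smul_l, polar_sub_l, polar_smul_l, polar_symm z' v, polar_symm z v, hvz, hvz']
    ring
  refine ⟨eo Q u t, ?_, ?_, h4⟩
  · rw [eo_apply hu h3, hua, hta]
    simp
  · rw [eo_apply hu h3, huv, htv]
    simp

/-- Scaling `z'` while multiplying `a` and `v` by the same scalar. -/
theorem exists_scale2 {a v z : ι → F} (ha : Q a = 0) (hv : Q v = 0) (hz : Q z = 0) (ha0 : a ≠ 0) (hav : bb a v = 0)
    (haz : bb a z = 0) (hvz : bb v z = 0) (hvl : ∀ c : F, v ≠ c • a)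
    (hzs : z ∉ Submodule.span F ({a, v} : Set (ι → F))) {l : F} (hl : l ≠ 0) :
    ∃ g : OmG Q, gv g a = l • a ∧ gv g v = l • v ∧ gv g z = l ^ 2 • z := by
  have hva : bb v a = 0 := by rw [polar_symm, hav]
  have hza : bb z a = 0 := by rw [polar_symm, haz]
  have hzv : bb z v = 0 := by rw [polar_symm, hvz]
  -- the partner of `a`
  have haD : a ∉ Submodule.span F ({v, z} : Set (ι → F)) := by
    intro hm
    obtain ⟨α, β, hab⟩ := Submodule.mem_span_pair.1 hm
    by_cases hβ : β = 0
    · subst hβ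
      have hα : α ≠ 0 := by
        rintro rfl
        apply ha0
        rw [← hab]
        simp
      apply hvl α⁻¹
      rw [← hab]
      simp [smul_smul, hα]
    · apply hzs
      have e : z = β⁻¹ • (a - α • v) := by
        rw [← hab]
        simp [smul_smul, hβ]
      rw [e]
      exact Submodule.smul_mem _ _ (Submodule.sub_mem _ (Submodule.subset_span (by simp)) (Submodule.smul_mem _ _ (Submodule.subset_span (by simp))))
  obtain ⟨a', ha', haa', hDa'⟩ := exists_partner ha (D := Submodule.span F ({v, z} : Set (ι → F))) (by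
    intro d hd
    obtain ⟨α, β, rfl⟩ := Submodule.mem_span_pair.1 hd
    rw [polar_add_r, polar_smul_r, polar_smul_r, hav, haz]
    ring) haD
  have hva' : bb v a' = 0 := hDa' v (Submodule.subset_span (by simp))
  have hza' : bb z a' = 0 := hDa' z (Submodule.subset_span (by simp))
  have ha'a : bb a' a = 1 := by rw [polar_symm, haa']
  -- the partner of `v`
  have hvD : v ∉ Submodule.span F ({a, a', z} : Set (ι → F)) := by
    intro hm
    obtain ⟨α, β, γ, hab⟩ := Submodule.mem_span_triple.1 hm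
    have e1 : bb v a = α * bb a a + β * bb a' a + γ * bb z a := by
      rw [← hab, polar_add_l, polar_add_l, polar_smul_l, polar_smul_l, polar_smul_l]
    rw [hva, polar_self_of_singular ha, ha'a, hza] at e1
    have hβ : β = 0 := by linear_combination -e1
    rw [hβ] at hab
    simp only [zero_smul, zero_add] at hab
    by_cases hγ : γ = 0
    · subst hγ
      apply hvl α
      rw [← hab]
      simp
    · apply hzs
      have e : z = γ⁻¹ • (v - α • a) := by
        rw [← hab]
        simp [smul_smul, hγ]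
      rw [e]
      exact Submodule.smul_mem _ _ (Submodule.sub_mem _ (Submodule.subset_span (by simp)) (Submodule.smul_mem _ _ (Submodule.subset_span (by simp))))
  obtain ⟨v', hv', hvv', hDv'⟩ := exists_partner hv (D := Submodule.span F ({a, a', z} : Set (ι → F))) (by
    intro d hd
    obtain ⟨α, β, γ, rfl⟩ := Submodule.mem_span_triple.1 hd
    rw [polar_add_r, polar_add_r, polar_smul_r, polar_smul_r, polar_smul_r, hva, hva', hvz]
    ring) hvD
  have hav' : bb a v' = 0 := hDv' a (Submodule.subset_span (by simp))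
  have ha'v' : bb a' v' = 0 := hDv' a' (Submodule.subset_span (by simp))
  have hzv' : bb z v' = 0 := hDv' z (Submodule.subset_span (by simp))
  -- the partner of `z`
  have hzD : z ∉ Submodule.span F ({a, a', v, v'} : Set (ι → F)) := by
    intro hm
    obtain ⟨α, β, γ, δ, hab⟩ := mem_span_quad hm
    have e1 : bb z a = α * bb a a + β * bb a' a + γ * bb v a + δ * bb v' a := by
      rw [hab, polar_add_l, polar_add_l, polar_add_l, polar_smul_l, polar_smul_l, polar_smul_l, polar_smul_l]
    have e2 : bb z v = α * bb a v + β * bb a' v + γ * bb v v + δ * bb v' v := by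
      rw [hab, polar_add_l, polar_add_l, polar_add_l, polar_smul_l, polar_smul_l, polar_smul_l, polar_smul_l]
    have hv'a : bb v' a = 0 := by rw [polar_symm, hav']
    have hv'v : bb v' v = 1 := by rw [polar_symm, hvv']
    have ha'v : bb a' v = 0 := by rw [polar_symm, hva']
    rw [hza, polar_self_of_singular ha, ha'a, hva, hv'a] at e1
    rw [hzv, hav, ha'v, polar_self_of_singular hv, hv'v] at e2
    have hβ : β = 0 := by linear_combination -e1
    have hδ : δ = 0 := by linear_combination -e2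
    apply hzs
    rw [hab, hβ, hδ]
    simp only [zero_smul, add_zero]
    exact Submodule.add_mem _ (Submodule.smul_mem _ _ (Submodule.subset_span (by simp))) (Submodule.smul_mem _ _ (Submodule.subset_span (by simp)))
  obtain ⟨z', hz', hzz', hDz'⟩ := exists_partner hz (D := Submodule.span F ({a, a', v, v'} : Set (ι → F))) (by
    intro d hd
    obtain ⟨α, β, γ, δ, rfl⟩ := mem_span_quad hd
    rw [polar_add_r, polar_add_r, polar_add_r, polar_smul_r, polar_smul_r, polar_smul_r, polar_smul_r, hza, hza', hzv, hzv']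
    ring) hzD
  have haz'' : bb a z' = 0 := hDz' a (Submodule.subset_span (by simp))
  have hvz'' : bb v z' = 0 := hDz' v (Submodule.subset_span (by simp))
  have ha'v : bb a' v = 0 := by rw [polar_symm, hva']
  obtain ⟨g₁, h1, -, h3, -, h5⟩ := exists_DD ha ha' haa' hv hv' hvv' hav hav' ha'v ha'v'  hl
  obtain ⟨t, h6, -, h8⟩ := exists_T hz hz' hzz' hl
  refine ⟨g₁ * t, ?_, ?_, ?_⟩
  · rw [gv_mul, h8 a hza (by rw [polar_symm, haz'']), h1]
  · rw [gv_mul, h8 v hzv (by rw [polar_symm, hvz'']), h3]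
  · rw [gv_mul, h6, gv_smul, h5 z haz (by rw [polar_symm, hza']) hvz (by rw [polar_symm, hzv'])]

/-- The move through a common non-orthogonal singular vector. -/
theorem pair_move_A {a v z z' u : ι → F} (ha : Q a = 0) (hv : Q v = 0) (ha0 : a ≠ 0) (hav : bb a v = 0)
    (hvl : ∀ c : F, v ≠ c • a) (hz : Q z = 0) (hz' : Q z' = 0) (haz : bb a z = 0) (hvz : bb v z = 0)
    (haz' : bb a z' = 0) (hvz' : bb v z' = 0) (hzs' : z' ∉ Submodule.span F ({a, v} : Set (ι → F)))
    (hu : Q u = 0) (hau : bb a u = 0) (hvu : bb v u = 0) (h1 : bb z u ≠ 0) (h2 : bb z' u ≠ 0) :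
    ∃ (g : OmG Q) (l : F), l ≠ 0 ∧ gv g a = l • a ∧ gv g v = l • v ∧ gv g z = l • z' := by
  obtain ⟨g₀, h3, h4, h5⟩ := step_move hz hz' haz hvz haz' hvz' hu hau hvu h1 h2
  set μ := bb z u * (bb z' u)⁻¹ with hμ
  have hμ0 : μ ≠ 0 := mul_ne_zero h1 (inv_ne_zero h2)
  obtain ⟨h, h6, h7, h8⟩ := exists_scale2 ha hv hz' ha0 hav haz' hvz' hvl hzs' (inv_ne_zero hμ0)
  refine ⟨h * g₀, μ⁻¹, inv_ne_zero hμ0, ?_, ?_, ?_⟩
  · rw [gv_mul, h3, h6]
  · rw [gv_mul, h4, h7]
  · rw [gv_mul, h5, gv_smul, h8, smul_smul]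
    congr 1
    field_simp

/-- Semi-transitivity of the stabiliser of `a`, `v` on the singular vectors of `⟨a, v⟩^⊥`. -/
theorem pair_semi_move {a v z z' : ι → F} (ha : Q a = 0) (hv : Q v = 0) (ha0 : a ≠ 0) (hav : bb a v = 0)
    (hvl : ∀ c : F, v ≠ c • a) (hzZ : z ∈ Zs Q a v) (hzZ' : z' ∈ Zs Q a v) :
    ∃ (g : OmG Q) (l : F), l ≠ 0 ∧ gv g a = l • a ∧ gv g v = l • v ∧ gv g z = l • z' := by
  classical
  obtain ⟨hz, haz, hvz, hzs⟩ := hzZ
  obtain ⟨hz', haz', hvz', hzs'⟩ := hzZ'
  obtain ⟨u₁, hu₁, hau₁, hvu₁, h1⟩ := exists_sing_perp (Q := Q) hzs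
  obtain ⟨u₂, hu₂, hau₂, hvu₂, h2⟩ := exists_sing_perp (Q := Q) hzs'
  by_cases h3 : bb z' u₁ = 0
  swap
  · exact pair_move_A ha hv ha0 hav hvl hz hz' haz hvz haz' hvz' hzs' hu₁ hau₁ hvu₁ h1 h3
  by_cases h4 : bb z u₂ = 0
  swap
  · exact pair_move_A ha hv ha0 hav hvl hz hz' haz hvz haz' hvz' hzs' hu₂ hau₂ hvu₂ h4 h2
  by_cases h5 : bb u₁ u₂ = 0
  · have hQ : Q (u₁ + u₂) = 0 := by rw [q_add, hu₁, hu₂, h5]; ring
    exact pair_move_A ha hv ha0 hav hvl hz hz' haz hvz haz' hvz' hzs' hQ (by rw [polar_add_r, hau₁, hau₂, add_zero])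
      (by rw [polar_add_r, hvu₁, hvu₂, add_zero]) (by rw [polar_add_r, h4, add_zero]; exact h1)
      (by rw [polar_add_r, h3, zero_add]; exact h2)
  -- an intermediate vector
  set D := Submodule.span F ({a, v, u₁, u₂} : Set (ι → F)) with hD
  obtain ⟨C, hCD, hC, -, hcard⟩ := exists_qnd_perp' (Q := Q) D
  have hD4 : finrank F D ≤ 4 := by
    have := finrank_span_le_card (R := F) ({a, v, u₁, u₂} : Set (ι → F))
    refine this.trans ?_
    simp only [Set.toFinset_insert, Set.toFinset_singleton]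
    exact Finset.card_le_four
  have hu₁u₂' : bb u₂ u₁ ≠ 0 := by rwa [polar_symm]
  have hR : D ⊓ qPerp Q D ≤ Submodule.span F ({a, v} : Set (ι → F)) := by
    rintro x ⟨hx1, hx2⟩
    obtain ⟨α, β, γ, δ, hab⟩ := mem_span_quad hx1
    have e1 : bb x u₁ = α * bb a u₁ + β * bb v u₁ + γ * bb u₁ u₁ + δ * bb u₂ u₁ := by
      rw [hab, polar_add_l, polar_add_l, polar_add_l, polar_smul_l, polar_smul_l, polar_smul_l, polar_smul_l]
    have e2 : bb x u₂ = α * bb a u₂ + β * bb v u₂ + γ * bb u₁ u₂ + δ * bb u₂ u₂ := by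
      rw [hab, polar_add_l, polar_add_l, polar_add_l, polar_smul_l, polar_smul_l, polar_smul_l, polar_smul_l]
    rw [hx2 u₁ (Submodule.subset_span (by simp)), hau₁, hvu₁, polar_self_of_singular hu₁] at e1
    rw [hx2 u₂ (Submodule.subset_span (by simp)), hau₂, hvu₂, polar_self_of_singular hu₂] at e2
    have hδ : δ = 0 := by
      have : δ * bb u₂ u₁ = 0 := by linear_combination -e1
      exact (mul_eq_zero.1 this).resolve_right hu₁u₂'
    have hγ : γ = 0 := by
      have : γ * bb u₁ u₂ = 0 := by linear_combination -e2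
      exact (mul_eq_zero.1 this).resolve_right h5
    rw [hab, hγ, hδ]
    simp only [zero_smul, add_zero]
    exact Submodule.add_mem _ (Submodule.smul_mem _ _ (Submodule.subset_span (by simp))) (Submodule.smul_mem _ _ (Submodule.subset_span (by simp)))
  have hR2 : finrank F (D ⊓ qPerp Q D : Submodule F (ι → F)) ≤ 2 :=
    (Submodule.finrank_mono hR).trans (finrank_span_pair_le a v)
  have hbig := OS.big Q
  have hC1 : 1 ≤ finrank F C := by omega
  have hC2 : C ≠ ⊥ := by
    rintro rfl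
    simp at hC1
  obtain ⟨w, hw, hQw⟩ := exists_nonsingular hC hC2
  have hwD := hCD hw
  have haw : bb a w = 0 := perp_symm hwD (Submodule.subset_span (by simp))
  have hvw : bb v w = 0 := perp_symm hwD (Submodule.subset_span (by simp))
  have hu₁w : bb u₁ w = 0 := perp_symm hwD (Submodule.subset_span (by simp))
  have hu₂w : bb u₂ w = 0 := perp_symm hwD (Submodule.subset_span (by simp))
  set β := - (Q w * (bb u₁ u₂)⁻¹) with hβ
  have hβ0 : β ≠ 0 := by
    rw [hβ]
    exact neg_ne_zero.2 (mul_ne_zero hQw (inv_ne_zero h5))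
  set y := u₁ + β • u₂ + w with hy
  have hQy : Q y = 0 := by
    rw [hy, q_add, q_add, hu₁, q_smul, hu₂, polar_smul_r, polar_add_l, polar_smul_l, hu₁w, hu₂w, hβ]
    field_simp
    ring
  have hay : bb a y = 0 := by rw [hy, polar_add_r, polar_add_r, polar_smul_r, hau₁, hau₂, haw]; ring
  have hvy : bb v y = 0 := by rw [hy, polar_add_r, polar_add_r, polar_smul_r, hvu₁, hvu₂, hvw]; ring
  have hyu₁ : bb y u₁ ≠ 0 := by
    rw [hy, polar_add_l, polar_add_l, polar_smul_l, polar_self_of_singular hu₁, polar_symm w u₁, hu₁w]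
    simp only [zero_add, add_zero]
    exact mul_ne_zero hβ0 hu₁u₂'
  have hyu₂ : bb y u₂ ≠ 0 := by
    rw [hy, polar_add_l, polar_add_l, polar_smul_l, polar_self_of_singular hu₂, polar_symm w u₂, hu₂w]
    simpa using h5
  have hys : y ∉ Submodule.span F ({a, v} : Set (ι → F)) := by
    intro hm
    obtain ⟨α, γ, hab⟩ := Submodule.mem_span_pair.1 hm
    apply hyu₁
    rw [← hab, polar_add_l, polar_smul_l, polar_smul_l, hau₁, hvu₁]
    ring
  obtain ⟨g₁, l₁, hl₁, a1, a2, a3⟩ := pair_move_A ha hv ha0 hav hvl hz hQy haz hvz hay hvy hys hu₁ hau₁ hvu₁ h1 hyu₁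
  obtain ⟨g₂, l₂, hl₂, a4, a5, a6⟩ := pair_move_A ha hv ha0 hav hvl hQy hz' hay hvy haz' hvz' hzs' hu₂ hau₂ hvu₂ hyu₂ h2
  refine ⟨g₂ * g₁, l₁ * l₂, mul_ne_zero hl₁ hl₂, ?_, ?_, ?_⟩
  · rw [gv_mul, a1, gv_smul, a4, smul_smul]
  · rw [gv_mul, a2, gv_smul, a5, smul_smul]
  · rw [gv_mul, a3, gv_smul, a6, smul_smul]

/-- The span of two independent vectors has `q²` elements. -/
theorem card_span_two {a v : ι → F} (ha0 : a ≠ 0) (hvl : ∀ c : F, v ≠ c • a) :
    Nat.card (Submodule.span F ({a, v} : Set (ι → F))) = Fintype.card F ^ 2 := by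
  have h : Function.Bijective (fun p : F × F => (⟨p.1 • a + p.2 • v, Submodule.add_mem _ (Submodule.smul_mem _ _ (Submodule.subset_span (by simp))) (Submodule.smul_mem _ _ (Submodule.subset_span (by simp)))⟩ : Submodule.span F ({a, v} : Set (ι → F)))) := by
    constructor
    · rintro ⟨α, β⟩ ⟨α', β'⟩ h
      have h1 : α • a + β • v = α' • a + β' • v := congrArg Subtype.val h
      have h2 : (α - α') • a + (β - β') • v = 0 := by
        rw [sub_smul, sub_smul]
        rw [← sub_eq_zero] at h1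
        rw [← h1]
        abel
      by_cases hβ : β - β' = 0
      · rw [hβ, zero_smul, add_zero] at h2
        have hα := (smul_eq_zero.1 h2).resolve_right ha0
        exact Prod.ext (sub_eq_zero.1 hα) (sub_eq_zero.1 hβ)
      · exfalso
        apply hvl (-(β - β')⁻¹ * (α - α'))
        have h3 : (β - β') • v = -((α - α') • a) := eq_neg_of_add_eq_zero_right h2
        have h4 : v = (β - β')⁻¹ • ((β - β') • v) := by
          rw [smul_smul, inv_mul_cancel₀ hβ, one_smul]
        rw [h4, h3, smul_neg, smul_smul, neg_mul, neg_smul]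
    · rintro ⟨x, hx⟩
      obtain ⟨α, β, rfl⟩ := Submodule.mem_span_pair.1 hx
      exact ⟨(α, β), rfl⟩
  rw [← Nat.card_congr (Equiv.ofBijective _ h), Nat.card_prod, Nat.card_eq_fintype_card]
  ring

theorem perp_of_mem_span {a v x y : ι → F} (h1 : bb a y = 0) (h2 : bb v y = 0)
    (hx : x ∈ Submodule.span F ({a, v} : Set (ι → F))) : bb x y = 0 := by
  obtain ⟨α, β, rfl⟩ := Submodule.mem_span_pair.1 hx
  rw [polar_add_l, polar_smul_l, polar_smul_l, h1, h2]
  simp

/-- Counting `Zs`. -/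
theorem card_Zs_add {a v : ι → F} (ha : Q a = 0) (hv : Q v = 0) (ha0 : a ≠ 0) (hav : bb a v = 0)
    (hvl : ∀ c : F, v ≠ c • a) :
    Nat.card (Zs Q a v) + Fintype.card F ^ 2 = Nk Q (pp Q (P1 Q a) v) 0 := by
  classical
  rw [← card_span_two ha0 hvl]
  let T := {x : ι → F // x ∈ pp Q (P1 Q a) v ∧ Q x = 0}
  have e := Nat.card_congr (Equiv.sumCompl (fun x : T => (x : ι → F) ∈ Submodule.span F ({a, v} : Set (ι → F))))
  rw [Nat.card_sum] at e
  have hva : bb v a = 0 := by rw [polar_symm, hav]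
  have haa := polar_self_of_singular ha
  have hvv := polar_self_of_singular hv
  have h1 : Nat.card {x : T // (x : ι → F) ∈ Submodule.span F ({a, v} : Set (ι → F))} = Nat.card (Submodule.span F ({a, v} : Set (ι → F))) := by
    refine Nat.card_congr ⟨fun x => ⟨x.1.1, x.2⟩, fun x => ⟨⟨x.1, ⟨mem_P1.2 ?_, ?_⟩, ?_⟩, x.2⟩, fun _ => rfl, fun _ => rfl⟩
    · have := perp_of_mem_span (Q := Q) (y := a) haa hva x.2
      rwa [polar_symm] at this
    · have := perp_of_mem_span (Q := Q) (y := v) hav hvv x.2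
      rwa [polar_symm] at this
    · obtain ⟨α, β, hab⟩ := Submodule.mem_span_pair.1 x.2
      rw [← hab, q_add, q_smul, q_smul, ha, hv, polar_smul_l, polar_smul_r, hav]
      ring
  have h2 : Nat.card {x : T // ¬ (x : ι → F) ∈ Submodule.span F ({a, v} : Set (ι → F))} = Nat.card (Zs Q a v) := by
    refine Nat.card_congr ⟨fun x => ⟨x.1.1, x.1.2.2, mem_P1.1 x.1.2.1.1, x.1.2.1.2, x.2⟩, fun x => ⟨⟨x.1, ⟨mem_P1.2 x.2.2.1, x.2.2.2.1⟩, x.2.1⟩, x.2.2.2.2⟩, fun _ => rfl, fun _ => rfl⟩
  rw [h1, h2] at e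
  rw [add_comm, e]
  rfl

/-! ### Bounds on totally singular additive subgroups -/

theorem span_all_sing {T : AddSubgroup (ι → F)} (hT : ∀ z ∈ T, Q z = 0) : ∀ x ∈ Submodule.span F (T : Set (ι → F)), Q x = 0 := by
  have h1 : ∀ t ∈ T, ∀ y ∈ Submodule.span F (T : Set (ι → F)), bb t y = 0 := by
    intro t ht y hy
    induction hy using Submodule.span_induction with
    | mem y hy => exact polar_of_all_sing hT ht hy
    | zero => exact polar_zero_r t
    | add x y _ _ h3 h4 => rw [polar_add_r, h3, h4, add_zero]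
    | smul c x _ h3 => rw [polar_smul_r, h3, mul_zero]
  have h2 : ∀ x ∈ Submodule.span F (T : Set (ι → F)), ∀ y ∈ Submodule.span F (T : Set (ι → F)), bb x y = 0 := by
    intro x hx y hy
    induction hx using Submodule.span_induction with
    | mem x hx => exact h1 x hx y hy
    | zero => exact polar_zero_l y
    | add x x' _ _ h3 h4 => rw [polar_add_l, h3, h4, add_zero]
    | smul c x _ h3 => rw [polar_smul_l, h3, mul_zero]
  intro x hx
  induction hx using Submodule.span_induction with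
  | mem x hx => exact hT x hx
  | zero => exact q_zero
  | add x y hx hy h3 h4 => rw [q_add, h3, h4, h2 x hx y hy]; ring
  | smul c x _ h3 => rw [q_smul, h3, mul_zero]

section Bound

variable {μ : ℕ} (hμ : ∀ U : Submodule F (ι → F), (∀ x ∈ U, Q x = 0) → finrank F U ≤ μ)
include hμ

theorem card_span_T_le {T : AddSubgroup (ι → F)} (hT : ∀ z ∈ T, Q z = 0) :
    Nat.card (Submodule.span F (T : Set (ι → F))) ≤ Fintype.card F ^ μ := by
  haveI : Fintype (Submodule.span F (T : Set (ι → F))) := Fintype.ofFinite _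
  rw [Nat.card_eq_fintype_card, Module.card_eq_pow_finrank (K := F)]
  exact Nat.pow_le_pow_right Fintype.card_pos (hμ _ (span_all_sing hT))

theorem card_T_le {T : AddSubgroup (ι → F)} (hT : ∀ z ∈ T, Q z = 0) : Nat.card T ≤ Fintype.card F ^ μ := by
  refine le_trans ?_ (card_span_T_le hμ hT)
  refine Nat.card_le_card_of_injective (fun x => (⟨x.1, Submodule.subset_span x.2⟩ : Submodule.span F (T : Set (ι → F)))) ?_
  intro x y hxy
  have h5 : (x : ι → F) = y := congrArg (fun z : Submodule.span F (T : Set (ι → F)) => (z : ι → F)) hxy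
  exact Subtype.ext h5

theorem card_T_half {T : AddSubgroup (ι → F)} (hT : ∀ z ∈ T, Q z = 0) {x : ι → F} {c : F} (hx : x ∈ T) (hc : c • x ∉ T) :
    2 * Nat.card T ≤ Fintype.card F ^ μ := by
  refine le_trans ?_ (card_span_T_le hμ hT)
  let K : AddSubgroup (ι → F) := (Submodule.span F (T : Set (ι → F))).toAddSubgroup
  have hle : T ≤ K := fun y hy => Submodule.subset_span hy
  have hcard : Nat.card K = Nat.card (Submodule.span F (T : Set (ι → F))) := rfl
  rw [← hcard]
  obtain ⟨m, hm⟩ := AddSubgroup.card_dvd_of_le hle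
  have hpos : 0 < Nat.card T := Nat.card_pos
  have hKpos : 0 < Nat.card K := Nat.card_pos
  have hm0 : m ≠ 0 := by
    rintro rfl
    omega
  have hm1 : m ≠ 1 := by
    rintro rfl
    rw [mul_one] at hm
    have h1 : T = K := AddSubgroup.eq_of_le_of_card_ge hle hm.le
    apply hc
    rw [h1]
    exact Submodule.smul_mem _ _ (Submodule.subset_span hx)
  have hm2 : 2 ≤ m := by omega
  rw [hm]
  nlinarith

end Bound

end Cfsg.Agent.Lib.MinOrth
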