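import Mathlib
import Cfsg.Agent.Lib.MinOrth.Cover

/-! The covering argument: the numerical consequences. -/

set_option autoImplicit false
set_option linter.unusedSimpArgs false
set_option linter.unusedVariables false
set_option linter.unusedSectionVars false
set_option linter.style.haveILetI false

namespace Cfsg.Agent.Lib.MinOrth

open Matrix Module Cfsg.Agent.Lib.Classical
open scoped commutatorElement

theorem cover_le {α β : Type*} [DecidableEq β] (A : Finset α) (B : α → Finset β) (Z : Finset β) (m : ℕ)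
    (hcover : Z ⊆ A.biUnion B) (hle : ∀ i ∈ A, (B i).card ≤ m) : Z.card ≤ A.card * m :=
  (Finset.card_le_card hcover).trans (Finset.card_biUnion_le_card_mul _ _ _ hle)

theorem cover_eq {α β : Type*} [DecidableEq α] [DecidableEq β] (A : Finset α) (B : α → Finset β) (Z : Finset β) (m c : ℕ)
    (hcover : Z ⊆ A.biUnion B) (hle : ∀ i ∈ A, (B i).card ≤ m) (hc : A.card ≤ c) (hZ : c * m ≤ Z.card) (hm : 0 < m) :
    A.card = c ∧ (∀ i ∈ A, (B i).card = m) ∧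
      (∀ i ∈ A, ∀ j ∈ A, i ≠ j → ∀ z ∈ Z, z ∈ B i → z ∈ B j → False) := by
  have h1 := cover_le A B Z m hcover hle
  have h2 : A.card = c := by
    apply le_antisymm hc
    have h3 := hZ.trans h1
    exact Nat.le_of_mul_le_mul_right h3 hm
  refine ⟨h2, ?_, ?_⟩
  · intro i hi
    by_contra hne
    have hlt : (B i).card < m := lt_of_le_of_ne (hle i hi) hne
    have h4 : ∑ j ∈ A, (B j).card < ∑ j ∈ A, m :=
      Finset.sum_lt_sum hle ⟨i, hi, hlt⟩
    rw [Finset.sum_const, smul_eq_mul, h2] at h4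
    have h5 : Z.card ≤ ∑ j ∈ A, (B j).card := (Finset.card_le_card hcover).trans Finset.card_biUnion_le
    omega
  · intro i hi j hj hij z hz hzi hzj
    subst h2
    have h3 : Z ⊆ ((A.erase j).biUnion B) ∪ ((B j).erase z) := by
      intro x hx
      obtain ⟨k, hk, hxk⟩ := Finset.mem_biUnion.1 (hcover hx)
      by_cases hkj : k = j
      · subst hkj
        by_cases hxz : x = z
        · subst hxz
          exact Finset.mem_union_left _ (Finset.mem_biUnion.2 ⟨i, Finset.mem_erase.2 ⟨hij, hi⟩, hzi⟩)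
        · exact Finset.mem_union_right _ (Finset.mem_erase.2 ⟨hxz, hxk⟩)
      · exact Finset.mem_union_left _ (Finset.mem_biUnion.2 ⟨k, Finset.mem_erase.2 ⟨hkj, hk⟩, hxk⟩)
    have h4 := (Finset.card_le_card h3).trans (Finset.card_union_le _ _)
    have h5 : ((A.erase j).biUnion B).card ≤ (A.erase j).card * m :=
      Finset.card_biUnion_le_card_mul _ _ _ (fun k hk => hle k (Finset.mem_of_mem_erase hk))
    have h6 : (A.erase j).card = A.card - 1 := Finset.card_erase_of_mem hj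
    have h7 : ((B j).erase z).card = (B j).card - 1 := Finset.card_erase_of_mem hzj
    have h8 := hle j hj
    have h9 : 0 < (B j).card := Finset.card_pos.2 ⟨z, hzj⟩
    have hA : 0 < A.card := Finset.card_pos.2 ⟨j, hj⟩
    rw [h6] at h5
    have h10 : (A.card - 1) * m + m = A.card * m := by
      obtain ⟨r, hr⟩ : ∃ r, A.card = r + 1 := ⟨A.card - 1, by omega⟩
      rw [hr]
      simp
      ring
    omega

variable {F : Type*} [Field F] [Fintype F] {ι : Type} [Fintype ι] [DecidableEq ι] {Q : QuadraticForm F (ι → F)}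

local notation "bb" => QuadraticMap.polar (DFunLike.coe Q)

variable [OS Q] {Ω : Type*} [MulAction (OmG Q) Ω] {ψ : AddChar F ℂ} {c₀ : F}

open scoped _root_.Classical in
/-- Part of `Zs` in a dual subgroup. -/
noncomputable def ZT (Q : QuadraticForm F (ι → F)) [OS Q] [MulAction (OmG Q) Ω] (ψ : AddChar F ℂ) (a v : ι → F) (ω : Ω) :
    Finset (ι → F) :=
  Finset.univ.filter (fun z => z ∈ Zs Q a v ∧ z ∈ Tg Q ψ a ω)

theorem mem_ZT {a v z : ι → F} {ω : Ω} : z ∈ ZT Q ψ a v ω ↔ z ∈ Zs Q a v ∧ z ∈ Tg Q ψ a ω := by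
  simp [ZT]

open scoped _root_.Classical in
theorem natcard_filter (P : (ι → F) → Prop) : Nat.card {x // P x} = (Finset.univ.filter P).card := by
  rw [Nat.card_eq_fintype_card, Fintype.card_subtype]

theorem ZT_le_card {a v : ι → F} {ω : Ω} : (ZT Q ψ a v ω).card ≤ Nat.card (Tg Q ψ a ω) := by
  classical
  have h := natcard_filter (F := F) (ι := ι) (fun x => x ∈ Tg Q ψ a ω)
  have h' : Nat.card (Tg Q ψ a ω) = Nat.card {x // x ∈ Tg Q ψ a ω} := rfl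
  rw [h', h]
  refine Finset.card_le_card ?_
  intro z hz
  exact Finset.mem_filter.2 ⟨Finset.mem_univ _, (mem_ZT.1 hz).2⟩

/-- In the closed case, `ZT` misses the span of `a` and `v`. -/
theorem ZT_add_le {a v : ι → F} {ω : Ω} (ha0 : a ≠ 0) (hvl : ∀ c : F, v ≠ c • a) (hvT : v ∈ Tg Q ψ a ω)
    (hcl : ∀ x ∈ Tg Q ψ a ω, ∀ c : F, c • x ∈ Tg Q ψ a ω) :
    (ZT Q ψ a v ω).card + Fintype.card F ^ 2 ≤ Nat.card (Tg Q ψ a ω) := by
  classical
  have h := natcard_filter (F := F) (ι := ι) (fun x => x ∈ Tg Q ψ a ω)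
  have h' : Nat.card (Tg Q ψ a ω) = Nat.card {x // x ∈ Tg Q ψ a ω} := rfl
  have h2 := natcard_filter (F := F) (ι := ι) (fun x => x ∈ Submodule.span F ({a, v} : Set (ι → F)))
  have h2' : Nat.card (Submodule.span F ({a, v} : Set (ι → F))) = Nat.card {x // x ∈ Submodule.span F ({a, v} : Set (ι → F))} := rfl
  rw [← card_span_two (F := F) ha0 hvl, h2', h2, h', h, ← Finset.card_union_of_disjoint]
  · refine Finset.card_le_card ?_
    intro z hz
    rcases Finset.mem_union.1 hz with hz | hz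
    · exact Finset.mem_filter.2 ⟨Finset.mem_univ _, (mem_ZT.1 hz).2⟩
    · obtain ⟨α, β, rfl⟩ := Submodule.mem_span_pair.1 (Finset.mem_filter.1 hz).2
      exact Finset.mem_filter.2 ⟨Finset.mem_univ _, add_mem (hcl _ (self_mem_Tg ω) α) (hcl _ hvT β)⟩
  · rw [Finset.disjoint_left]
    intro z hz hz'
    exact (mem_ZT.1 hz).1.2.2.2 (Finset.mem_filter.1 hz').2

section Bound

variable {μ : ℕ} (hμ : ∀ U : Submodule F (ι → F), (∀ x ∈ U, Q x = 0) → finrank F U ≤ μ)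
include hμ

/-- The bound for `ZT`. -/
theorem ZT_bound {a v : ι → F} {ω : Ω} (ha0 : a ≠ 0) (hvl : ∀ c : F, v ≠ c • a) (hvT : v ∈ Tg Q ψ a ω)
    (hT : ∀ z ∈ Tg Q ψ a ω, Q z = 0) (h2 : 2 * Fintype.card F ^ 2 ≤ Fintype.card F ^ μ) :
    (ZT Q ψ a v ω).card ≤ Fintype.card F ^ μ - Fintype.card F ^ 2 := by
  by_cases hcl : ∀ x ∈ Tg Q ψ a ω, ∀ c : F, c • x ∈ Tg Q ψ a ω
  · have h3 := ZT_add_le ha0 hvl hvT hcl
    have h4 := card_T_le hμ hT
    omega
  · push Not at hcl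
    obtain ⟨x, hx, c, hc⟩ := hcl
    have h3 := card_T_half hμ hT hx hc
    have h4 := ZT_le_card (Q := Q) (ψ := ψ) (a := a) (v := v) (ω := ω)
    omega

/-- The equality case for `ZT`. -/
theorem ZT_eq {a v : ι → F} {ω : Ω} (ha0 : a ≠ 0) (hvl : ∀ c : F, v ≠ c • a) (hvT : v ∈ Tg Q ψ a ω)
    (hT : ∀ z ∈ Tg Q ψ a ω, Q z = 0) (h2 : 2 * Fintype.card F ^ 2 < Fintype.card F ^ μ)
    (hcard : (ZT Q ψ a v ω).card = Fintype.card F ^ μ - Fintype.card F ^ 2) :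
    (∀ x ∈ Tg Q ψ a ω, ∀ c : F, c • x ∈ Tg Q ψ a ω) ∧ Nat.card (Tg Q ψ a ω) = Fintype.card F ^ μ := by
  have hcl : ∀ x ∈ Tg Q ψ a ω, ∀ c : F, c • x ∈ Tg Q ψ a ω := by
    by_contra hcl
    push Not at hcl
    obtain ⟨x, hx, c, hc⟩ := hcl
    have h3 := card_T_half hμ hT hx hc
    have h4 := ZT_le_card (Q := Q) (ψ := ψ) (a := a) (v := v) (ω := ω)
    omega
  refine ⟨hcl, ?_⟩
  have h3 := ZT_add_le ha0 hvl hvT hcl
  have h4 := card_T_le hμ hT
  omega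

end Bound

/-- A flag: a singular vector and a singular vector perpendicular to it, off its line. -/
def Flag (Q : QuadraticForm F (ι → F)) (a v : ι → F) : Prop := Q a = 0 ∧ a ≠ 0 ∧ v ∈ Bs Q a

theorem Flag.smul {a v : ι → F} (h : Flag Q a v) {c : F} (hc : c ≠ 0) : Flag Q a (c • v) := by
  obtain ⟨h1, h2, h3, h4, h5⟩ := h
  refine ⟨h1, h2, by rw [q_smul, h3, mul_zero], by rw [polar_smul_r, h4, mul_zero], ?_⟩
  intro d hd
  apply h5 (c⁻¹ * d)
  rw [mul_smul, ← hd, smul_smul, inv_mul_cancel₀ hc, one_smul]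

/-- Transport of an instance to any flag. -/
theorem inst_transport {a v v' a₂ v₂ : ι → F} {ω₀ : Ω} (hf : Flag Q a v) (hf₂ : Flag Q a₂ v₂) (hv : v ∈ Tg Q ψ a ω₀)
    (hv' : v' ∈ Tg Q ψ a ω₀) (hv's : v' ∉ Submodule.span F ({a, v} : Set (ι → F))) :
    ∃ ω : Ω, ∃ v'', v₂ ∈ Tg Q ψ a₂ ω ∧ v'' ∈ Tg Q ψ a₂ ω ∧ v'' ∉ Submodule.span F ({a₂, v₂} : Set (ι → F)) := by
  obtain ⟨ha, ha0, hQv, hav, hvl⟩ := hf
  obtain ⟨ha₂, ha₂0, hQv₂, hav₂, hvl₂⟩ := hf₂
  obtain ⟨g₁, hg₁⟩ := exists_omg_vec ha ha₂ ha0 ha₂0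
  have h1 : bb a₂ (gv g₁ v) = 0 := by rw [← hg₁, gv_bb, hav]
  have hl : ∀ c : F, gv g₁ v ≠ c • a₂ := by
    intro c hc
    apply hvl c
    have h2 := congrArg (gv g₁⁻¹) hc
    rw [gv_inv_gv, gv_smul, ← hg₁, gv_inv_gv] at h2
    exact h2
  obtain ⟨g₂, hg₂, hg₃⟩ := exists_fix_move h1 hav₂ (by rw [gv_Q, hQv, hQv₂]) hl hvl₂
  refine ⟨(g₂ * g₁) • ω₀, gv (g₂ * g₁) v', ?_, ?_, ?_⟩
  · have := Tg_act (ψ := ψ) ha (g₂ * g₁) hv
    rwa [gv_mul, gv_mul, hg₁, hg₂, hg₃] at this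
  · have := Tg_act (ψ := ψ) ha (g₂ * g₁) hv'
    rwa [gv_mul (g := g₂) (h := g₁) (x := a), hg₁, hg₂] at this
  · intro hmem
    apply hv's
    obtain ⟨α, β, hαβ⟩ := Submodule.mem_span_pair.1 hmem
    rw [Submodule.mem_span_pair]
    refine ⟨α, β, ?_⟩
    have h5 := congrArg (gv (g₂ * g₁)⁻¹) hαβ
    rw [gv_inv_gv, gv_add, gv_smul, gv_smul] at h5
    have e1 : gv (g₂ * g₁)⁻¹ a₂ = a := by
      have : gv (g₂ * g₁) a = a₂ := by rw [gv_mul, hg₁, hg₂]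
      rw [← this, gv_inv_gv]
    have e2 : gv (g₂ * g₁)⁻¹ v₂ = v := by
      have : gv (g₂ * g₁) v = v₂ := by rw [gv_mul, hg₃]
      rw [← this, gv_inv_gv]
    rw [e1, e2] at h5
    exact h5

section Inst

variable [Finite Ω] (hc₀ : ψ c₀ ≠ 1)
  (hinv : ∀ a y, Q a = 0 → a ≠ 0 → QuadraticMap.polar (⇑Q) a y = 0 → Q y ≠ 0 → TInv Q Ω ψ a y)
  (hnr : ∀ a (ω : Ω), Q a = 0 → a ≠ 0 → ¬ Reg Q ψ a ω)

include hc₀ hinv hnr

/-- A dual subgroup with a singular vector off the line is totally singular. -/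
theorem all_sing_of_mem {a v : ι → F} {ω : Ω} (hf : Flag Q a v) (hv : v ∈ Tg Q ψ a ω) : ∀ z ∈ Tg Q ψ a ω, Q z = 0 := by
  obtain ⟨ha, ha0, hQv, hav, hvl⟩ := hf
  rcases Tg_shape hc₀ ha (hinv a · ha ha0) ω with h | ⟨y, hy, hQy, hyT, hsp⟩ | h
  · exact absurd h (hnr a ω ha ha0)
  · exfalso
    obtain ⟨α, β, rfl⟩ := Submodule.mem_span_pair.1 (hsp v hv)
    rw [q_add, q_smul, q_smul, ha, polar_smul_l, polar_smul_r, hy] at hQv
    have hβ : β = 0 := by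
      have h : β ^ 2 * Q y = 0 := by linear_combination hQv
      exact pow_eq_zero_iff (two_ne_zero) |>.1 ((mul_eq_zero.1 h).resolve_right hQy)
    apply hvl α
    rw [hβ]
    simp
  · exact h

/-- The covering. -/
theorem cover_mem {a v v' : ι → F} {ω₀ : Ω} (hf : Flag Q a v) (hv : v ∈ Tg Q ψ a ω₀)
    (hv' : v' ∈ Tg Q ψ a ω₀) (hv's : v' ∉ Submodule.span F ({a, v} : Set (ι → F))) {z : ι → F} (hz : z ∈ Zs Q a v) :
    ∃ ω : Ω, v ∈ Tg Q ψ a ω ∧ z ∈ Tg Q ψ a ω := by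
  have hall := all_sing_of_mem hc₀ hinv hnr hf hv
  obtain ⟨ha, ha0, hQv, hav, hvl⟩ := hf
  have hZ : v' ∈ Zs Q a v := ⟨hall _ hv', Tg_perp hc₀ ha hv', polar_of_all_sing hall hv hv', hv's⟩
  obtain ⟨g, l, hl, h1, h2, h3⟩ := pair_semi_move ha hQv ha0 hav hvl hZ hz
  refine ⟨g • ω₀, ?_, ?_⟩
  · have := Tg_semi ha hl h1 hv
    rwa [h2, smul_smul, inv_mul_cancel₀ hl, one_smul] at this
  · have := Tg_semi ha hl h1 hv'
    rwa [h3, smul_smul, inv_mul_cancel₀ hl, one_smul] at this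

open scoped _root_.Classical in
/-- The covering in terms of orbits. -/
theorem cover_sub {a v v' : ι → F} {ω₀ : Ω} (hf : Flag Q a v) (hv : v ∈ Tg Q ψ a ω₀)
    (hv' : v' ∈ Tg Q ψ a ω₀) (hv's : v' ∉ Submodule.span F ({a, v} : Set (ι → F))) :
    (Finset.univ.filter (fun z => z ∈ Zs Q a v)) ⊆ (Ov Q Ω ψ a v).biUnion (fun O => ZT Q ψ a v O.out) := by
  classical
  intro z hz
  have hz' : z ∈ Zs Q a v := (Finset.mem_filter.1 hz).2
  obtain ⟨ω, h1, h2⟩ := cover_mem hc₀ hinv hnr hf hv hv' hv's hz'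
  refine Finset.mem_biUnion.2 ⟨Quotient.mk _ ω, mk_mem_Ov.2 h1, mem_ZT.2 ⟨hz', ?_⟩⟩
  rw [Tg_out]
  exact h2

omit hinv hnr in
/-- The number of orbits at a flag is at most `q+1`. -/
theorem cnt_le_succ [Nonempty Ω] {a v : ι → F} {B : ℕ} (hf : Flag Q a v) (hB : Nat.card (Bs Q a) = B)
    (hd5 : Fintype.card F * Nat.card Ω < Fintype.card F + (Fintype.card F + 2) * B) :
    cnt Q Ω ψ a v ≤ Fintype.card F + 1 := by
  classical
  by_contra hlt
  push Not at hlt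
  obtain ⟨ha, ha0, hv⟩ := hf
  have := le_of_two (Q := Q) (Ω := Ω) hc₀ ha0 (Ln a) (Bs Q a) 1 (Fintype.card F + 2) (by
    intro w
    by_cases hw : w ∈ Bs Q a
    · have hnl : w ∉ Ln a := by
        rintro ⟨c, hc⟩
        exact hw.2.2 c hc
      rw [if_neg hnl, if_pos hw, zero_add]
      exact (Nat.succ_le_of_lt hlt).trans (cnt_sing ha hv hw)
    · rw [if_neg hw, add_zero]
      split_ifs with hwl
      · obtain ⟨c, rfl⟩ := hwl
        rw [cnt_line]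
        haveI : Nonempty (Quotient (orel Q Ω a)) := ⟨Quotient.mk (orel Q Ω a) (Classical.arbitrary Ω)⟩
        exact Nat.succ_le_of_lt Nat.card_pos
      · exact Nat.zero_le _)
  rw [card_Ln ha0, hB] at this
  omega

variable {μ : ℕ} (hμ : ∀ U : Submodule F (ι → F), (∀ x ∈ U, Q x = 0) → finrank F U ≤ μ)
include hμ

/-- The generic contradiction. -/
theorem cover_false [Nonempty Ω] {a v v' : ι → F} {ω₀ : Ω} {B : ℕ} (hf : Flag Q a v) (hB : Nat.card (Bs Q a) = B)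
    (hd5 : Fintype.card F * Nat.card Ω < Fintype.card F + (Fintype.card F + 2) * B)
    (h2 : 2 * Fintype.card F ^ 2 ≤ Fintype.card F ^ μ)
    (hgen : (Fintype.card F + 1) * (Fintype.card F ^ μ - Fintype.card F ^ 2) < Nat.card (Zs Q a v))
    (hv : v ∈ Tg Q ψ a ω₀)
    (hv' : v' ∈ Tg Q ψ a ω₀) (hv's : v' ∉ Submodule.span F ({a, v} : Set (ι → F))) : False := by
  classical
  have h1 := cover_le (Ov Q Ω ψ a v) (fun O => ZT Q ψ a v O.out) _ (Fintype.card F ^ μ - Fintype.card F ^ 2)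
    (cover_sub hc₀ hinv hnr hf hv hv' hv's) (by
      intro O hO
      have hO' := mem_Ov.1 hO
      exact ZT_bound hμ hf.2.1 hf.2.2.2.2 hO' (all_sing_of_mem hc₀ hinv hnr hf hO') h2)
  have h3 := cnt_le_succ (Ω := Ω) (ψ := ψ) hc₀ hf hB hd5
  have h4 := natcard_filter (F := F) (ι := ι) (fun z => z ∈ Zs Q a v)
  have h5 : Nat.card (Zs Q a v) = Nat.card {x // x ∈ Zs Q a v} := rfl
  have h6 : (Ov Q Ω ψ a v).card = cnt Q Ω ψ a v := rfl
  rw [h6] at h1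
  have h7 := Nat.mul_le_mul_right (Fintype.card F ^ μ - Fintype.card F ^ 2) h3
  have h8 : (Finset.univ.filter (fun z => z ∈ Zs Q a v)).card = Nat.card (Zs Q a v) := by
    rw [h5, Nat.card_eq_fintype_card, Fintype.card_subtype]
  rw [h8] at h1
  omega

/-- The structure in the equality case. -/
theorem struct_of_inst [Nonempty Ω] {a v v' : ι → F} {ω₀ : Ω} {B : ℕ} (hf : Flag Q a v) (hB : Nat.card (Bs Q a) = B)
    (hd5 : Fintype.card F * Nat.card Ω < Fintype.card F + (Fintype.card F + 2) * B)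
    (h2 : 2 * Fintype.card F ^ 2 < Fintype.card F ^ μ)
    (hex : (Fintype.card F + 1) * (Fintype.card F ^ μ - Fintype.card F ^ 2) ≤ Nat.card (Zs Q a v))
    (hv : v ∈ Tg Q ψ a ω₀)
    (hv' : v' ∈ Tg Q ψ a ω₀) (hv's : v' ∉ Submodule.span F ({a, v} : Set (ι → F))) :
    (∀ ω : Ω, v ∈ Tg Q ψ a ω → (∀ x ∈ Tg Q ψ a ω, ∀ c : F, c • x ∈ Tg Q ψ a ω) ∧ Nat.card (Tg Q ψ a ω) = Fintype.card F ^ μ) ∧
      cnt Q Ω ψ a v = Fintype.card F + 1 ∧
      (∀ (ω₁ ω₂ : Ω) z, z ∈ Zs Q a v → v ∈ Tg Q ψ a ω₁ → v ∈ Tg Q ψ a ω₂ → z ∈ Tg Q ψ a ω₁ → z ∈ Tg Q ψ a ω₂ → (orel Q Ω a).r ω₁ ω₂) := by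
  classical
  have h8 : (Finset.univ.filter (fun z => z ∈ Zs Q a v)).card = Nat.card (Zs Q a v) := by
    have h5 : Nat.card (Zs Q a v) = Nat.card {x // x ∈ Zs Q a v} := rfl
    rw [h5, Nat.card_eq_fintype_card, Fintype.card_subtype]
  obtain ⟨h1, h3, h4⟩ := cover_eq (Ov Q Ω ψ a v) (fun O => ZT Q ψ a v O.out) _ (Fintype.card F ^ μ - Fintype.card F ^ 2) (Fintype.card F + 1)
    (cover_sub hc₀ hinv hnr hf hv hv' hv's) (by
      intro O hO
      have hO' := mem_Ov.1 hO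
      exact ZT_bound hμ hf.2.1 hf.2.2.2.2 hO' (all_sing_of_mem hc₀ hinv hnr hf hO') h2.le)
    (cnt_le_succ (Ω := Ω) (ψ := ψ) hc₀ hf hB hd5)
    (by rw [h8]; exact hex) (by omega)
  refine ⟨?_, h1, ?_⟩
  · intro ω hvω
    have h5 := h3 (Quotient.mk _ ω) (mk_mem_Ov.2 hvω)
    have hvω' : v ∈ Tg Q ψ a (Quotient.mk (orel Q Ω a) ω).out := by rw [Tg_out]; exact hvω
    have := ZT_eq hμ hf.2.1 hf.2.2.2.2 hvω' (all_sing_of_mem hc₀ hinv hnr hf hvω') h2 h5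
    rwa [Tg_out] at this
  · intro ω₁ ω₂ z hz h5 h6 h7 h9
    by_contra hne
    refine h4 (Quotient.mk _ ω₁) (mk_mem_Ov.2 h5) (Quotient.mk _ ω₂) (mk_mem_Ov.2 h6) (fun he => hne (Quotient.exact he)) z
      (Finset.mem_filter.2 ⟨Finset.mem_univ _, hz⟩) ?_ ?_
    · exact mem_ZT.2 ⟨hz, by rw [Tg_out]; exact h7⟩
    · exact mem_ZT.2 ⟨hz, by rw [Tg_out]; exact h9⟩

end Inst

end Cfsg.Agent.Lib.MinOrth
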