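import Mathlib
import Cfsg.Agent.Lib.MinOrth.Cov2

/-! The exceptional case of the covering argument: fixed points of Siegel groups. -/

set_option autoImplicit false
set_option linter.unusedSimpArgs false
set_option linter.unusedVariables false
set_option linter.unusedSectionVars false
set_option linter.style.haveILetI false

namespace Cfsg.Agent.Lib.MinOrth

open Matrix Module Cfsg.Agent.Lib.Classical
open scoped commutatorElement

variable {F : Type*} [Field F] [Fintype F] {ι : Type} [Fintype ι] [DecidableEq ι] {Q : QuadraticForm F (ι → F)}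

local notation "bb" => QuadraticMap.polar (DFunLike.coe Q)

variable [OS Q] {Ω : Type*} [MulAction (OmG Q) Ω] {ψ : AddChar F ℂ} {c₀ : F}

/-- Fixed by the whole Siegel group of `a`. -/
def Fx (Q : QuadraticForm F (ι → F)) [OS Q] [MulAction (OmG Q) Ω] (a : ι → F) (ω : Ω) : Prop :=
  ∀ w, QuadraticMap.polar (⇑Q) a w = 0 → eo Q a w • ω = ω

theorem Fx_of_line (hc₀ : ψ c₀ ≠ 1) {a : ι → F} {ω : Ω} (h : ∀ z ∈ Tg Q ψ a ω, ∃ c : F, z = c • a) : Fx Q a ω := by
  intro w hw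
  refine fix_of_forall hc₀ hw ?_
  intro x hx
  obtain ⟨c, rfl⟩ := h x hx
  rw [polar_smul_r, polar_symm, hw, mul_zero]

theorem line_of_Fx (hc₀ : ψ c₀ ≠ 1) {a : ι → F} {ω : Ω} (h : Fx Q a ω) : ∀ z ∈ Tg Q ψ a ω, ∃ c : F, z = c • a := by
  intro z hz
  by_contra hne
  push Not at hne
  have hn : z ∉ Submodule.span F ({a} : Set (ι → F)) := fun hm => by
    obtain ⟨d, hd⟩ := smul_mem_span_self.1 hm
    exact hne d hd
  obtain ⟨x, h1, h2⟩ := exists_perp_one (Q := Q) hn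
  have h3 : bb a (c₀ • x) = 0 := by
    rw [polar_smul_r, h1 a (Submodule.mem_span_singleton_self a), mul_zero]
  have h4 := (mem_Tg.1 hz) _ h3 (h _ h3)
  rw [polar_smul_l, polar_symm x z, h2, mul_one] at h4
  exact hc₀ h4

theorem Fx_smul {a : ι → F} {ω : Ω} (ha : Q a = 0) {c : F} (hc : c ≠ 0) (h : Fx Q a ω) : Fx Q (c • a) ω := by
  intro w hw
  rw [polar_smul_l] at hw
  have hw' : bb a w = 0 := (mul_eq_zero.1 hw).resolve_left hc
  rw [eo_smul_left ha hw']
  exact h _ (by rw [polar_smul_r, hw', mul_zero])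

theorem Fx_act {a : ι → F} {ω : Ω} (ha : Q a = 0) (g : OmG Q) (h : Fx Q a ω) : Fx Q (gv g a) (g • ω) := by
  intro w hw
  have h1 : bb a (gv g⁻¹ w) = 0 := by
    have := gv_bb g⁻¹ (gv g a) w
    rw [gv_inv_gv, hw] at this
    exact this
  have h2 := eo_conj g ha h1
  rw [gv_gv_inv] at h2
  rw [← h2, mul_smul, mul_smul, inv_smul_smul, h _ h1]

section Count

variable [Finite Ω]

open scoped _root_.Classical in
theorem card_Fx_eq (a : ι → F) [Fintype (Quotient (orel Q Ω a))] :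
    Nat.card {ω : Ω // Fx Q a ω} = (Finset.univ.filter (fun O : Quotient (orel Q Ω a) => Fx Q a O.out)).card := by
  rw [← Fintype.card_subtype, ← Nat.card_eq_fintype_card]
  refine Nat.card_congr (Equiv.ofBijective (fun ω => ⟨Quotient.mk _ ω.1, ?_⟩) ⟨?_, ?_⟩)
  · obtain ⟨ω, hω⟩ := ω
    obtain ⟨w, hw, hw2⟩ : (orel Q Ω a).r ω (Quotient.mk (orel Q Ω a) ω).out := Quotient.exact (Quotient.out_eq _).symm
    rw [← hw2, hω w hw]
    exact hω
  · rintro ⟨ω, hω⟩ ⟨ω', hω'⟩ h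
    have h1 : Quotient.mk (orel Q Ω a) ω = Quotient.mk (orel Q Ω a) ω' := congrArg Subtype.val h
    obtain ⟨w, hw, hw2⟩ : (orel Q Ω a).r ω ω' := Quotient.exact h1
    apply Subtype.ext
    change ω = ω'
    rw [← hw2, hω w hw]
  · rintro ⟨O, hO⟩
    exact ⟨⟨O.out, hO⟩, Subtype.ext (Quotient.out_eq O)⟩

open scoped _root_.Classical in
/-- The count of orbits in the exceptional case. -/
theorem exc_count (hc₀ : ψ c₀ ≠ 1) {a : ι → F} (ha : Q a = 0) (ha0 : a ≠ 0) {μ B : ℕ}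
    (hns : ∀ (ω : Ω), ∀ z ∈ Tg Q ψ a ω, Q z = 0)
    (hX1 : ∀ v, v ∈ Bs Q a → ∀ ω : Ω, v ∈ Tg Q ψ a ω → Nat.card (Tg Q ψ a ω) = Fintype.card F ^ μ)
    (hX2 : ∀ v, v ∈ Bs Q a → cnt Q Ω ψ a v = Fintype.card F + 1)
    (hB : Nat.card (Bs Q a) = B) :
    ∃ k : ℕ, k * Fintype.card F ^ μ = k * Fintype.card F + (Fintype.card F + 1) * B ∧
      Fintype.card F * Nat.card Ω = k * Fintype.card F ^ μ + Fintype.card F * Nat.card {ω : Ω // Fx Q a ω} := by
  haveI : Fintype (Quotient (orel Q Ω a)) := Fintype.ofFinite _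
  set e := (Finset.univ.filter (fun O : Quotient (orel Q Ω a) => Fx Q a O.out)).card with he
  set k := (Finset.univ.filter (fun O : Quotient (orel Q Ω a) => ¬ Fx Q a O.out)).card with hk
  have hc : Nat.card (Quotient (orel Q Ω a)) = e + k := by
    rw [Nat.card_eq_fintype_card, he, hk, Finset.card_filter_add_card_filter_not (s := Finset.univ), Finset.card_univ]
  have hE1 : Fintype.card F * Nat.card Ω = e * Fintype.card F + k * Fintype.card F ^ μ := by
    rw [← sum_card_Tg (Q := Q) (Ω := Ω) hc₀ ha0]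
    have h1 : ∀ O : Quotient (orel Q Ω a), Nat.card (Tg Q ψ a O.out) = if Fx Q a O.out then Fintype.card F else Fintype.card F ^ μ := by
      intro O
      split_ifs with hO
      · rw [← card_Ln (F := F) ha0]
        have hl := line_of_Fx hc₀ hO
        exact Nat.card_congr ⟨fun x => ⟨x.1, hl x.1 x.2⟩, fun x => ⟨x.1, by
          obtain ⟨c, hc⟩ := x.2
          rw [hc]
          exact smul_self_mem_Tg _ _⟩, fun _ => rfl, fun _ => rfl⟩
      · have h2 : ¬ ∀ z ∈ Tg Q ψ a O.out, ∃ c : F, z = c • a := fun h => hO (Fx_of_line hc₀ h)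
        push Not at h2
        obtain ⟨z, hz, hzl⟩ := h2
        exact hX1 z ⟨hns _ _ hz, Tg_perp hc₀ ha hz, hzl⟩ _ hz
    rw [Finset.sum_congr rfl (fun O _ => h1 O), Finset.sum_ite, Finset.sum_const, Finset.sum_const, smul_eq_mul, smul_eq_mul]
  have hE2 : Fintype.card F * Nat.card Ω = (e + k) * Fintype.card F + (Fintype.card F + 1) * B := by
    rw [← sum_cnt (Q := Q) (Ω := Ω) hc₀ ha0]
    have h1 : ∀ v : ι → F, cnt Q Ω ψ a v = (if v ∈ Ln a then e + k else 0) + (if v ∈ Bs Q a then Fintype.card F + 1 else 0) := by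
      intro v
      by_cases hv : v ∈ Bs Q a
      · have hnl : v ∉ Ln a := by
          rintro ⟨c, hc⟩
          exact hv.2.2 c hc
        rw [if_neg hnl, if_pos hv, zero_add, hX2 v hv]
      · rw [if_neg hv, add_zero]
        split_ifs with hvl
        · obtain ⟨c, rfl⟩ := hvl
          rw [cnt_line, hc]
        · apply Finset.card_eq_zero.2
          apply Finset.eq_empty_of_forall_notMem
          intro O hO
          have hO' := mem_Ov.1 hO
          apply hv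
          refine ⟨hns _ _ hO', Tg_perp hc₀ ha hO', ?_⟩
          intro c hc
          exact hvl ⟨c, hc⟩
    rw [Finset.sum_congr rfl (fun v _ => h1 v), Finset.sum_add_distrib, sum_ite_card, sum_ite_card, card_Ln ha0, hB]
  refine ⟨k, ?_, ?_⟩
  · have := hE1.symm.trans hE2
    nlinarith
  · rw [card_Fx_eq, ← he, hE1]
    ring

end Count

section Torus

variable [Finite Ω]

set_option maxHeartbeats 2000000 in
/-- The torus argument: a point fixed by a whole Siegel group exists. -/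
theorem exists_Fx {μ : ℕ} (hμ3 : 3 ≤ μ) (hc₀ : ψ c₀ ≠ 1) {ν : F} (hν : ν ≠ 0) (hν1 : ν ^ 2 ≠ 1)
    (hX1 : ∀ a v, Flag Q a v → ∀ ω : Ω, v ∈ Tg Q ψ a ω →
      (∀ x ∈ Tg Q ψ a ω, ∀ c : F, c • x ∈ Tg Q ψ a ω) ∧ Nat.card (Tg Q ψ a ω) = Fintype.card F ^ μ)
    (hX3 : ∀ a v, Flag Q a v → ∀ (ω₁ ω₂ : Ω) z, z ∈ Zs Q a v → v ∈ Tg Q ψ a ω₁ → v ∈ Tg Q ψ a ω₂ →
      z ∈ Tg Q ψ a ω₁ → z ∈ Tg Q ψ a ω₂ → (orel Q Ω a).r ω₁ ω₂)
    (hns : ∀ a (ω : Ω) z, Q a = 0 → a ≠ 0 → z ∈ Tg Q ψ a ω → Q z = 0)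
    {a v v' : ι → F} {ω : Ω} (hf : Flag Q a v) (hv : v ∈ Tg Q ψ a ω) (hv' : v' ∈ Tg Q ψ a ω)
    (hv's : v' ∉ Submodule.span F ({a, v} : Set (ι → F))) :
    ∃ (b : ι → F) (ω₁ : Ω), Q b = 0 ∧ b ≠ 0 ∧ Fx Q b ω₁ := by
  classical
  obtain ⟨ha, ha0, hQv, hav, hvl⟩ := id hf
  have hv0 : v ≠ 0 := by
    rintro rfl
    exact hvl 0 (by simp)
  have hva : bb v a = 0 := by rw [polar_symm, hav]
  have hvv := polar_self_of_singular hQv
  have haa := polar_self_of_singular ha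
  have haD : a ∉ Submodule.span F ({v} : Set (ι → F)) := by
    intro hm
    obtain ⟨d, hd⟩ := Submodule.mem_span_singleton.1 hm
    have hd0 : d ≠ 0 := by
      rintro rfl
      rw [zero_smul] at hd
      exact ha0 hd.symm
    apply hvl d⁻¹
    rw [← hd, smul_smul, inv_mul_cancel₀ hd0, one_smul]
  obtain ⟨a', ha', haa', hD'⟩ := exists_partner ha (D := Submodule.span F ({v} : Set (ι → F))) (by
    intro d hd
    obtain ⟨e, rfl⟩ := Submodule.mem_span_singleton.1 hd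
    rw [polar_smul_r, hav, mul_zero]) haD
  have hva' : bb v a' = 0 := hD' v (Submodule.mem_span_singleton_self v)
  have ha'v : bb a' v = 0 := by rw [polar_symm, hva']
  have ha'a : bb a' a = 1 := by rw [polar_symm, haa']
  set v₀ := v' - bb v' a' • a with hv₀
  have hv₀T : v₀ ∈ Tg Q ψ a ω := sub_mem hv' (smul_self_mem_Tg _ _)
  have hav₀ : bb a v₀ = 0 := Tg_perp hc₀ ha hv₀T
  have ha'v₀ : bb a' v₀ = 0 := by
    rw [hv₀, polar_sub_r, polar_smul_r, ha'a, polar_symm a' v']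
    ring
  have hall : ∀ z ∈ Tg Q ψ a ω, Q z = 0 := fun z hz => hns a ω z ha ha0 hz
  have hvv₀ : bb v v₀ = 0 := polar_of_all_sing hall hv hv₀T
  have hv₀n : v₀ ∉ Submodule.span F ({a, v} : Set (ι → F)) := by
    intro hm
    apply hv's
    have e : v' = v₀ + bb v' a' • a := by rw [hv₀]; abel
    rw [e]
    exact add_mem hm (Submodule.smul_mem _ _ (Submodule.subset_span (by simp)))
  have hv₀z : v₀ ∈ Zs Q a v := ⟨hall _ hv₀T, hav₀, hvv₀, hv₀n⟩
  obtain ⟨t, ht1, ht2, ht3⟩ := exists_T ha ha' haa' hν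
  have hl0 : ν ^ 2 ≠ 0 := pow_ne_zero _ hν
  have htv : gv t v = v := ht3 v hav ha'v
  have htv₀ : gv t v₀ = v₀ := ht3 v₀ hav₀ ha'v₀
  -- the torus preserves the orbit
  have h1 : (ν ^ 2)⁻¹ • v ∈ Tg Q ψ a (t • ω) := by
    have := Tg_semi ha hl0 ht1 hv
    rwa [htv] at this
  have h2 : (ν ^ 2)⁻¹ • v₀ ∈ Tg Q ψ a (t • ω) := by
    have := Tg_semi ha hl0 ht1 hv₀T
    rwa [htv₀] at this
  have hcl := (hX1 a _ (hf.smul (inv_ne_zero hl0)) (t • ω) h1).1
  have h3 : v ∈ Tg Q ψ a (t • ω) := by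
    have := hcl _ h1 (ν ^ 2)
    rwa [smul_smul, mul_inv_cancel₀ hl0, one_smul] at this
  have h4 : v₀ ∈ Tg Q ψ a (t • ω) := by
    have := hcl _ h2 (ν ^ 2)
    rwa [smul_smul, mul_inv_cancel₀ hl0, one_smul] at this
  have hr : (orel Q Ω a).r ω (t • ω) := hX3 a v hf ω _ v₀ hv₀z hv h3 hv₀T h4
  obtain ⟨ω₁, hr1, hfix⟩ := exists_torus_fix ha haa' hν1 ht1 ht3 hr
  have hTe := Tg_eq_of_rel (ψ := ψ) hr1
  have hv1 : v ∈ Tg Q ψ a ω₁ := by rw [← hTe]; exact hv
  have hv₀1 : v₀ ∈ Tg Q ψ a ω₁ := by rw [← hTe]; exact hv₀T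
  have hcl1 := (hX1 a v hf ω₁ hv1).1
  have hS := Sg_smul_of_Tg (Q := Q) (ψ := ψ) (a := a) (ω := ω₁) hc₀ (fun x c hx => hcl1 x hx c)
  have key : ∀ x, bb a x = 0 → bb a' x = 0 → bb v x = 0 → eo Q v x • ω₁ = ω₁ := by
    intro x hax ha'x hvx
    have hxa : bb x a = 0 := by rw [polar_symm, hax]
    have hxv : bb x v = 0 := by rw [polar_symm, hvx]
    have hga : gv (eo Q v x) a = a := by
      rw [eo_apply hQv hvx, hva, hxa]
      simp
    have hgv : gv (eo Q v x) v = v := by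
      rw [eo_apply hQv hvx, hvv, hxv]
      simp
    have hgv₀ : gv (eo Q v x) v₀ = v₀ - bb x v₀ • v := by
      rw [eo_apply hQv hvx, hvv₀]
      simp
    have hcomm : eo Q v x * t = t * eo Q v x := by
      have h5 := eo_conj t hQv hvx
      rw [htv, ht3 x hax ha'x] at h5
      exact (mul_inv_eq_iff_eq_mul.1 h5).symm
    have h6 : v ∈ Tg Q ψ a (eo Q v x • ω₁) := by
      have := Tg_act (ψ := ψ) ha (eo Q v x) hv1
      rwa [hga, hgv] at this
    have h7 : v₀ - bb x v₀ • v ∈ Tg Q ψ a (eo Q v x • ω₁) := by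
      have := Tg_act (ψ := ψ) ha (eo Q v x) hv₀1
      rwa [hga, hgv₀] at this
    have hcl2 := (hX1 a v hf _ h6).1
    have h8 : v₀ ∈ Tg Q ψ a (eo Q v x • ω₁) := by
      have e : v₀ = (v₀ - bb x v₀ • v) + bb x v₀ • v := by abel
      rw [e]
      exact add_mem h7 (hcl2 _ h6 _)
    have hr2 := hX3 a v hf ω₁ _ v₀ hv₀z hv1 h6 hv₀1 h8
    exact torus_rigid ha haa' hν1 ht1 ht3 hfix hcomm hr2 hS
  refine ⟨v, ω₁, hQv, hv0, Fx_of_line hc₀ ?_⟩
  by_contra hne
  push Not at hne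
  obtain ⟨z, hz, hzl⟩ := hne
  have hfz : Flag Q v z := ⟨hQv, hv0, hns _ _ _ hQv hv0 hz, Tg_perp hc₀ hQv hz, hzl⟩
  have hcard := (hX1 v z hfz ω₁ hz).2
  set D := Submodule.span F ({a, a', v} : Set (ι → F)) with hD
  have hsub : ∀ y ∈ Tg Q ψ v ω₁, y ∈ D := by
    intro y hy
    by_contra hyD
    obtain ⟨x, hx1, hx2⟩ := exists_perp_one (Q := Q) hyD
    have hax : bb a x = 0 := hx1 a (Submodule.subset_span (by simp))
    have ha'x : bb a' x = 0 := hx1 a' (Submodule.subset_span (by simp))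
    have hvx : bb v x = 0 := hx1 v (Submodule.subset_span (by simp))
    have h5 : bb v (c₀ • x) = 0 := by rw [polar_smul_r, hvx, mul_zero]
    have h6 := key (c₀ • x) (by rw [polar_smul_r, hax, mul_zero]) (by rw [polar_smul_r, ha'x, mul_zero]) h5
    have h7 := (mem_Tg.1 hy) _ h5 h6
    rw [polar_smul_l, polar_symm x y, hx2, mul_one] at h7
    exact hc₀ h7
  have hfr : finrank F D ≤ 3 := by
    have := finrank_span_le_card (R := F) ({a, a', v} : Set (ι → F))
    refine this.trans ?_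
    simp only [Set.toFinset_insert, Set.toFinset_singleton]
    exact Finset.card_le_three
  have hDc : Nat.card D ≤ Fintype.card F ^ 3 := by
    haveI : Fintype D := Fintype.ofFinite _
    rw [Nat.card_eq_fintype_card, Module.card_eq_pow_finrank (K := F)]
    exact Nat.pow_le_pow_right Fintype.card_pos hfr
  have hqq : Fintype.card F ^ 3 ≤ Fintype.card F ^ μ := Nat.pow_le_pow_right Fintype.card_pos hμ3
  have hle : Tg Q ψ v ω₁ ≤ D.toAddSubgroup := fun y hy => hsub y hy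
  have hDc' : Nat.card D.toAddSubgroup = Nat.card D := rfl
  have he := AddSubgroup.eq_of_le_of_card_ge hle (by rw [hcard, hDc']; omega)
  have hm : a + a' ∈ Tg Q ψ v ω₁ := by
    rw [he]
    exact add_mem (Submodule.subset_span (by simp)) (Submodule.subset_span (by simp))
  have h9 := hns _ _ _ hQv hv0 hm
  rw [q_add, ha, ha', haa'] at h9
  simp at h9

end Torus

theorem dioph {Y P R e b : ℕ} (h : (Y * P + R) * e = (Y * P + e) * b) (he : 1 ≤ e) (heR : e < R) (hR : R ^ 2 ≤ 4 * (Y * P)) : False := by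
  set X := Y * P with hX
  obtain ⟨s, rfl⟩ : ∃ s, R = e + s := ⟨R - e, by omega⟩
  have hs : 0 < s := by omega
  rcases Nat.lt_or_ge e b with hb | hb
  · obtain ⟨r, rfl⟩ : ∃ r, b = e + 1 + r := ⟨b - e - 1, by omega⟩
    have h1 : (X + (e + s)) * e = X * e + e * e + s * e := by ring
    have h2 : (X + e) * (e + 1 + r) = X * e + e * e + X + e + (X + e) * r := by ring
    rw [h1, h2] at h
    have h3 : s * e ≥ X + e := by
      have := Nat.zero_le ((X + e) * r)
      omega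
    have h4 : 4 * (s * e) ≤ (e + s) ^ 2 := by nlinarith [sq_nonneg ((e : ℤ) - s), sq_nonneg (e - s)]
    nlinarith
  · have h1 : (X + e) * b ≤ (X + e) * e := Nat.mul_le_mul_left _ hb
    have h2 : (X + (e + s)) * e = (X + e) * e + s * e := by ring
    have h3 : 0 < s * e := Nat.mul_pos hs he
    omega

end Cfsg.Agent.Lib.MinOrth
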