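import Mathlib
import Cfsg.Agent.Lib.MinOrth.Exc

/-! The final combination: the bound for the index in terms of numerical data. -/

set_option autoImplicit false
set_option linter.unusedSimpArgs false
set_option linter.unusedVariables false
set_option linter.unusedSectionVars false
set_option linter.style.haveILetI false

namespace Cfsg.Agent.Lib.MinOrth

open Matrix Module Cfsg.Agent.Lib.Classical
open scoped commutatorElement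

variable {F : Type*} [Field F] [Fintype F] {ι : Type} [Fintype ι] [DecidableEq ι] {Q : QuadraticForm F (ι → F)}

local notation "bb" => QuadraticMap.polar (DFunLike.coe Q)
local notation "qq" => Fintype.card F

variable [OS Q] {Ω : Type*} [MulAction (OmG Q) Ω] {ψ : AddChar F ℂ} {c₀ : F}

section Omega

variable [Finite Ω]

theorem inv_of_num (hc₀ : ψ c₀ ≠ 1) {p K : ℕ} (hp : p.Prime) (hchar : (p : F) = 0)
    (hK : ∀ a κ, Q a = 0 → a ≠ 0 → κ ≠ 0 → K ≤ Nat.card (Cl Q a κ))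
    (hTI : qq * Nat.card Ω < p * K) :
    ∀ a y, Q a = 0 → a ≠ 0 → bb a y = 0 → Q y ≠ 0 → TInv Q Ω ψ a y := by
  intro a y ha ha0 hy hQy
  apply TInv_of_cnt_lt ha hp hchar
  by_contra h
  push Not at h
  have := le_of_one (Q := Q) (Ω := Ω) hc₀ ha0 (Cl Q a (Q y)) p (fun v hv => h.trans (cnt_class ha ha0 hy hQy hv))
  have h3 := Nat.mul_le_mul_left p (hK a (Q y) ha ha0 hQy)
  omega

set_option maxHeartbeats 2000000 in
/-- The exceptional case. -/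
theorem exc_false [MulAction.IsPretransitive (OmG Q) Ω] [Nonempty Ω] (hc₀ : ψ c₀ ≠ 1)
    (hinv : ∀ a y, Q a = 0 → a ≠ 0 → QuadraticMap.polar (⇑Q) a y = 0 → Q y ≠ 0 → TInv Q Ω ψ a y)
    (hnr : ∀ a (ω : Ω), Q a = 0 → a ≠ 0 → ¬ Reg Q ψ a ω)
    {ν : F} (hν : ν ≠ 0) (hν1 : ν ^ 2 ≠ 1)
    {μ : ℕ} (hμ : ∀ U : Submodule F (ι → F), (∀ x ∈ U, Q x = 0) → finrank F U ≤ μ) (hμ3 : 3 ≤ μ)
    (h2 : 2 * qq ^ 2 < qq ^ μ)
    {B K Y P R N : ℕ}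
    (hB : ∀ a, Q a = 0 → a ≠ 0 → Nat.card (Bs Q a) = B)
    (hZ : ∀ a v, Flag Q a v → (qq + 1) * (qq ^ μ - qq ^ 2) ≤ Nat.card (Zs Q a v))
    (hK : ∀ a κ, Q a = 0 → a ≠ 0 → κ ≠ 0 → K ≤ Nat.card (Cl Q a κ))
    (hd5 : qq * Nat.card Ω < qq + (qq + 2) * B)
    (hd6 : qq * Nat.card Ω < qq + (qq + 1) * B + K)
    (hYB : (qq + 1) * B = Y * (qq ^ μ - qq)) (hP : qq ^ μ = qq * P)
    (hNp : Nat.card (SPt Q) = N) (hNY : N = Y * P + R) (hdN : Nat.card Ω < N) (hR : R ^ 2 ≤ 4 * (Y * P))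
    {a v v' : ι → F} {ω₀ : Ω} (hf : Flag Q a v) (hv : v ∈ Tg Q ψ a ω₀) (hv' : v' ∈ Tg Q ψ a ω₀)
    (hv's : v' ∉ Submodule.span F ({a, v} : Set (ι → F))) : False := by
  classical
  have hq2 : 2 ≤ qq := Fintype.one_lt_card
  have hstruct : ∀ a₂ v₂, Flag Q a₂ v₂ →
      (∀ ω : Ω, v₂ ∈ Tg Q ψ a₂ ω → (∀ x ∈ Tg Q ψ a₂ ω, ∀ c : F, c • x ∈ Tg Q ψ a₂ ω) ∧ Nat.card (Tg Q ψ a₂ ω) = qq ^ μ) ∧
      cnt Q Ω ψ a₂ v₂ = qq + 1 ∧
      (∀ (ω₁ ω₂ : Ω) z, z ∈ Zs Q a₂ v₂ → v₂ ∈ Tg Q ψ a₂ ω₁ → v₂ ∈ Tg Q ψ a₂ ω₂ → z ∈ Tg Q ψ a₂ ω₁ → z ∈ Tg Q ψ a₂ ω₂ → (orel Q Ω a₂).r ω₁ ω₂) := by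
    intro a₂ v₂ hf₂
    obtain ⟨ω, v'', h3, h4, h5⟩ := inst_transport hf hf₂ hv hv' hv's
    exact struct_of_inst hc₀ hinv hnr hμ hf₂ (hB _ hf₂.1 hf₂.2.1) hd5 h2 (hZ _ _ hf₂) h3 h4 h5
  have hns : ∀ a₂ (ω : Ω) z, Q a₂ = 0 → a₂ ≠ 0 → z ∈ Tg Q ψ a₂ ω → Q z = 0 := by
    intro a₂ ω z ha₂ ha₂0 hz
    by_contra hQz
    have hz0 := Tg_perp hc₀ ha₂ hz
    have := le_of_three (Q := Q) (Ω := Ω) hc₀ ha₂0 (Ln a₂) (Bs Q a₂) (Cl Q a₂ (Q z)) 1 (qq + 1) 1 (by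
      intro w
      by_cases hw : w ∈ Bs Q a₂
      · have hnl : w ∉ Ln a₂ := by
          rintro ⟨c, hc⟩
          exact hw.2.2 c hc
        have hnc : w ∉ Cl Q a₂ (Q z) := by
          rintro ⟨_, m, hm, h6⟩
          rw [hw.1] at h6
          exact mul_ne_zero (pow_ne_zero _ hm) hQz h6.symm
        rw [if_neg hnl, if_pos hw, if_neg hnc, (hstruct a₂ w ⟨ha₂, ha₂0, hw⟩).2.1]
        simp
      · rw [if_neg hw, add_zero]
        by_cases hwl : w ∈ Ln a₂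
        · have hnc : w ∉ Cl Q a₂ (Q z) := by
            obtain ⟨c, rfl⟩ := hwl
            rintro ⟨_, m, hm, h6⟩
            rw [q_smul, ha₂, mul_zero] at h6
            exact mul_ne_zero (pow_ne_zero _ hm) hQz h6.symm
          rw [if_pos hwl, if_neg hnc, add_zero]
          obtain ⟨c, rfl⟩ := hwl
          rw [cnt_line]
          haveI : Nonempty (Quotient (orel Q Ω a₂)) := ⟨Quotient.mk (orel Q Ω a₂) ω⟩
          exact Nat.succ_le_of_lt Nat.card_pos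
        · rw [if_neg hwl, zero_add]
          split_ifs with hwc
          · exact (one_le_cnt hz).trans (cnt_class ha₂ ha₂0 hz0 hQz hwc)
          · exact Nat.zero_le _)
    rw [card_Ln ha₂0, hB _ ha₂ ha₂0, one_mul, one_mul] at this
    have h3 := hK a₂ (Q z) ha₂ ha₂0 hQz
    omega
  have hqμ : qq < qq ^ μ := by
    have : qq ≤ qq ^ 2 := by nlinarith
    omega
  have hd : ∀ a₂, Q a₂ = 0 → a₂ ≠ 0 → Nat.card Ω = Y * P + Nat.card {ω : Ω // Fx Q a₂ ω} := by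
    intro a₂ ha₂ ha₂0
    obtain ⟨k, h3, h4⟩ := exc_count (Ω := Ω) hc₀ ha₂ ha₂0 (fun ω z hz => hns a₂ ω z ha₂ ha₂0 hz)
      (fun w hw ω hwT => ((hstruct a₂ w ⟨ha₂, ha₂0, hw⟩).1 ω hwT).2)
      (fun w hw => (hstruct a₂ w ⟨ha₂, ha₂0, hw⟩).2.1) (hB a₂ ha₂ ha₂0)
    rw [hYB] at h3
    obtain ⟨s, hs⟩ : ∃ s, qq ^ μ = qq + s := ⟨qq ^ μ - qq, by omega⟩
    have hs0 : 0 < s := by omega
    have hsub : qq ^ μ - qq = s := by omega
    rw [hsub, hs] at h3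
    have hk : k = Y := by
      have h5 : k * s = Y * s := by nlinarith
      exact Nat.eq_of_mul_eq_mul_right hs0 h5
    subst hk
    rw [hP] at h4
    have h6 : qq * Nat.card Ω = qq * (k * P + Nat.card {ω : Ω // Fx Q a₂ ω}) := by rw [h4]; ring
    exact Nat.eq_of_mul_eq_mul_left (by omega) h6
  obtain ⟨b, ω₁, hb, hb0, hFx⟩ := exists_Fx hμ3 hc₀ hν hν1 (fun a₂ v₂ hf₂ ω hω => (hstruct a₂ v₂ hf₂).1 ω hω)
    (fun a₂ v₂ hf₂ => (hstruct a₂ v₂ hf₂).2.2) hns hf hv hv' hv's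
  set e := Nat.card {ω : Ω // Fx Q b ω} with he
  have he1 : 1 ≤ e := by
    haveI : Nonempty {ω : Ω // Fx Q b ω} := ⟨⟨ω₁, hFx⟩⟩
    exact Nat.succ_le_of_lt Nat.card_pos
  have hdb := hd b hb hb0
  rw [← he] at hdb
  have he' : ∀ a₂, Q a₂ = 0 → a₂ ≠ 0 → Nat.card {ω : Ω // Q a₂ = 0 ∧ Fx Q a₂ ω} = e := by
    intro a₂ ha₂ ha₂0
    have h3 := hd a₂ ha₂ ha₂0
    have h4 : Nat.card {ω : Ω // Q a₂ = 0 ∧ Fx Q a₂ ω} = Nat.card {ω : Ω // Fx Q a₂ ω} :=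
      Nat.card_congr (Equiv.subtypeEquivRight (fun ω => ⟨fun h => h.2, fun h => ⟨ha₂, h⟩⟩))
    omega
  obtain ⟨b', hb'⟩ := double_count (Q := Q) (Ω := Ω) (fun a ω => Q a = 0 ∧ Fx Q a ω)
    (fun a ω c hc h => ⟨by rw [q_smul, h.1, mul_zero], Fx_smul h.1 hc h.2⟩)
    (fun a ω g h => ⟨by rw [gv_Q]; exact h.1, Fx_act h.1 g h.2⟩) he' ω₀
  rw [hNp, hNY, hdb] at hb'
  rw [hNY, hdb] at hdN
  exact dioph hb' he1 (by omega) hR

end Omega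

/-- The numbers attached to `a` and `v`. -/
theorem card_Zs_num {A₀ : ℕ} (hA : ∀ a, Q a = 0 → a ≠ 0 → Nk Q (P1 Q a) 0 = A₀) {a v : ι → F} (hf : Flag Q a v) :
    Nat.card (Zs Q a v) + qq ^ 2 + (qq - 1) * qq ^ (Fintype.card ι - 3) = A₀ := by
  obtain ⟨ha, ha0, hQv, hav, hvl⟩ := hf
  rw [card_Zs_add ha hQv ha0 hav hvl, ← hA a ha ha0]
  have hn : v ∉ Submodule.span F ({a} : Set (ι → F)) := fun hm => by
    obtain ⟨d, hd⟩ := smul_mem_span_self.1 hm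
    exact hvl d hd
  obtain ⟨x, h1, h2⟩ := exists_perp_one (Q := Q) hn
  exact (N_P1_eq ha0 hQv hav (h1 a (Submodule.mem_span_singleton_self a)) h2 0).symm

/-- The numerical data of the exceptional case. -/
def ExcNum (q A₀ N μ : ℕ) : Prop :=
  ∃ Y P R, (q + 1) * (A₀ - q) = Y * (q ^ μ - q) ∧ q ^ μ = q * P ∧ N = Y * P + R ∧ R ^ 2 ≤ 4 * (Y * P)

set_option maxHeartbeats 2000000 in
/-- The dichotomy for a transitive action with few points. -/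
theorem core_omega [Finite Ω] [MulAction.IsPretransitive (OmG Q) Ω] [Nontrivial Ω] (ψ : AddChar F ℂ) (hψ : ψ 1 ≠ 1) {ν : F} (hν : ν ≠ 0) (hν1 : ν ^ 2 ≠ 1)
    {p K A₀ N μ Zc : ℕ} (hp : p.Prime) (hchar : (p : F) = 0)
    (hK : ∀ a κ, Q a = 0 → a ≠ 0 → κ ≠ 0 → K ≤ Nat.card (Cl Q a κ))
    (hTI : qq * N ≤ p * K)
    (hd1 : qq * N ≤ 2 * qq ^ (Fintype.card ι - 1))
    (hd2 : qq * N ≤ qq ^ (Fintype.card ι - 1) + K)
    (hd3 : qq * N ≤ qq ^ (Fintype.card ι - 1) + 2 * (A₀ - qq))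
    (hd5 : qq * N ≤ qq + (qq + 2) * (A₀ - qq))
    (hA : ∀ a, Q a = 0 → a ≠ 0 → Nk Q (P1 Q a) 0 = A₀)
    (hN : (qq - 1) * N = (A₀ - qq) + (qq - 1) * (qq ^ (Fintype.card ι - 2) + 1))
    (hNp : Nat.card (SPt Q) = N)
    (hμ : ∀ U : Submodule F (ι → F), (∀ x ∈ U, Q x = 0) → finrank F U ≤ μ)
    (hZc : Zc + qq ^ 2 + (qq - 1) * qq ^ (Fintype.card ι - 3) = A₀)
    (h2 : 2 * qq ^ 2 ≤ qq ^ μ)
    (hcase : (qq + 1) * (qq ^ μ - qq ^ 2) < Zc ∨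
      ((qq + 1) * (qq ^ μ - qq ^ 2) ≤ Zc ∧ 3 ≤ μ ∧ 2 * qq ^ 2 < qq ^ μ ∧ qq * N ≤ qq + (qq + 1) * (A₀ - qq) + K ∧ ExcNum qq A₀ N μ))
    (hdN' : Nat.card Ω < N) (ω₀ : Ω) :
    ∀ a, Q a = 0 → a ≠ 0 → ∃ v, ∀ w, bb a w = 0 → bb v w = 0 → eo Q a w • ω₀ = ω₀ := by
  classical
  have hq2 : 2 ≤ qq := Fintype.one_lt_card
  have hlt : ∀ {X : ℕ}, qq * N ≤ X → qq * Nat.card Ω < X := by
    intro X hX
    have : qq * Nat.card Ω < qq * N := Nat.mul_lt_mul_of_pos_left hdN' (by omega)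
    omega
  have hinv : ∀ a y, Q a = 0 → a ≠ 0 → QuadraticMap.polar (⇑Q) a y = 0 → Q y ≠ 0 → TInv Q Ω ψ a y :=
    inv_of_num hψ hp hchar hK (hlt hTI)
  have hnr : ∀ a (ω : Ω), Q a = 0 → a ≠ 0 → ¬ Reg Q ψ a ω := by
    intro a ω ha ha0 hreg
    exact no_reg hψ hν hν1 hK (hlt hd1) (hlt hd2) (hlt hd3) hA hN hNp hdN' ha ha0 hreg
  have hBc : ∀ a, Q a = 0 → a ≠ 0 → Nat.card (Bs Q a) = A₀ - qq := by
    intro a ha ha0
    have := card_Bs_add (F := F) (Q := Q) ha ha0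
    rw [hA a ha ha0] at this
    omega
  have hZa : ∀ a v, Flag Q a v → Nat.card (Zs Q a v) = Zc := by
    intro a v hf
    have := card_Zs_num hA hf
    omega
  by_cases hinst : ∃ (a v v' : ι → F) (ω : Ω), Flag Q a v ∧ v ∈ Tg Q ψ a ω ∧ v' ∈ Tg Q ψ a ω ∧ v' ∉ Submodule.span F ({a, v} : Set (ι → F))
  · exfalso
    obtain ⟨a, v, v', ω, hf, hv, hv', hv's⟩ := hinst
    rcases hcase with hgen | ⟨hex, hμ3, h2', hd6, Y, P, R, hYB, hP, hNY, hR⟩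
    · exact cover_false hψ hinv hnr hμ hf (hBc a hf.1 hf.2.1) (hlt hd5) h2 (by rw [hZa a v hf]; exact hgen) hv hv' hv's
    · exact exc_false hψ hinv hnr hν hν1 hμ hμ3 h2' hBc (fun a v hf => by rw [hZa a v hf]; exact hex) hK (hlt hd5)
        (hlt hd6) hYB hP hNp hNY hdN' hR hf hv hv' hv's
  · push Not at hinst
    intro a ha ha0
    have key : ∀ v, (∀ z ∈ Tg Q ψ a ω₀, z ∈ Submodule.span F ({a, v} : Set (ι → F))) →
        ∃ v, ∀ w, bb a w = 0 → bb v w = 0 → eo Q a w • ω₀ = ω₀ := by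
      intro v hv
      refine ⟨v, fun w h1 h2 => ?_⟩
      refine fix_of_forall hψ h1 ?_
      intro x hx
      obtain ⟨α, β, rfl⟩ := Submodule.mem_span_pair.1 (hv x hx)
      rw [polar_add_r, polar_smul_r, polar_smul_r, polar_symm w a, polar_symm w v, h1, h2]
      ring
    rcases Tg_shape hψ ha (hinv a · ha ha0) ω₀ with h | ⟨y, hy, hQy, hyT, hsp⟩ | h
    · exact absurd h (hnr a ω₀ ha ha0)
    · exact key y hsp
    · by_cases hall : ∀ z ∈ Tg Q ψ a ω₀, ∃ c : F, z = c • a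
      · refine key 0 ?_
        intro z hz
        obtain ⟨c, rfl⟩ := hall z hz
        exact Submodule.smul_mem _ _ (Submodule.subset_span (by simp))
      · push Not at hall
        obtain ⟨v, hvT, hvl⟩ := hall
        refine key v ?_
        intro z hz
        exact hinst a v z ω₀ ⟨ha, ha0, h v hvT, Tg_perp hψ ha hvT, hvl⟩ hvT hz

instance finite_omg : Finite (OmG Q) := by
  have : Finite (Matrix.GeneralLinearGroup ι F) := inferInstance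
  have h1 : Finite (OG Q) := Subtype.finite
  exact Subtype.finite

/-- The coset action. -/
noncomputable instance (priority := 2000) qAct (H : Subgroup (OmG Q)) : MulAction (OmG Q) (OmG Q ⧸ H) := MulAction.quotient (OmG Q) H

set_option synthInstance.maxHeartbeats 200000 in
theorem smul_base_iff (H : Subgroup (OmG Q)) {g : OmG Q} :
    g • (QuotientGroup.mk 1 : OmG Q ⧸ H) = QuotientGroup.mk 1 ↔ g ∈ H := by
  show (QuotientGroup.mk (g * 1) : OmG Q ⧸ H) = QuotientGroup.mk 1 ↔ _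
  rw [mul_one, QuotientGroup.eq, mul_one]
  exact inv_mem_iff

set_option synthInstance.maxHeartbeats 200000 in
set_option maxHeartbeats 2000000 in
/-- The index bound. -/
theorem index_ge_core (H : Subgroup (OmG Q)) (hH : H ≠ ⊤) {ν : F} (hν : ν ≠ 0) (hν1 : ν ^ 2 ≠ 1)
    {p K A₀ N μ Zc : ℕ} (hp : p.Prime) (hchar : (p : F) = 0)
    (hK : ∀ a κ, Q a = 0 → a ≠ 0 → κ ≠ 0 → K ≤ Nat.card (Cl Q a κ))
    (hTI : qq * N ≤ p * K)
    (hd1 : qq * N ≤ 2 * qq ^ (Fintype.card ι - 1))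
    (hd2 : qq * N ≤ qq ^ (Fintype.card ι - 1) + K)
    (hd3 : qq * N ≤ qq ^ (Fintype.card ι - 1) + 2 * (A₀ - qq))
    (hd5 : qq * N ≤ qq + (qq + 2) * (A₀ - qq))
    (hA : ∀ a, Q a = 0 → a ≠ 0 → Nk Q (P1 Q a) 0 = A₀)
    (hN : (qq - 1) * N = (A₀ - qq) + (qq - 1) * (qq ^ (Fintype.card ι - 2) + 1))
    (hNp : Nat.card (SPt Q) = N)
    (hμ : ∀ U : Submodule F (ι → F), (∀ x ∈ U, Q x = 0) → finrank F U ≤ μ)
    (hZc : Zc + qq ^ 2 + (qq - 1) * qq ^ (Fintype.card ι - 3) = A₀)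
    (h2 : 2 * qq ^ 2 ≤ qq ^ μ)
    (hcase : (qq + 1) * (qq ^ μ - qq ^ 2) < Zc ∨
      ((qq + 1) * (qq ^ μ - qq ^ 2) ≤ Zc ∧ 3 ≤ μ ∧ 2 * qq ^ 2 < qq ^ μ ∧ qq * N ≤ qq + (qq + 1) * (A₀ - qq) + K ∧ ExcNum qq A₀ N μ)) :
    N ≤ H.index := by
  classical
  by_contra hdN'
  push Not at hdN'
  obtain ⟨ψ, hψ⟩ := (AddChar.exists_apply_ne_zero (a := (1 : F))).2 one_ne_zero
  haveI hfin : Finite (OmG Q ⧸ H) := Quotient.finite _
  haveI hnt : Nontrivial (OmG Q ⧸ H) := by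
    obtain ⟨g, hg⟩ : ∃ g, g ∉ H := by
      by_contra hall
      push Not at hall
      exact hH (eq_top_iff.2 (fun g _ => hall g))
    refine ⟨⟨(QuotientGroup.mk 1 : OmG Q ⧸ H), (QuotientGroup.mk g : OmG Q ⧸ H), ?_⟩⟩
    intro he
    apply hg
    have := QuotientGroup.eq.1 he
    simpa using this
  haveI hpt : MulAction.IsPretransitive (OmG Q) (OmG Q ⧸ H) := inferInstance
  apply hH
  apply eq_top_of_lines
  intro a ha ha0
  obtain ⟨v, hv⟩ := core_omega (Ω := OmG Q ⧸ H) ψ hψ hν hν1 hp hchar hK hTI hd1 hd2 hd3 hd5 hA hN hNp hμ hZc h2 hcase hdN' (QuotientGroup.mk 1) a ha ha0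
  exact ⟨v, fun w h1 h3 => (smul_base_iff H).1 (hv w h1 h3)⟩

end Cfsg.Agent.Lib.MinOrth
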