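import Mathlib
import Cfsg.Agent.Lib.MinOrth.Core

/-! The numerical reduction. -/

set_option autoImplicit false
set_option linter.unusedSimpArgs false
set_option linter.unusedVariables false
set_option linter.unusedSectionVars false
set_option linter.style.haveILetI false

namespace Cfsg.Agent.Lib.MinOrth

open Matrix Module Cfsg.Agent.Lib.Classical
open scoped commutatorElement LinearAlgebra.Projectivization

theorem le_of_coef {q N z U Rc : ℕ} (hq : 2 ≤ q) (h1 : (q - 1) * N ≤ U * z) (h2 : q * U ≤ (q - 1) * Rc) : q * N ≤ Rc * z := by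
  have hq1 : 0 < q - 1 := by omega
  apply Nat.le_of_mul_le_mul_left _ hq1
  calc (q - 1) * (q * N) = q * ((q - 1) * N) := by ring
    _ ≤ q * (U * z) := Nat.mul_le_mul_left _ h1
    _ = (q * U) * z := by ring
    _ ≤ ((q - 1) * Rc) * z := Nat.mul_le_mul_right _ h2
    _ = (q - 1) * (Rc * z) := by ring

theorem sq_sub_one_eq (s : ℕ) : (s + 4) ^ 2 - 1 = s ^ 2 + 8 * s + 15 := by
  have : (s + 4) ^ 2 = s ^ 2 + 8 * s + 16 := by ring
  omega

theorem coef1 {q : ℕ} (hq : 4 ≤ q) : q * (q ^ 3 + 1) ≤ (q - 1) * (2 * q ^ 3) := by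
  obtain ⟨s, rfl⟩ : ∃ s, q = s + 4 := ⟨q - 4, by omega⟩
  have e : s + 4 - 1 = s + 3 := rfl
  rw [e]
  nlinarith [Nat.zero_le (s ^ 4), Nat.zero_le (s ^ 3), Nat.zero_le (s ^ 2), Nat.zero_le s]

theorem coef3 {q : ℕ} (hq : 4 ≤ q) : q * (q ^ 3 + 1) ≤ (q - 1) * (q ^ 3 + 2 * (q ^ 2 - 1)) := by
  obtain ⟨s, rfl⟩ : ∃ s, q = s + 4 := ⟨q - 4, by omega⟩
  have e : s + 4 - 1 = s + 3 := rfl
  rw [e, sq_sub_one_eq]
  nlinarith [Nat.zero_le (s ^ 4), Nat.zero_le (s ^ 3), Nat.zero_le (s ^ 2), Nat.zero_le s]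

theorem coef5 {q : ℕ} (hq : 4 ≤ q) : q * (q ^ 3 + 1) ≤ (q - 1) * ((q + 2) * (q ^ 2 - 1)) := by
  obtain ⟨s, rfl⟩ : ∃ s, q = s + 4 := ⟨q - 4, by omega⟩
  have e : s + 4 - 1 = s + 3 := rfl
  rw [e, sq_sub_one_eq]
  nlinarith [Nat.zero_le (s ^ 4), Nat.zero_le (s ^ 3), Nat.zero_le (s ^ 2), Nat.zero_le s]

theorem coef6 {q : ℕ} (hq : 4 ≤ q) : q ^ 3 ≤ (q + 1) * (q ^ 2 - 1) := by
  obtain ⟨s, rfl⟩ : ∃ s, q = s + 4 := ⟨q - 4, by omega⟩
  rw [sq_sub_one_eq]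
  nlinarith [Nat.zero_le (s ^ 3), Nat.zero_le (s ^ 2), Nat.zero_le s]

variable {F : Type*} [Field F] [Fintype F] {ι : Type} [Fintype ι] [DecidableEq ι] {Q : QuadraticForm F (ι → F)}

local notation "bb" => QuadraticMap.polar (DFunLike.coe Q)
local notation "qq" => Fintype.card F

/-- Counting singular points. -/
theorem card_spt_add (Q : QuadraticForm F (ι → F)) : (qq - 1) * Nat.card (SPt Q) + 1 = Nk Q ⊤ 0 := by
  classical
  have hX : Nat.card (Fˣ × SPt Q) = Nat.card {x : ι → F // Q x = 0 ∧ x ≠ 0} := by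
    refine Nat.card_congr (Equiv.ofBijective (fun y => ⟨(y.1 : F) • y.2.1.rep, ?_, ?_⟩) ⟨?_, ?_⟩)
    · rw [q_smul, (y.2.2 : Q y.2.1.rep = 0), mul_zero]
    · exact smul_ne_zero y.1.ne_zero y.2.1.rep_nonzero
    · rintro ⟨u, p⟩ ⟨u', p'⟩ h
      have h1 : (u : F) • p.1.rep = (u' : F) • p'.1.rep := congrArg Subtype.val h
      have hpp : p = p' := by
        apply Subtype.ext
        rw [← Projectivization.mk_rep p.1, ← Projectivization.mk_rep p'.1, Projectivization.mk_eq_mk_iff]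
        refine ⟨u⁻¹ * u', ?_⟩
        rw [Units.smul_def, Units.val_mul, mul_smul, ← h1, smul_smul]
        simp
      subst hpp
      have h2 := smul_left_injective F p.1.rep_nonzero h1
      exact Prod.ext (Units.ext h2) rfl
    · rintro ⟨x, hx, hx0⟩
      obtain ⟨a, ha⟩ := Projectivization.exists_smul_eq_mk_rep F x hx0
      refine ⟨(a⁻¹, spMk hx0 hx), Subtype.ext ?_⟩
      have e : (spMk hx0 hx : SPt Q).1.rep = (a : F) • x := ha.symm
      show ((a⁻¹ : Fˣ) : F) • (spMk hx0 hx : SPt Q).1.rep = x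
      rw [e, smul_smul, Units.inv_mul, one_smul]
  rw [Nat.card_prod, Nat.card_eq_fintype_card (α := Fˣ), Fintype.card_units] at hX
  rw [hX]
  have h0 : Nat.card {x : ι → F // Q x = 0 ∧ x ≠ 0} + 1 = Nat.card {x : ι → F // x ∈ (⊤ : Submodule F (ι → F)) ∧ Q x = 0} := by
    have e := Nat.card_congr (Equiv.sumCompl (fun x : {x : ι → F // x ∈ (⊤ : Submodule F (ι → F)) ∧ Q x = 0} => (x : ι → F) = 0))
    rw [Nat.card_sum] at e
    have h1 : Nat.card {x : {x : ι → F // x ∈ (⊤ : Submodule F (ι → F)) ∧ Q x = 0} // (x : ι → F) = 0} = 1 := by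
      rw [Nat.card_eq_one_iff_unique]
      refine ⟨⟨?_⟩, ⟨⟨0, Submodule.mem_top, q_zero⟩, rfl⟩⟩
      rintro ⟨⟨x, _⟩, hx⟩ ⟨⟨y, _⟩, hy⟩
      apply Subtype.ext
      apply Subtype.ext
      exact hx.trans hy.symm
    have h2 : Nat.card {x : {x : ι → F // x ∈ (⊤ : Submodule F (ι → F)) ∧ Q x = 0} // ¬ (x : ι → F) = 0} = Nat.card {x : ι → F // Q x = 0 ∧ x ≠ 0} := by
      refine Nat.card_congr ⟨fun x => ⟨x.1.1, x.1.2.2, x.2⟩, fun x => ⟨⟨x.1, Submodule.mem_top, x.2.1⟩, x.2.2⟩, fun _ => rfl, fun _ => rfl⟩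
    rw [h1, h2] at e
    omega
  exact h0

variable [OS Q]

theorem exists_nu (hq : 4 ≤ qq) : ∃ ν : F, ν ≠ 0 ∧ ν ^ 2 ≠ 1 := by
  classical
  by_contra hall
  push Not at hall
  have hsub : (Finset.univ : Finset F) ⊆ {0, 1, -1} := by
    intro x _
    by_cases hx : x = 0
    · simp [hx]
    · have h := hall x hx
      have h2 : (x - 1) * (x + 1) = 0 := by linear_combination h
      rcases mul_eq_zero.1 h2 with h3 | h3
      · have : x = 1 := sub_eq_zero.1 h3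
        simp [this]
      · have : x = -1 := eq_neg_of_add_eq_zero_left h3
        simp [this]
  have h1 := Finset.card_le_card hsub
  rw [Finset.card_univ] at h1
  have h2 : ({0, 1, -1} : Finset F).card ≤ 3 := Finset.card_le_three
  omega

set_option maxHeartbeats 2000000 in
/-- The index bound in terms of the number of singular vectors. -/
theorem index_ge_num (H : Subgroup (OmG Q)) (hH : H ≠ ⊤) (hq4 : 4 ≤ qq)
    {S N A₀ p Kc μ Zc : ℕ}
    (hS : Nk Q ⊤ 0 = S) (hNS : (qq - 1) * N + 1 = S) (hA0 : A₀ + (qq - 1) * qq ^ (Fintype.card ι - 2) = S)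
    (hU1 : (qq - 1) * N ≤ (qq ^ 3 + 1) * qq ^ (Fintype.card ι - 4))
    (hL1 : (qq ^ 2 - 1) * qq ^ (Fintype.card ι - 4) ≤ A₀ - qq)
    (hp : p.Prime) (hchar : (p : F) = 0)
    (hK : ∀ a κ, Q a = 0 → a ≠ 0 → κ ≠ 0 → Kc * qq ^ (Fintype.card ι - 4) ≤ Nat.card (Cl Q a κ))
    (hd2c : qq * (qq ^ 3 + 1) ≤ (qq - 1) * (qq ^ 3 + Kc))
    (hTIc : qq * (qq ^ 3 + 1) ≤ (qq - 1) * (p * Kc))
    (hμ : ∀ U : Submodule F (ι → F), (∀ x ∈ U, Q x = 0) → finrank F U ≤ μ)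
    (hZc : Zc + qq ^ 2 + (qq - 1) * qq ^ (Fintype.card ι - 3) = A₀)
    (h2 : 2 * qq ^ 2 ≤ qq ^ μ)
    (hcase : (qq + 1) * (qq ^ μ - qq ^ 2) < Zc ∨
      ((qq + 1) * (qq ^ μ - qq ^ 2) ≤ Zc ∧ 3 ≤ μ ∧ 2 * qq ^ 2 < qq ^ μ ∧ ExcNum qq A₀ N μ)) :
    N ≤ H.index := by
  have hn := OS.big Q
  have hq2 : 2 ≤ qq := by omega
  obtain ⟨ν, hν, hν1⟩ := exists_nu (F := F) hq4
  set z := qq ^ (Fintype.card ι - 4) with hz
  have hz0 : 0 < z := Nat.pow_pos (by omega)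
  have e1 : qq ^ (Fintype.card ι - 1) = qq ^ 3 * z := by
    rw [hz, ← pow_add]
    congr 1
    omega
  have hNp : Nat.card (SPt Q) = N := by
    have h1 := card_spt_add Q
    rw [hS, ← hNS] at h1
    have h3 : (qq - 1) * Nat.card (SPt Q) = (qq - 1) * N := by omega
    exact Nat.eq_of_mul_eq_mul_left (by omega) h3
  have hA : ∀ a, Q a = 0 → a ≠ 0 → Nk Q (P1 Q a) 0 = A₀ := by
    intro a ha ha0
    have := N_top_eq (Q := Q) ha ha0 0
    omega
  have hq2pos : 0 < (qq ^ 2 - 1) * z := by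
    apply Nat.mul_pos _ hz0
    have : qq ^ 2 ≥ 4 := by nlinarith
    omega
  have hA0q : qq < A₀ := by omega
  have hN : (qq - 1) * N = (A₀ - qq) + (qq - 1) * (qq ^ (Fintype.card ι - 2) + 1) := by
    rw [Nat.mul_add, mul_one]
    omega
  have hB : (qq ^ 2 - 1) * z ≤ A₀ - qq := hL1
  have hd1 : qq * N ≤ 2 * qq ^ (Fintype.card ι - 1) := by
    rw [e1, ← mul_assoc]
    exact le_of_coef hq2 hU1 (coef1 hq4)
  have hd2 : qq * N ≤ qq ^ (Fintype.card ι - 1) + Kc * z := by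
    rw [e1, ← Nat.add_mul]
    exact le_of_coef hq2 hU1 hd2c
  have hd3 : qq * N ≤ qq ^ (Fintype.card ι - 1) + 2 * (A₀ - qq) := by
    have h3 : qq * N ≤ (qq ^ 3 + 2 * (qq ^ 2 - 1)) * z := le_of_coef hq2 hU1 (coef3 hq4)
    rw [e1]
    have h4 : (qq ^ 3 + 2 * (qq ^ 2 - 1)) * z = qq ^ 3 * z + 2 * ((qq ^ 2 - 1) * z) := by ring
    omega
  have hd5 : qq * N ≤ qq + (qq + 2) * (A₀ - qq) := by
    have h3 : qq * N ≤ ((qq + 2) * (qq ^ 2 - 1)) * z := le_of_coef hq2 hU1 (coef5 hq4)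
    have h4 : ((qq + 2) * (qq ^ 2 - 1)) * z = (qq + 2) * ((qq ^ 2 - 1) * z) := by ring
    have h5 := Nat.mul_le_mul_left (qq + 2) hB
    omega
  have hTI : qq * N ≤ p * (Kc * z) := by
    rw [← mul_assoc]
    exact le_of_coef hq2 hU1 hTIc
  refine index_ge_core H hH hν hν1 hp hchar hK hTI hd1 hd2 hd3 hd5 hA hN hNp hμ hZc h2 ?_
  rcases hcase with h | ⟨h3, h4, h5, h6⟩
  · exact Or.inl h
  · refine Or.inr ⟨h3, h4, h5, ?_, h6⟩
    have h7 : qq * N ≤ qq ^ 3 * z + Kc * z := by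
      rw [← e1]
      exact hd2
    have h8 := Nat.mul_le_mul_right z (coef6 hq4)
    have h9 : (qq + 1) * (qq ^ 2 - 1) * z = (qq + 1) * ((qq ^ 2 - 1) * z) := by ring
    have h10 := Nat.mul_le_mul_left (qq + 1) hB
    omega

end Cfsg.Agent.Lib.MinOrth
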