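import Mathlib
import Cfsg.Agent.Lib.MinOrth.Num

/-! The numerics for the even and odd characteristics, and the standard forms. -/

set_option autoImplicit false
set_option linter.unusedSimpArgs false
set_option linter.unusedVariables false
set_option linter.unusedSectionVars false
set_option linter.style.haveILetI false

namespace Cfsg.Agent.Lib.MinOrth

open Matrix Module Cfsg.Agent.Lib.Classical
open scoped commutatorElement LinearAlgebra.Projectivization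

theorem cube_sub_eq (s : ℕ) : (s + 4) ^ 3 - (s + 4) ^ 2 - 1 = s ^ 3 + 11 * s ^ 2 + 40 * s + 47 := by
  have h1 : (s + 4) ^ 3 = s ^ 3 + 12 * s ^ 2 + 48 * s + 64 := by ring
  have h2 : (s + 4) ^ 2 = s ^ 2 + 8 * s + 16 := by ring
  omega

theorem coef_even2 {q : ℕ} (hq : 4 ≤ q) : q * (q ^ 3 + 1) ≤ (q - 1) * (q ^ 3 + (q ^ 3 - q ^ 2 - 1)) := by
  obtain ⟨s, rfl⟩ : ∃ s, q = s + 4 := ⟨q - 4, by omega⟩
  have e : s + 4 - 1 = s + 3 := rfl
  rw [e, cube_sub_eq]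
  nlinarith [Nat.zero_le (s ^ 4), Nat.zero_le (s ^ 3), Nat.zero_le (s ^ 2), Nat.zero_le s]

theorem coef_evenT {q : ℕ} (hq : 4 ≤ q) : q * (q ^ 3 + 1) ≤ (q - 1) * (2 * (q ^ 3 - q ^ 2 - 1)) := by
  obtain ⟨s, rfl⟩ : ∃ s, q = s + 4 := ⟨q - 4, by omega⟩
  have e : s + 4 - 1 = s + 3 := rfl
  rw [e, cube_sub_eq]
  nlinarith [Nat.zero_le (s ^ 4), Nat.zero_le (s ^ 3), Nat.zero_le (s ^ 2), Nat.zero_le s]

theorem sq_sub_one_odd (r : ℕ) : (2 * r + 1) ^ 2 - 1 = 4 * r ^ 2 + 4 * r := by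
  have : (2 * r + 1) ^ 2 = 4 * r ^ 2 + 4 * r + 1 := by ring
  omega

theorem coef_odd2 {r : ℕ} (hr : 2 ≤ r) :
    (2 * r + 1) * ((2 * r + 1) ^ 3 + 1) ≤ (2 * r + 1 - 1) * ((2 * r + 1) ^ 3 + r * ((2 * r + 1) ^ 2 - 1)) := by
  obtain ⟨s, rfl⟩ : ∃ s, r = s + 2 := ⟨r - 2, by omega⟩
  rw [sq_sub_one_odd, Nat.add_sub_cancel]
  nlinarith [Nat.zero_le (s ^ 4), Nat.zero_le (s ^ 3), Nat.zero_le (s ^ 2), Nat.zero_le s]

theorem coef_oddT {r p : ℕ} (hr : 3 ≤ r) (hp : 3 ≤ p) :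
    (2 * r + 1) * ((2 * r + 1) ^ 3 + 1) ≤ (2 * r + 1 - 1) * (p * (r * ((2 * r + 1) ^ 2 - 1))) := by
  obtain ⟨s, rfl⟩ : ∃ s, r = s + 3 := ⟨r - 3, by omega⟩
  rw [sq_sub_one_odd, Nat.add_sub_cancel]
  have h : (2 * (s + 3)) * (3 * ((s + 3) * (4 * (s + 3) ^ 2 + 4 * (s + 3)))) ≤ (2 * (s + 3)) * (p * ((s + 3) * (4 * (s + 3) ^ 2 + 4 * (s + 3)))) := by
    gcongr
  refine le_trans ?_ h
  nlinarith [Nat.zero_le (s ^ 4), Nat.zero_le (s ^ 3), Nat.zero_le (s ^ 2), Nat.zero_le s]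

variable {F : Type*} [Field F] [Fintype F] {ι : Type} [Fintype ι] [DecidableEq ι] {Q : QuadraticForm F (ι → F)}

local notation "bb" => QuadraticMap.polar (DFunLike.coe Q)
local notation "qq" => Fintype.card F

variable [OS Q]

set_option maxHeartbeats 2000000 in
/-- The index bound, characteristic-free. -/
theorem index_ge_type (H : Subgroup (OmG Q)) (hH : H ≠ ⊤) (hq4 : 4 ≤ qq)
    {S N A₀ μ Zc : ℕ}
    (hS : Nk Q ⊤ 0 = S) (hNS : (qq - 1) * N + 1 = S) (hA0 : A₀ + (qq - 1) * qq ^ (Fintype.card ι - 2) = S)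
    (hU1 : (qq - 1) * N ≤ (qq ^ 3 + 1) * qq ^ (Fintype.card ι - 4))
    (hL1 : (qq ^ 2 - 1) * qq ^ (Fintype.card ι - 4) ≤ A₀ - qq)
    (hU2 : A₀ ≤ (qq ^ 2 + 1) * qq ^ (Fintype.card ι - 4))
    (hμ : ∀ U : Submodule F (ι → F), (∀ x ∈ U, Q x = 0) → finrank F U ≤ μ)
    (hZc : Zc + qq ^ 2 + (qq - 1) * qq ^ (Fintype.card ι - 3) = A₀)
    (h2 : 2 * qq ^ 2 ≤ qq ^ μ)
    (hcase : (qq + 1) * (qq ^ μ - qq ^ 2) < Zc ∨
      ((qq + 1) * (qq ^ μ - qq ^ 2) ≤ Zc ∧ 3 ≤ μ ∧ 2 * qq ^ 2 < qq ^ μ ∧ ExcNum qq A₀ N μ)) :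
    N ≤ H.index := by
  have hn := OS.big Q
  have hA : ∀ a, Q a = 0 → a ≠ 0 → Nk Q (P1 Q a) 0 = A₀ := by
    intro a ha ha0
    have := N_top_eq (Q := Q) ha ha0 0
    omega
  have e1 : qq ^ (Fintype.card ι - 1) = qq ^ 3 * qq ^ (Fintype.card ι - 4) := by
    rw [← pow_add]
    congr 1
    omega
  have e2 : qq ^ (Fintype.card ι - 3) = qq * qq ^ (Fintype.card ι - 4) := by
    rw [← pow_succ']
    congr 1
    omega
  rcases Nat.even_or_odd qq with he | ho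
  · have h2F : ringChar F = 2 := FiniteField.even_card_iff_char_two.2 (Nat.even_iff.1 he)
    haveI : CharP F 2 := ringChar.of_eq h2F
    refine index_ge_num H hH hq4 hS hNS hA0 hU1 hL1 (p := 2) Nat.prime_two (CharP.cast_eq_zero F 2) (Kc := qq ^ 3 - qq ^ 2 - 1) ?_
      (coef_even2 hq4) (coef_evenT hq4) hμ hZc h2 hcase
    intro a κ ha ha0 hκ
    have h3 := card_Cl_even (Q := Q) ha0 hκ
    rw [hA a ha ha0, e1] at h3
    have h4 : qq ^ 2 + 1 ≤ qq ^ 3 := by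
      have : qq ^ 3 = qq * qq ^ 2 := by ring
      have h5 : 0 < qq ^ 2 := Nat.pow_pos (by omega)
      nlinarith
    have h5 : (qq ^ 3 - qq ^ 2 - 1) * qq ^ (Fintype.card ι - 4) + (qq ^ 2 + 1) * qq ^ (Fintype.card ι - 4) = qq ^ 3 * qq ^ (Fintype.card ι - 4) := by
      rw [← Nat.add_mul]
      congr 1
      omega
    omega
  · obtain ⟨r, hr⟩ := ho
    have hr2 : 2 ≤ r := by omega
    have hK : ∀ a κ, Q a = 0 → a ≠ 0 → κ ≠ 0 → (r * (qq ^ 2 - 1)) * qq ^ (Fintype.card ι - 4) ≤ Nat.card (Cl Q a κ) := by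
      intro a κ ha ha0 hκ
      have h3 := card_Cl_ge (Q := Q) ha0 hκ
      rw [e2] at h3
      set z := qq ^ (Fintype.card ι - 4) with hz
      have h4 : (qq - 1) = 2 * r := by omega
      rw [h4, hr] at h3
      rw [hr, sq_sub_one_odd]
      have h5 : 2 * r * (2 * r * ((2 * r + 1) * z) + 2 * r * z) = 2 * (r * (4 * r ^ 2 + 4 * r) * z) := by ring
      omega
    have hd2c : qq * (qq ^ 3 + 1) ≤ (qq - 1) * (qq ^ 3 + r * (qq ^ 2 - 1)) := by
      rw [hr]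
      exact coef_odd2 hr2
    by_cases hr3 : 3 ≤ r
    · have hpp : (ringChar F).Prime := CharP.char_is_prime F (ringChar F)
      have hne : ringChar F ≠ 2 := fun hc => by
        have h3 := FiniteField.even_card_iff_char_two.1 hc
        omega
      have hp3 : 3 ≤ ringChar F := by
        have := hpp.two_le
        omega
      refine index_ge_num H hH hq4 hS hNS hA0 hU1 hL1 hpp (CharP.cast_eq_zero F (ringChar F)) hK hd2c ?_ hμ hZc h2 hcase
      rw [hr]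
      exact coef_oddT hr3 hp3
    · have hr5 : r = 2 := by omega
      have hq5 : qq = 5 := by omega
      refine index_ge_num H hH hq4 hS hNS hA0 hU1 hL1 (p := 5) Nat.prime_five (by rw [← hq5]; exact Nat.cast_card_eq_zero F) hK hd2c ?_ hμ hZc h2 hcase
      rw [hq5, hr5]
      norm_num

/-- Totally singular subspaces have dimension at most half the dimension. -/
theorem two_finrank_ts (U : Submodule F (ι → F)) (hU : ∀ x ∈ U, Q x = 0) : 2 * finrank F U ≤ Fintype.card ι := by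
  have h7 := LinearMap.BilinForm.finrank_orthogonal (OS.nd : (QuadraticMap.polarBilin Q).Nondegenerate) U
  rw [← qPerp_eq_orthogonal, Module.finrank_fintype_fun_eq_card] at h7
  have h1 : U ≤ qPerp Q U := by
    intro x hx y hy
    have h2 := hU _ (U.add_mem hx hy)
    rw [q_add, hU x hx, hU y hy] at h2
    linear_combination h2
  have h8 := Submodule.finrank_mono h1
  omega

end Cfsg.Agent.Lib.MinOrth
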