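import Mathlib
import Cfsg.Agent.Lib.MinOrth.Types

/-! Arithmetic for the plus-type and odd-dimensional forms. -/

set_option autoImplicit false
set_option linter.unusedSimpArgs false
set_option linter.unusedVariables false
set_option linter.unusedSectionVars false
set_option linter.style.haveILetI false

namespace Cfsg.Agent.Lib.MinOrth

theorem gen_ineq {q y w : ℕ} (hq : 1 ≤ q) (hy : q ^ 2 < y) (hw : w + q * y = q ^ 2 * y) :
    (q + 1) * (q ^ 2 * y - q ^ 2) < q * y ^ 2 + w - q ^ 2 := by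
  obtain ⟨u, rfl⟩ : ∃ u, y = u + 1 := ⟨y - 1, by omega⟩
  have e : q ^ 2 * (u + 1) - q ^ 2 = q ^ 2 * u := by
    have : q ^ 2 * (u + 1) = q ^ 2 * u + q ^ 2 := by ring
    omega
  rw [e]
  have hq2 : 0 < q ^ 2 := Nat.pow_pos (by omega)
  have hu : 0 < u := by omega
  have h1 : q * u * q ^ 2 < q * u * (u + 1) := Nat.mul_lt_mul_of_pos_left hy (Nat.mul_pos (by omega) hu)
  have key : (q + 1) * (q ^ 2 * u) + q ^ 2 < q * (u + 1) ^ 2 + w := by nlinarith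
  omega

theorem exc_plus {q r N t w : ℕ} (hqr : q = r + 1) (hq : 4 ≤ q) (hw : w + q * q ^ 2 = q ^ 2 * q ^ 2)
    (ht : t + 1 = q ^ 2 * q ^ 2) (hN : r * N = t * (q * q ^ 2 + 1)) :
    (q + 1) * (q ^ 4 - q ^ 2) ≤ q * (q ^ 2) ^ 2 + w - q ^ 2 ∧ 2 * q ^ 2 < q ^ 4 ∧ ExcNum q (q ^ 2 * (q ^ 2) ^ 2 + w) N 4 := by
  have hr : 0 < r := by omega
  have h4 : q ^ 4 = q ^ 2 * q ^ 2 := by ring
  have hq2 : 16 ≤ q ^ 2 := by nlinarith
  refine ⟨?_, ?_, ?_⟩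
  · obtain ⟨c, hc⟩ : ∃ c, c + q ^ 2 = q ^ 4 := ⟨q ^ 4 - q ^ 2, by
      have : q ^ 2 ≤ q ^ 4 := by rw [h4]; nlinarith
      omega⟩
    have e1 : q ^ 4 - q ^ 2 = c := by omega
    rw [e1]
    have key : (q + 1) * c + q ^ 2 ≤ q * (q ^ 2) ^ 2 + w := by
      have h5 : c + q ^ 2 = q ^ 2 * q ^ 2 := by rw [hc, h4]
      nlinarith
    omega
  · rw [h4]
    nlinarith
  · refine ⟨(q + 1) * (q ^ 2 + 1), q ^ 3, (q + 1) * (q ^ 2 + 1), ?_, by ring, ?_, ?_⟩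
    · obtain ⟨d, hd⟩ : ∃ d, d + q = q ^ 4 := ⟨q ^ 4 - q, by
        have : q ≤ q ^ 4 := by rw [h4]; nlinarith
        omega⟩
      have e1 : q ^ 4 - q = d := by omega
      rw [e1]
      have h5 : (q ^ 2 + 1) * d + q = q ^ 2 * (q ^ 2) ^ 2 + w := by
        have h6 : q ^ 2 * (d + q) = q ^ 2 * q ^ 4 := by rw [hd]
        have h7 : q ^ 2 * q ^ 4 = q ^ 2 * (q ^ 2) ^ 2 := by ring
        have h8 : q * q ^ 2 = q ^ 3 := by ring
        nlinarith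
      have h6 : q ^ 2 * (q ^ 2) ^ 2 + w - q = (q ^ 2 + 1) * d := by omega
      rw [h6]
      ring
    · have h5 : r * ((q + 1) * (q ^ 2 + 1)) = t := by
        have h6 : r * ((q + 1) * (q ^ 2 + 1)) + 1 = q ^ 2 * q ^ 2 := by
          subst hqr
          ring
        omega
      have h6 : r * N = r * ((q + 1) * (q ^ 2 + 1) * q ^ 3 + (q + 1) * (q ^ 2 + 1)) := by
        rw [hN, ← h5]
        ring
      exact Nat.eq_of_mul_eq_mul_left hr h6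
    · have h5 : (q + 1) * (q ^ 2 + 1) ≤ 4 * q ^ 3 := by
        have h8 : q ^ 3 = q * q ^ 2 := by ring
        nlinarith
      have h6 : ((q + 1) * (q ^ 2 + 1)) ^ 2 = (q + 1) * (q ^ 2 + 1) * ((q + 1) * (q ^ 2 + 1)) := by ring
      have h7 : 4 * ((q + 1) * (q ^ 2 + 1) * q ^ 3) = (q + 1) * (q ^ 2 + 1) * (4 * q ^ 3) := by ring
      rw [h6, h7]
      exact Nat.mul_le_mul_left _ h5

theorem plus_arith {q k N S : ℕ} (hq : 4 ≤ q) (hk : 2 ≤ k)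
    (hN : N = (q ^ (k + 2) - 1) * (q ^ (k + 2 - 1) + 1) / (q - 1))
    (hS : S = q ^ (2 * (k + 2) - 1) + q ^ (k + 2) - q ^ (k + 2 - 1)) :
    ∃ A₀ Zc, (q - 1) * N + 1 = S ∧ A₀ + (q - 1) * q ^ (2 * k + 2) = S ∧ (q - 1) * N ≤ (q ^ 3 + 1) * q ^ (2 * k) ∧
      (q ^ 2 - 1) * q ^ (2 * k) ≤ A₀ - q ∧ A₀ ≤ (q ^ 2 + 1) * q ^ (2 * k) ∧
      Zc + q ^ 2 + (q - 1) * q ^ (2 * k + 1) = A₀ ∧ 2 * q ^ 2 ≤ q ^ (k + 2) ∧
      ((q + 1) * (q ^ (k + 2) - q ^ 2) < Zc ∨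
        ((q + 1) * (q ^ (k + 2) - q ^ 2) ≤ Zc ∧ 3 ≤ k + 2 ∧ 2 * q ^ 2 < q ^ (k + 2) ∧ ExcNum q A₀ N (k + 2))) := by
  obtain ⟨r, hqr⟩ : ∃ r, q = r + 1 := ⟨q - 1, by omega⟩
  have hr : q - 1 = r := by omega
  have hr3 : 3 ≤ r := by omega
  have hd : (q - 1) ∣ q ^ (k + 2) - 1 := by simpa using Nat.sub_dvd_pow_sub_pow q 1 (k + 2)
  have hNr0 : (q - 1) * N = (q ^ (k + 2) - 1) * (q ^ (k + 2 - 1) + 1) := by
    rw [hN]
    exact Nat.mul_div_cancel' (Dvd.dvd.mul_right hd _)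
  rw [hr] at hNr0
  rw [hr]
  obtain ⟨y, hy0⟩ : ∃ y, y = q ^ k := ⟨_, rfl⟩
  have hy : q ^ 2 ≤ y := by
    rw [hy0]
    exact Nat.pow_le_pow_right (by omega) hk
  have hq2 : 16 ≤ q ^ 2 := by nlinarith
  have e1 : q ^ (k + 2) = q ^ 2 * y := by rw [hy0, pow_add]; ring
  have e2 : q ^ (k + 2 - 1) = q * y := by
    have : k + 2 - 1 = k + 1 := by omega
    rw [this, pow_succ, hy0]
    ring
  have e3 : q ^ (2 * (k + 2) - 1) = q ^ 3 * y ^ 2 := by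
    have : 2 * (k + 2) - 1 = 3 + k * 2 := by omega
    rw [this, pow_add, pow_mul, hy0]
  have e4 : q ^ (2 * k + 2) = q ^ 2 * y ^ 2 := by
    have : 2 * k + 2 = 2 + k * 2 := by omega
    rw [this, pow_add, pow_mul, hy0]
  have e5 : q ^ (2 * k) = y ^ 2 := by rw [mul_comm, pow_mul, hy0]
  have e6 : q ^ (2 * k + 1) = q * y ^ 2 := by rw [pow_succ, e5]; ring
  rw [e1, e2] at hNr0
  rw [e1, e2, e3] at hS
  rw [e1, e4, e5, e6]
  have hy16 : 16 ≤ y := by omega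
  have hqq2 : q ≤ q ^ 2 := Nat.le_self_pow two_ne_zero q
  have hqy : q * y ≤ q ^ 2 * y := Nat.mul_le_mul_right y hqq2
  obtain ⟨w, hw⟩ : ∃ w, w + q * y = q ^ 2 * y := ⟨q ^ 2 * y - q * y, by omega⟩
  obtain ⟨t, ht⟩ : ∃ t, t + 1 = q ^ 2 * y := ⟨q ^ 2 * y - 1, by
    have : 0 < q ^ 2 * y := Nat.mul_pos (by omega) (by omega)
    omega⟩
  have ht' : q ^ 2 * y - 1 = t := by omega
  rw [ht'] at hNr0
  have hNS : r * N + 1 = q ^ 3 * y ^ 2 + w := by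
    rw [hNr0]
    have h1 : (t + 1) * (q * y + 1) = t * (q * y + 1) + q * y + 1 := by ring
    rw [ht] at h1
    have h2 : q ^ 2 * y * (q * y + 1) = q ^ 3 * y ^ 2 + q ^ 2 * y := by ring
    omega
  have hSv : S = q ^ 3 * y ^ 2 + w := by omega
  have hyy : y ^ 2 = y * y := sq y
  have h4y : q ^ 2 * y ≤ y * y := Nat.mul_le_mul_right y hy
  have hwy : w ≤ y ^ 2 := by omega
  have hyyy : y ≤ y * y := Nat.le_mul_of_pos_left y (by omega)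
  have hqyy : q ≤ y ^ 2 := by omega
  have e7 : r * (q ^ 2 * y ^ 2) + q ^ 2 * y ^ 2 = q ^ 3 * y ^ 2 := by
    rw [hqr]
    ring
  have e8 : (q ^ 3 + 1) * y ^ 2 = q ^ 3 * y ^ 2 + y ^ 2 := by ring
  have e9 : (q ^ 2 + 1) * y ^ 2 = q ^ 2 * y ^ 2 + y ^ 2 := by ring
  have e10 : (q ^ 2 - 1) * y ^ 2 + y ^ 2 = q ^ 2 * y ^ 2 := by
    rw [← Nat.succ_mul]
    congr 1
    omega
  have e11 : r * (q * y ^ 2) + q * y ^ 2 = q ^ 2 * y ^ 2 := by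
    rw [hqr]
    ring
  have e12 : q ^ 2 ≤ q * y ^ 2 := by
    rw [sq q]
    exact Nat.mul_le_mul_left q hqyy
  have e13 : 2 * q ^ 2 ≤ q ^ 2 * y := by
    rw [mul_comm 2]
    exact Nat.mul_le_mul_left _ (by omega)
  refine ⟨q ^ 2 * y ^ 2 + w, q * y ^ 2 + w - q ^ 2, by omega, by omega, by omega, by omega, by omega, by omega, e13, ?_⟩
  rcases Nat.lt_or_ge 2 k with hk3 | hk2
  · left
    have hy3 : q ^ 3 ≤ y := by
      rw [hy0]
      exact Nat.pow_le_pow_right (by omega) hk3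
    have h8 : q ^ 2 < q ^ 3 := by
      have h9 : q ^ 3 = q * q ^ 2 := by ring
      have h10 : 2 * q ^ 2 ≤ q * q ^ 2 := Nat.mul_le_mul_right _ (by omega)
      omega
    exact gen_ineq (by omega) (by omega) hw
  · right
    have hk2' : k = 2 := by omega
    subst hk2'
    have hy2 : y = q ^ 2 := hy0
    subst hy2
    have h1 := exc_plus hqr hq hw ht hNr0
    have h4 : q ^ 2 * q ^ 2 = q ^ 4 := by ring
    rw [h4]
    exact ⟨h1.1, by omega, h1.2.1, h1.2.2⟩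

theorem exc_odd {q r N : ℕ} (hqr : q = r + 1) (hq : 4 ≤ q) (hN : r * N + 1 = q ^ 6) :
    (q + 1) * (q ^ 3 - q ^ 2) ≤ q * q ^ 3 - q ^ 2 ∧ 2 * q ^ 2 < q ^ 3 ∧ ExcNum q (q ^ 2 * q ^ 3) N 3 := by
  have hr : 0 < r := by omega
  have h3 : q ^ 3 = q * q ^ 2 := by ring
  have hq2 : 16 ≤ q ^ 2 := by nlinarith
  refine ⟨?_, ?_, ?_⟩
  · obtain ⟨c, hc⟩ : ∃ c, c + q ^ 2 = q ^ 3 := ⟨q ^ 3 - q ^ 2, by
      have : q ^ 2 ≤ q ^ 3 := by rw [h3]; nlinarith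
      omega⟩
    have e1 : q ^ 3 - q ^ 2 = c := by omega
    rw [e1]
    have key : (q + 1) * c + q ^ 2 ≤ q * q ^ 3 := by
      have h5 : q * (c + q ^ 2) = q * q ^ 3 := by rw [hc]
      nlinarith
    omega
  · rw [h3]
    nlinarith
  · refine ⟨(q + 1) * (q ^ 2 + 1), q ^ 2, q + 1, ?_, by ring, ?_, ?_⟩
    · obtain ⟨d, hd⟩ : ∃ d, d + q = q ^ 3 := ⟨q ^ 3 - q, by
        have : q ≤ q ^ 3 := by rw [h3]; nlinarith
        omega⟩
      have e1 : q ^ 3 - q = d := by omega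
      rw [e1]
      have h5 : (q ^ 2 + 1) * d + q = q ^ 2 * q ^ 3 := by
        have h6 : q ^ 2 * (d + q) = q ^ 2 * q ^ 3 := by rw [hd]
        nlinarith
      have h6 : q ^ 2 * q ^ 3 - q = (q ^ 2 + 1) * d := by omega
      rw [h6]
      ring
    · have h6 : r * N + 1 = r * ((q + 1) * (q ^ 2 + 1) * q ^ 2 + (q + 1)) + 1 := by
        rw [hN]
        subst hqr
        ring
      have h7 : r * N = r * ((q + 1) * (q ^ 2 + 1) * q ^ 2 + (q + 1)) := by omega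
      exact Nat.eq_of_mul_eq_mul_left hr h7
    · have h5 : (q + 1) ≤ 4 * ((q ^ 2 + 1) * q ^ 2) := by nlinarith
      have h6 : (q + 1) ^ 2 = (q + 1) * (q + 1) := by ring
      have h7 : 4 * ((q + 1) * (q ^ 2 + 1) * q ^ 2) = (q + 1) * (4 * ((q ^ 2 + 1) * q ^ 2)) := by ring
      rw [h6, h7]
      exact Nat.mul_le_mul_left _ h5

theorem odd_arith {q m N S : ℕ} (hq : 4 ≤ q) (hm : 3 ≤ m)
    (hN : N = (q ^ (2 * m) - 1) / (q - 1)) (hS : S = q ^ (2 * m)) :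
    ∃ A₀ Zc, (q - 1) * N + 1 = S ∧ A₀ + (q - 1) * q ^ (2 * m - 1) = S ∧ (q - 1) * N ≤ (q ^ 3 + 1) * q ^ (2 * m - 3) ∧
      (q ^ 2 - 1) * q ^ (2 * m - 3) ≤ A₀ - q ∧ A₀ ≤ (q ^ 2 + 1) * q ^ (2 * m - 3) ∧
      Zc + q ^ 2 + (q - 1) * q ^ (2 * m - 2) = A₀ ∧ 2 * q ^ 2 ≤ q ^ m ∧
      ((q + 1) * (q ^ m - q ^ 2) < Zc ∨
        ((q + 1) * (q ^ m - q ^ 2) ≤ Zc ∧ 3 ≤ m ∧ 2 * q ^ 2 < q ^ m ∧ ExcNum q A₀ N m)) := by
  obtain ⟨r, hqr⟩ : ∃ r, q = r + 1 := ⟨q - 1, by omega⟩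
  have hr : q - 1 = r := by omega
  have hd : (q - 1) ∣ q ^ (2 * m) - 1 := by simpa using Nat.sub_dvd_pow_sub_pow q 1 (2 * m)
  have hNr0 : (q - 1) * N = q ^ (2 * m) - 1 := by
    rw [hN]
    exact Nat.mul_div_cancel' hd
  have hpos : 0 < q ^ (2 * m) := Nat.pow_pos (by omega)
  rw [hr] at hNr0
  rw [hr]
  obtain ⟨z, hz0⟩ : ∃ z, z = q ^ (2 * m - 3) := ⟨_, rfl⟩
  have e1 : q ^ (2 * m) = q ^ 3 * z := by
    rw [hz0, ← pow_add]
    congr 1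
    omega
  have e2 : q ^ (2 * m - 1) = q ^ 2 * z := by
    rw [hz0, ← pow_add]
    congr 1
    omega
  have e3 : q ^ (2 * m - 2) = q * z := by
    rw [hz0, ← pow_succ']
    congr 1
    omega
  have hq2 : 16 ≤ q ^ 2 := by nlinarith
  have hzq : q ^ 3 ≤ z := by
    rw [hz0]
    exact Nat.pow_le_pow_right (by omega) (by omega)
  have hq3 : q ^ 3 = q * q ^ 2 := by ring
  have hq33 : q ≤ q ^ 3 := Nat.le_self_pow (by omega) q
  have hqz : q ≤ z := by omega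
  rw [← hz0]
  have hNS : r * N + 1 = q ^ 3 * z := by
    rw [← e1]
    omega
  have e7 : r * (q ^ 2 * z) + q ^ 2 * z = q ^ 3 * z := by
    rw [hqr]
    ring
  have e8 : (q ^ 3 + 1) * z = q ^ 3 * z + z := by ring
  have e9 : (q ^ 2 + 1) * z = q ^ 2 * z + z := by ring
  have e10 : (q ^ 2 - 1) * z + z = q ^ 2 * z := by
    rw [← Nat.succ_mul]
    congr 1
    omega
  have e11 : r * (q * z) + q * z = q ^ 2 * z := by
    rw [hqr]
    ring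
  have e12 : q ^ 2 ≤ q * z := by
    rw [sq q]
    exact Nat.mul_le_mul_left q hqz
  have hmq : q ^ 3 ≤ q ^ m := Nat.pow_le_pow_right (by omega) hm
  have h8 : 2 * q ^ 2 ≤ q ^ 3 := by
    rw [hq3]
    exact Nat.mul_le_mul_right _ (by omega)
  refine ⟨q ^ 2 * z, q * z - q ^ 2, by rw [hS, e1]; omega, by rw [e2, hS, e1]; omega, by omega, by omega, by omega, by rw [e3]; omega, by omega, ?_⟩
  rcases Nat.lt_or_ge 3 m with hm4 | hm3
  · left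
    obtain ⟨j, rfl⟩ : ∃ j, m = j + 4 := ⟨m - 4, by omega⟩
    have e13 : q * z = q ^ (j + 4) * q ^ (j + 2) := by
      rw [← e3, ← pow_add]
      congr 1
      omega
    have h9 : q ^ 2 ≤ q ^ (j + 2) := Nat.pow_le_pow_right (by omega) (by omega)
    obtain ⟨x, hx⟩ : ∃ x, x = q ^ (j + 4) := ⟨_, rfl⟩
    rw [e13, ← hx]
    rw [← hx] at hmq
    obtain ⟨v, rfl⟩ : ∃ v, x = q ^ 2 + v := ⟨x - q ^ 2, by
      omega⟩
    have e14 : q ^ 2 + v - q ^ 2 = v := by omega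
    rw [e14]
    have h10 : (q ^ 2 + v) * q ^ 2 ≤ (q ^ 2 + v) * q ^ (j + 2) := Nat.mul_le_mul_left _ h9
    have h11 : (q + 1) * v + q ^ 2 < (q ^ 2 + v) * q ^ 2 := by
      clear e1 e2 e3 e7 e8 e9 e10 e11 e12 e13 hNS hNr0 hS hN hd hpos hz0 hzq hmq
      nlinarith
    omega
  · right
    have hm3' : m = 3 := by omega
    subst hm3'
    have hz3 : z = q ^ 3 := hz0
    subst hz3
    have h1 := exc_odd hqr hq (by
      have : q ^ 6 = q ^ 3 * q ^ 3 := by ring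
      rw [this]
      exact hNS)
    exact ⟨h1.1, le_refl _, h1.2.1, h1.2.2⟩

end Cfsg.Agent.Lib.MinOrth
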