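import Mathlib
import Cfsg.Agent.Lib.MinOrth.Arith
import Cfsg.Agent.Lib.AutPOm.Image
import Cfsg.Agent.Lib.Classical.OrthOrder
import Cfsg.Agent.Lib.Classical.QuadCount

/-! The minimal index of proper subgroups of the orthogonal groups. -/

set_option autoImplicit false
set_option linter.unusedSimpArgs false
set_option linter.unusedVariables false
set_option linter.unusedSectionVars false
set_option linter.style.haveILetI false

namespace Cfsg.Agent.Lib.MinOrth

open Matrix Module Cfsg.Agent.Lib.Classical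
open scoped commutatorElement LinearAlgebra.Projectivization

variable {F : Type*} [Field F] [Fintype F] {ι : Type} [Fintype ι] [DecidableEq ι]

section transfer

variable {Q : QuadraticForm F (ι → F)} [OS Q]

/-- Transfer of the bound to the quotient by the centre. -/
theorem transfer_bound {f : (ι → F) → F} (hf : ⇑Q = f) {N : ℕ} (hb : ∀ H : Subgroup (OmG Q), H ≠ ⊤ → N ≤ H.index) :
    ∀ H : Subgroup (Cfsg.POmega F f), H ≠ ⊤ → N ≤ H.index := by
  subst hf
  intro H hH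
  have h1 : (H.comap (QuotientGroup.mk' _ : OmG Q →* OmG Q ⧸ Subgroup.center (OmG Q))).index = H.index :=
    Subgroup.index_comap_of_surjective _ (QuotientGroup.mk'_surjective _)
  rw [← h1]
  apply hb
  intro h
  apply hH
  rw [eq_top_iff]
  intro x _
  obtain ⟨g, rfl⟩ := QuotientGroup.mk'_surjective _ x
  have : g ∈ H.comap (QuotientGroup.mk' _ : OmG Q →* OmG Q ⧸ Subgroup.center (OmG Q)) := by
    rw [h]
    trivial
  exact this

/-- The point stabiliser attains the number of points. -/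
theorem transfer_attain {f : (ι → F) → F} (hf : ⇑Q = f) :
    ∃ H : Subgroup (Cfsg.POmega F f), H.index = Nat.card (SPt Q) := by
  subst hf
  haveI : Cfsg.Agent.Lib.AutPOm.Good Q := ⟨OS.nd, OS.big Q⟩
  have hQ' := (OS.nd : (QuadraticMap.polarBilin Q).Nondegenerate)
  have hn := OS.big Q
  obtain ⟨y, z, hy, hz, hyz, -⟩ := exists_hyp_perp2 hQ' hn (0 : ι → F) 0
  have hy0 : y ≠ 0 := by
    rintro rfl
    rw [polar_zero_l] at hyz
    exact zero_ne_one hyz
  exact ⟨Cfsg.Agent.Lib.AutPOm.P (spMk hy0 hy), Cfsg.Agent.Lib.AutPOm.index_P _⟩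

theorem nk_top_eq {f : (ι → F) → F} (hf : ⇑Q = f) : Nk Q ⊤ 0 = Nat.card {v : ι → F // f v = 0} := by
  subst hf
  exact Nat.card_congr (Equiv.subtypeEquivRight (fun x => ⟨fun h => h.2, fun h => ⟨Submodule.mem_top, h⟩⟩))

theorem card_spt_eq {N : ℕ} (hq2 : 2 ≤ Fintype.card F) (h : (Fintype.card F - 1) * N + 1 = Nk Q ⊤ 0) : Nat.card (SPt Q) = N := by
  have h1 := card_spt_add Q
  have h3 : (Fintype.card F - 1) * Nat.card (SPt Q) = (Fintype.card F - 1) * N := by omega
  exact Nat.eq_of_mul_eq_mul_left (by omega) h3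

end transfer

/-- The plus type. -/
theorem plus_result {q : ℕ} (hF : Fintype.card F = q) (hq : 4 ≤ q) (m : ℕ) (hm : 4 ≤ m) :
    (∀ H : Subgroup (Cfsg.POmega F (Cfsg.quadFormPlus m F)), H ≠ ⊤ → (q ^ m - 1) * (q ^ (m - 1) + 1) / (q - 1) ≤ H.index) ∧
    (∃ H : Subgroup (Cfsg.POmega F (Cfsg.quadFormPlus m F)), H.index = (q ^ m - 1) * (q ^ (m - 1) + 1) / (q - 1)) := by
  subst hF
  obtain ⟨Q, hQ, hnd⟩ := ndq_plus (F := F) m
  obtain ⟨k, rfl⟩ : ∃ k, m = k + 2 := ⟨m - 2, by omega⟩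
  have hcard : Fintype.card (Fin (k + 2) ⊕ Fin (k + 2)) = 2 * k + 4 := by simp; omega
  haveI : OS Q := ⟨hnd, by rw [hcard]; omega⟩
  obtain ⟨A₀, Zc, h1, h2, h3, h4, h5, h6, h7, h8⟩ := plus_arith (q := Fintype.card F) (k := k) (N := _) (S := _) hq (by omega) rfl rfl
  have hS : Nk Q ⊤ 0 = Fintype.card F ^ (2 * (k + 2) - 1) + Fintype.card F ^ (k + 2) - Fintype.card F ^ (k + 2 - 1) := by
    rw [nk_top_eq hQ]
    exact card_zeros_plus rfl (k + 2) (by omega)
  have e2 : Fintype.card (Fin (k + 2) ⊕ Fin (k + 2)) - 2 = 2 * k + 2 := by omega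
  have e3 : Fintype.card (Fin (k + 2) ⊕ Fin (k + 2)) - 3 = 2 * k + 1 := by omega
  have e4 : Fintype.card (Fin (k + 2) ⊕ Fin (k + 2)) - 4 = 2 * k := by omega
  have hSPt : Nat.card (SPt Q) = (Fintype.card F ^ (k + 2) - 1) * (Fintype.card F ^ (k + 2 - 1) + 1) / (Fintype.card F - 1) :=
    card_spt_eq (by omega) (by rw [h1, hS])
  refine ⟨transfer_bound hQ (fun H hH => ?_), ?_⟩
  · refine index_ge_type (Q := Q) H hH hq hS h1 (by rw [e2]; exact h2) (by rw [e4]; exact h3) (by rw [e4]; exact h4) (by rw [e4]; exact h5)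
      (μ := k + 2) ?_ (by rw [e3]; exact h6) h7 h8
    intro U hU
    have := two_finrank_ts U hU
    rw [hcard] at this
    omega
  · rw [← hSPt]
    exact transfer_attain hQ

/-- The odd-dimensional type. -/
theorem odd_result {q : ℕ} (hF : Fintype.card F = q) (hodd : Odd q) (h5 : 5 ≤ q) (m : ℕ) (hm : 3 ≤ m) :
    (∀ H : Subgroup (Cfsg.POmega F (Cfsg.quadFormOdd m F)), H ≠ ⊤ → (q ^ (2 * m) - 1) / (q - 1) ≤ H.index) ∧
    (∃ H : Subgroup (Cfsg.POmega F (Cfsg.quadFormOdd m F)), H.index = (q ^ (2 * m) - 1) / (q - 1)) := by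
  subst hF
  have h2F : (2 : F) ≠ 0 := Ring.two_ne_zero (fun hc => by
    have h3 := FiniteField.even_card_iff_char_two.1 hc
    have h4 := Nat.odd_iff.1 hodd
    omega)
  obtain ⟨Q, hQ, hnd⟩ := ndq_odd h2F m
  have hcard : Fintype.card (Unit ⊕ (Fin m ⊕ Fin m)) = 2 * m + 1 := by simp; omega
  haveI : OS Q := ⟨hnd, by rw [hcard]; omega⟩
  obtain ⟨A₀, Zc, h1, h2, h3, h4, h5', h6, h7, h8⟩ := odd_arith (q := Fintype.card F) (m := m) (N := _) (S := _) (by omega) hm rfl rfl
  have hS : Nk Q ⊤ 0 = Fintype.card F ^ (2 * m) := by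
    rw [nk_top_eq hQ]
    exact card_zeros_odd rfl m
  have e2 : Fintype.card (Unit ⊕ (Fin m ⊕ Fin m)) - 2 = 2 * m - 1 := by omega
  have e3 : Fintype.card (Unit ⊕ (Fin m ⊕ Fin m)) - 3 = 2 * m - 2 := by omega
  have e4 : Fintype.card (Unit ⊕ (Fin m ⊕ Fin m)) - 4 = 2 * m - 3 := by omega
  have hSPt : Nat.card (SPt Q) = (Fintype.card F ^ (2 * m) - 1) / (Fintype.card F - 1) :=
    card_spt_eq (by omega) (by rw [h1, hS])
  refine ⟨transfer_bound hQ (fun H hH => ?_), ?_⟩
  · refine index_ge_type (Q := Q) H hH (by omega) hS h1 (by rw [e2]; exact h2) (by rw [e4]; exact h3) (by rw [e4]; exact h4) (by rw [e4]; exact h5')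
      (μ := m) ?_ (by rw [e3]; exact h6) h7 h8
    intro U hU
    have := two_finrank_ts U hU
    rw [hcard] at this
    omega
  · rw [← hSPt]
    exact transfer_attain hQ

end Cfsg.Agent.Lib.MinOrth
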