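import Mathlib
import Cfsg.Agent.Lib.Classical.OrthGen
import Cfsg.Agent.Lib.Classical.OrthPrim
import Cfsg.Agent.Lib.Classical.OrthOrder
import Cfsg.Agent.Lib.Classical.OrthMinus
import Cfsg.Prelude.Def_SporadicB

/-! Orthogonal transvections over the field with two elements are 3-transpositions. -/

set_option autoImplicit false
set_option linter.unusedSimpArgs false
set_option linter.unusedVariables false
set_option linter.unusedSectionVars false

namespace Cfsg.Agent.Lib.MinOrth

open Matrix Module Cfsg.Agent.Lib.Classical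

variable {F : Type*} [Field F] {ι : Type} [Fintype ι] [DecidableEq ι] {Q : QuadraticForm F (ι → F)}

local notation "bb" => QuadraticMap.polar (DFunLike.coe Q)

section two

variable (h01 : ∀ c : F, c = 0 ∨ c = 1)
include h01

omit [Fintype ι] [DecidableEq ι] in
theorem two_zero_of_01 : (2 : F) = 0 := by
  rcases h01 2 with h | h
  · exact h
  · exfalso
    have : (1 : F) = 0 := by linear_combination h
    exact one_ne_zero this

omit [Fintype ι] [DecidableEq ι] in
theorem neg_eq_of_01 (x : F) : -x = x := by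
  have h2 := two_zero_of_01 h01
  linear_combination (-x) * h2

/-- The rank-one isometries are exactly the transvections. -/
theorem rank_one_iff (hQ : (QuadraticMap.polarBilin Q).Nondegenerate) (g : OG Q) :
    (oM g - 1).rank = 1 ↔ ∃ (v : ι → F) (hv : Q v ≠ 0), g = rf v hv := by
  have h2 := two_zero_of_01 h01
  have hneg := neg_eq_of_01 h01
  constructor
  · intro hr
    set M := oM g - 1 with hM
    have hg : ∀ x, oM g *ᵥ x = x + M *ᵥ x := by
      intro x
      rw [hM, sub_mulVec, one_mulVec]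
      abel
    have hr' : finrank F (LinearMap.range M.mulVecLin) = 1 := hr
    obtain ⟨⟨u, hu⟩, hu0, hspan⟩ := finrank_eq_one_iff'.1 hr'
    have hu0' : u ≠ 0 := fun h => hu0 (Subtype.ext h)
    have hdich : ∀ x, M *ᵥ x = 0 ∨ M *ᵥ x = u := by
      intro x
      obtain ⟨c, hc⟩ := hspan ⟨M *ᵥ x, ⟨x, rfl⟩⟩
      have hc' : c • u = M *ᵥ x := congrArg Subtype.val hc
      rcases h01 c with rfl | rfl
      · left
        rw [← hc', zero_smul]
      · right
        rw [← hc', one_smul]
    obtain ⟨x₁, hx₁⟩ : ∃ x₁, M *ᵥ x₁ = u := hu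
    have H1 : ∀ x, M *ᵥ x = u → bb x u = Q u := by
      intro x hx
      have h3 := oM_Q g x
      rw [hg, hx, q_add] at h3
      have h4 : Q u + bb x u = 0 := by linear_combination h3
      have h5 : bb x u = -Q u := by linear_combination h4
      rw [h5, hneg]
    have H0 : ∀ x, M *ᵥ x = 0 → bb x u = 0 := by
      intro x hx
      have h3 : M *ᵥ (x + x₁) = u := by rw [mulVec_add, hx, hx₁, zero_add]
      have h4 := H1 _ h3
      rw [polar_add_l, H1 _ hx₁] at h4
      linear_combination h4
    have hQu : Q u ≠ 0 := by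
      intro h0
      apply hu0'
      apply polar_nondeg hQ
      intro y
      rw [polar_symm]
      rcases hdich y with h | h
      · exact H0 y h
      · rw [H1 y h, h0]
    have hQu1 : Q u = 1 := (h01 _).resolve_left hQu
    refine ⟨u, hQu, og_ext ?_⟩
    intro x
    rw [rf_apply, hg, hQu1, inv_one, one_mul]
    rcases hdich x with h | h
    · rw [h, polar_symm, H0 x h, zero_smul, add_zero, sub_zero]
    · rw [h, polar_symm, H1 x h, hQu1, one_smul, sub_eq_add_neg]
      congr 1
      funext i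
      simp only [Pi.neg_apply]
      rw [hneg]
  · rintro ⟨v, hv, rfl⟩
    have hv0 : v ≠ 0 := by
      rintro rfl
      exact hv q_zero
    have hrange : LinearMap.range (oM (rf v hv) - 1).mulVecLin = Submodule.span F {v} := by
      apply le_antisymm
      · rintro _ ⟨x, rfl⟩
        rw [Matrix.mulVecLin_apply, sub_mulVec, one_mulVec, rf_apply, sub_sub_cancel_left]
        rw [← neg_smul]
        exact Submodule.smul_mem _ _ (Submodule.mem_span_singleton_self v)
      · rw [Submodule.span_singleton_le_iff_mem]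
        obtain ⟨y, hy⟩ := exists_polar_eq_one hQ hv0
        refine ⟨(- Q v) • y, ?_⟩
        rw [Matrix.mulVecLin_apply, sub_mulVec, one_mulVec, rf_apply, sub_sub_cancel_left, polar_smul_r, hy]
        rw [← neg_smul, mul_one, mul_neg, neg_neg, inv_mul_cancel₀ hv, one_smul]
    show finrank F (LinearMap.range (oM (rf v hv) - 1).mulVecLin) = 1
    rw [hrange]
    exact finrank_span_singleton hv0

theorem rf_product {u v : ι → F} (hu : Q u ≠ 0) (hv : Q v ≠ 0) : (rf u hu * rf v hv) ^ 2 = 1 ∨ (rf u hu * rf v hv) ^ 3 = 1 := by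
  have h2 := two_zero_of_01 h01
  have hneg := neg_eq_of_01 h01
  have hQu1 : Q u = 1 := (h01 _).resolve_left hu
  have hQv1 : Q v = 1 := (h01 _).resolve_left hv
  rcases h01 (bb u v) with h0 | h1
  · left
    have h3 : rf v hv * rf u hu * (rf v hv)⁻¹ = rf u hu := by
      rw [rf_conj]
      apply rf_congr
      rw [rf_fix v hv (by rw [polar_symm]; exact h0)]
    rw [rf_inv] at h3
    calc (rf u hu * rf v hv) ^ 2 = rf u hu * (rf v hv * rf u hu * rf v hv) := by simp only [sq, mul_assoc]
      _ = rf u hu * rf u hu := by rw [h3]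
      _ = 1 := rf_sq _ _
  · right
    have e1 : oM (rf u hu) *ᵥ v = u + v := by
      rw [rf_apply, h1, hQu1, inv_one, one_mul, one_smul, sub_eq_neg_add]
      congr 1
      funext i
      simp only [Pi.neg_apply]
      rw [hneg]
    have e2 : oM (rf v hv) *ᵥ u = u + v := by
      rw [rf_apply, polar_symm, h1, hQv1, inv_one, one_mul, one_smul, sub_eq_add_neg]
      congr 1
      funext i
      simp only [Pi.neg_apply]
      rw [hneg]
    have h3 := rf_conj (rf u hu) v hv
    have h4 := rf_conj (rf v hv) u hu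
    rw [rf_inv] at h3 h4
    have h5 : Q (u + v) ≠ 0 := by
      rw [← e1, oM_Q]
      exact hv
    have h6 : rf u hu * rf v hv * rf u hu = rf (u + v) h5 := h3.trans (rf_congr e1 _ _)
    have h7 : rf v hv * rf u hu * rf v hv = rf (u + v) h5 := h4.trans (rf_congr e2 _ _)
    have h8 : (rf u hu * rf v hv) ^ 3 = (rf u hu * rf v hv * rf u hu) * (rf v hv * rf u hu * rf v hv) := by
      simp only [pow_succ, pow_zero, one_mul, mul_assoc]
    rw [h8, h6, h7, rf_sq]

omit h01 in
theorem rf_ne_one (hQ : (QuadraticMap.polarBilin Q).Nondegenerate) {v : ι → F} (hv : Q v ≠ 0) : rf v hv ≠ 1 := by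
  intro h
  have hv0 : v ≠ 0 := by
    rintro rfl
    exact hv q_zero
  obtain ⟨y, hy⟩ := exists_polar_eq_one hQ hv0
  have h1 := rf_apply v hv y
  rw [h, oM_one, hy, mul_one] at h1
  have h2 : (Q v)⁻¹ • v = 0 := by
    have : y - (y - (Q v)⁻¹ • v) = (Q v)⁻¹ • v := by abel
    rw [← this, ← h1, sub_self]
  exact hv0 ((smul_eq_zero.1 h2).resolve_left (inv_ne_zero hv))

/-- A third nonsingular vector joined to two given ones. -/
theorem exists_joiner [Fintype F] (hQ : (QuadraticMap.polarBilin Q).Nondegenerate) (hn : 5 ≤ Fintype.card ι) {u v : ι → F} (hu : Q u ≠ 0) (hv : Q v ≠ 0) (hne : u ≠ v) :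
    ∃ c, Q c ≠ 0 ∧ bb u c = 1 ∧ bb v c = 1 := by
  classical
  have h2 := two_zero_of_01 h01
  have hneg := neg_eq_of_01 h01
  have hu0 : u ≠ 0 := by
    rintro rfl
    exact hu q_zero
  have hv0 : v ≠ 0 := by
    rintro rfl
    exact hv q_zero
  -- x₀ with both inner products one
  have hindep : ∃ x₀, bb u x₀ = 1 ∧ bb v x₀ = 1 := by
    obtain ⟨a, ha⟩ := exists_polar_eq_one hQ hu0
    obtain ⟨b, hb⟩ := exists_polar_eq_one hQ hv0
    rcases h01 (bb v a) with h3 | h3
    · rcases h01 (bb u b) with h4 | h4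
      · refine ⟨a + b, ?_, ?_⟩
        · rw [polar_add_r, ha, h4, add_zero]
        · rw [polar_add_r, h3, hb, zero_add]
      · exact ⟨b, h4, hb⟩
    · exact ⟨a, ha, h3⟩
  obtain ⟨x₀, h3, h4⟩ := hindep
  by_contra hall
  push Not at hall
  set D := Submodule.span F ({u, v} : Set (ι → F)) with hD
  set U := qPerp Q D with hU
  have hUmem : ∀ y ∈ U, bb u y = 0 ∧ bb v y = 0 := by
    intro y hy
    exact ⟨by rw [polar_symm]; exact hy u (Submodule.subset_span (by simp)), by rw [polar_symm]; exact hy v (Submodule.subset_span (by simp))⟩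
  have hval : ∀ y ∈ U, Q (x₀ + y) = 0 := by
    intro y hy
    by_contra hne'
    have h5 := hall _ hne' (by rw [polar_add_r, h3, (hUmem y hy).1, add_zero])
    apply h5
    rw [polar_add_r, h4, (hUmem y hy).2, add_zero]
  have hx₀ : Q x₀ = 0 := by
    have := hval 0 (Submodule.zero_mem _)
    rwa [add_zero] at this
  have hlin : ∀ y ∈ U, Q y = bb x₀ y := by
    intro y hy
    have h5 := hval y hy
    rw [q_add, hx₀, zero_add] at h5
    have h6 : Q y = - bb x₀ y := by linear_combination h5
    rw [h6, hneg]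
  have hUU : U ≤ qPerp Q U := by
    intro y hy z hz
    have h5 := hlin _ (U.add_mem hy hz)
    rw [q_add, hlin y hy, hlin z hz, polar_add_r] at h5
    linear_combination h5
  have h7 := LinearMap.BilinForm.finrank_orthogonal hQ U
  have h8 := LinearMap.BilinForm.finrank_orthogonal hQ D
  rw [← qPerp_eq_orthogonal, Module.finrank_fintype_fun_eq_card] at h7 h8
  have h9 := Submodule.finrank_mono hUU
  have h10 : finrank F D ≤ 2 := by
    have := finrank_span_le_card (R := F) ({u, v} : Set (ι → F))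
    refine this.trans ?_
    simp only [Set.toFinset_insert, Set.toFinset_singleton]
    exact Finset.card_le_two
  have h11 : finrank F U = finrank F (qPerp Q D) := rfl
  omega

/-- All transvections are conjugate. -/
theorem rf_conj_all [Fintype F] (hQ : (QuadraticMap.polarBilin Q).Nondegenerate) (hn : 5 ≤ Fintype.card ι) {u v : ι → F} (hu : Q u ≠ 0) (hv : Q v ≠ 0) :
    ∃ g : OG Q, oM g *ᵥ u = v := by
  have h2 := two_zero_of_01 h01
  have hneg := neg_eq_of_01 h01
  have hQu1 : Q u = 1 := (h01 _).resolve_left hu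
  have hQv1 : Q v = 1 := (h01 _).resolve_left hv
  have key : ∀ {a b : ι → F}, Q a = 1 → Q b = 1 → bb a b = 1 → ∃ g : OG Q, oM g *ᵥ a = b := by
    intro a b ha hb hab
    have h3 : Q (a - b) ≠ 0 := by
      rw [q_sub, ha, hb, hab]
      norm_num
    exact ⟨rf (a - b) h3, rf_move (by rw [ha, hb]) h3⟩
  by_cases hne : u = v
  · exact ⟨1, by rw [oM_one, hne]⟩
  rcases h01 (bb u v) with h0 | h1
  · obtain ⟨c, hc, h3, h4⟩ := exists_joiner h01 hQ hn hu hv hne
    have hQc : Q c = 1 := (h01 _).resolve_left hc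
    obtain ⟨g₁, hg₁⟩ := key hQu1 hQc h3
    obtain ⟨g₂, hg₂⟩ := key hQc hQv1 (by rw [polar_symm]; exact h4)
    refine ⟨g₂ * g₁, ?_⟩
    rw [oM_mul, hg₁, hg₂]
  · exact key hQu1 hQv1 h1

/-- The class of transvections in characteristic two over the prime field. -/
theorem three_trans_two [Fintype F] (hQ : (QuadraticMap.polarBilin Q).Nondegenerate) (hn : 5 ≤ Fintype.card ι) (hcard : Fintype.card F = 2) :
    Cfsg.IsThreeTranspositionClass {g : OG Q | (oM g - 1).rank = 1} := by
  have hex : ∃ w : ι → F, Q w ≠ 0 := by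
    by_contra hcon
    push Not at hcon
    haveI : Nonempty ι := Fintype.card_pos_iff.1 (by omega)
    obtain ⟨i⟩ := (inferInstance : Nonempty ι)
    have hne : (Pi.single i 1 : ι → F) ≠ 0 := by
      intro h
      have := congrFun h i
      simp at this
    obtain ⟨y, hy⟩ := exists_polar_eq_one hQ hne
    have := hcon (Pi.single i 1 + y)
    rw [q_add, hcon, hcon, hy] at this
    norm_num at this
  obtain ⟨w, hw⟩ := hex
  have hmem : ∀ (v : ι → F) (hv : Q v ≠ 0), rf v hv ∈ {g : OG Q | (oM g - 1).rank = 1} := fun v hv =>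
    (rank_one_iff h01 hQ _).2 ⟨v, hv, rfl⟩
  refine ⟨⟨?_, ?_⟩, ⟨rf w hw, hmem w hw, ?_⟩, ?_⟩
  · rintro d hd
    obtain ⟨v, hv, rfl⟩ := (rank_one_iff h01 hQ _).1 hd
    exact orderOf_eq_prime (by rw [sq]; exact rf_sq v hv) (rf_ne_one hQ hv)
  · intro d hd e he
    obtain ⟨v, hv, rfl⟩ := (rank_one_iff h01 hQ _).1 hd
    obtain ⟨v', hv', rfl⟩ := (rank_one_iff h01 hQ _).1 he
    exact rf_product h01 hv hv'
  · ext g
    constructor
    · intro hg
      obtain ⟨v, hv, rfl⟩ := (rank_one_iff h01 hQ _).1 hg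
      obtain ⟨h, hh⟩ := rf_conj_all h01 hQ hn hw hv
      refine isConj_iff.2 ⟨h, ?_⟩
      rw [rf_conj]
      exact rf_congr hh _ _
    · intro hg
      obtain ⟨h, rfl⟩ := isConj_iff.1 hg
      rw [rf_conj]
      exact hmem _ _
  · rw [eq_top_iff, ← rGen_top hQ (Or.inr (by omega))]
    unfold rGen
    apply Subgroup.closure_mono
    rintro g ⟨v, hv, -, rfl⟩
    exact hmem v hv

end two

theorem zmod2_01 (c : ZMod 2) : c = 0 ∨ c = 1 := by
  revert c
  decide

/-- The form-level statement. -/
theorem three_trans_of_ndq {f : (ι → ZMod 2) → ZMod 2} (hf : NDQ f) (hn : 5 ≤ Fintype.card ι) :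
    Cfsg.IsThreeTranspositionClass {g : ↥(Cfsg.isometryGroup (ZMod 2) f) | (((g : GL ι (ZMod 2)) : Matrix ι ι (ZMod 2)) - 1).rank = 1} := by
  obtain ⟨Q, rfl, hQ⟩ := hf
  exact three_trans_two zmod2_01 hQ hn (ZMod.card 2)

end Cfsg.Agent.Lib.MinOrth
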