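import Mathlib
import Cfsg.Agent.Lib.AutPSU.TransvConj
import Cfsg.Agent.Lib.Classical.UnitTr
import Cfsg.Prelude.Def_SporadicB

/-! The unitary transvections of `SU_n(2)` are a generating class of 3-transpositions. -/

set_option autoImplicit false
set_option linter.unusedSimpArgs false
set_option linter.unusedVariables false
set_option linter.unusedSectionVars false
set_option linter.style.haveILetI false

namespace Cfsg.Agent.Lib.MinOrth

open Matrix Module Cfsg.Agent.Lib.Classical Cfsg.Agent.Lib.AutPSU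
open scoped MatrixGroups

variable {F : Type} [Field F] [Fintype F] [DecidableEq F] {n : ℕ}

local notation "hh" => Cfsg.hermForm n F 2
local notation "VV" => (Fin n → F)
local notation "MM" => Matrix (Fin n) (Fin n) F

omit [DecidableEq F] in
theorem two_zero_of_four (hF : Fintype.card F = 2 ^ 2) : (2 : F) = 0 := by
  have h := add_pow_q hF (1 : F) 1
  linear_combination h

omit [DecidableEq F] in
theorem cube_eq_one (hF : Fintype.card F = 2 ^ 2) {a : F} (ha : a ≠ 0) : a ^ 3 = 1 := by
  have := FiniteField.pow_card_sub_one_eq_one a ha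
  rw [hF] at this
  exact this

/-- Rank-one elements of `SU` are transvections. -/
theorem rank_one_transv (s : Cfsg.SU n F 2)
    (hs : (((s : Matrix.SpecialLinearGroup (Fin n) F) : MM) - 1).rank = 1) :
    Cfsg.IsTransvection (((s : GL (Fin n) F) : MM)) := by
  refine ⟨hs, ?_⟩
  obtain ⟨a, b, ha, hb, hM⟩ := exists_vecMulVec_of_rank_one hs
  have hdet : (((s : Matrix.SpecialLinearGroup (Fin n) F) : MM)).det = 1 := (s : Matrix.SpecialLinearGroup (Fin n) F).2
  have h1 : ((s : Matrix.SpecialLinearGroup (Fin n) F) : MM) = 1 + vecMulVec a b := by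
    rw [← hM]
    abel
  rw [h1, Matrix.vecMulVec_eq Unit, Matrix.det_one_add_mul_comm] at hdet
  have h2 : b ⬝ᵥ a = 0 := by
    rw [Matrix.det_unique] at hdet
    have h3 : (1 + replicateRow Unit b * replicateCol Unit a : Matrix Unit Unit F) default default = 1 + b ⬝ᵥ a := by
      simp [Matrix.mul_apply, dotProduct]
    rw [h3] at hdet
    linear_combination hdet
  change (((s : Matrix.SpecialLinearGroup (Fin n) F) : MM) - 1) * (((s : Matrix.SpecialLinearGroup (Fin n) F) : MM) - 1) = 0
  rw [hM, Matrix.vecMulVec_mul_vecMulVec, h2]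
  ext i j
  simp [Matrix.vecMulVec_apply]

/-- Normal form of a rank-one element. -/
theorem rank_one_form (hF : Fintype.card F = 2 ^ 2) (s : Cfsg.SU n F 2)
    (hs : (((s : Matrix.SpecialLinearGroup (Fin n) F) : MM) - 1).rank = 1) :
    ∃ v : VV, hh v v = 0 ∧ v ≠ 0 ∧ ∀ x, suM s *ᵥ x = x + hh x v • v := by
  obtain ⟨v, c, H, hv, hc, rfl⟩ := transvection_form hF s (rank_one_transv s hs)
  have h2 := two_zero_of_four hF
  have hc1 : c = 1 := by
    have h3 := H.sw
    rw [herm_zero_right hF, add_zero] at h3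
    have h4 : c * (c + 1) = 0 := by linear_combination h3
    have h5 : c + 1 = 0 := (mul_eq_zero.1 h4).resolve_left hc
    linear_combination h5 - h2
  subst hc1
  refine ⟨v, H.vv, hv, fun x => ?_⟩
  change ((ue hF H).1 : Matrix.SpecialLinearGroup (Fin n) F).1 *ᵥ x = _
  rw [ue_mulVec, herm_zero_right hF, zero_smul, sub_zero, zero_add, one_smul]

section product

variable (hF : Fintype.card F = 2 ^ 2)
include hF

theorem mul_act_formula {s t : Cfsg.SU n F 2} {v w : VV} (hs : ∀ x, suM s *ᵥ x = x + hh x v • v) (ht : ∀ x, suM t *ᵥ x = x + hh x w • w) (x : VV) :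
    suM (s * t) *ᵥ x = x + hh x w • w + (hh x v + hh x w * hh w v) • v := by
  change (suM s * suM t) *ᵥ x = _
  rw [← Matrix.mulVec_mulVec, ht, hs, herm_add_left, herm_smul_left, add_smul]

/-- Product of two orthogonal transvections. -/
theorem product_orth {s t : Cfsg.SU n F 2} {v w : VV} (hvv : hh v v = 0) (hww : hh w w = 0)
    (hs : ∀ x, suM s *ᵥ x = x + hh x v • v) (ht : ∀ x, suM t *ᵥ x = x + hh x w • w)
    (hvw : hh v w = 0) : (s * t) ^ 2 = 1 := by
  have h2 := two_zero_of_four hF
  have hwv : hh w v = 0 := by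
    rw [herm_conj hF v w, hvw]
    simp
  have hT := mul_act_formula hF hs ht
  apply su_ext
  intro x
  rw [pow_two]
  change (suM (s * t) * suM (s * t)) *ᵥ x = suM (1 : Cfsg.SU n F 2) *ᵥ x
  rw [← Matrix.mulVec_mulVec, hT x, hT]
  simp only [herm_add_left, herm_smul_left, hwv, hvw, hvv, hww, mul_zero, add_zero, zero_add, zero_mul]
  have e1 : suM (1 : Cfsg.SU n F 2) = 1 := rfl
  rw [e1, Matrix.one_mulVec]
  ext i
  simp only [Pi.add_apply, Pi.smul_apply, smul_eq_mul]
  linear_combination (hh x w * w i + hh x v * v i) * h2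

/-- Product of two non-orthogonal transvections. -/
theorem product_nonorth {s t : Cfsg.SU n F 2} {v w : VV} (hvv : hh v v = 0) (hww : hh w w = 0)
    (hs : ∀ x, suM s *ᵥ x = x + hh x v • v) (ht : ∀ x, suM t *ᵥ x = x + hh x w • w)
    (hvw : hh v w ≠ 0) : (s * t) ^ 3 = 1 := by
  have h2 := two_zero_of_four hF
  set α := hh v w with hα
  have h3 := cube_eq_one hF hvw
  have hwv : hh w v = α ^ 2 := by
    rw [herm_conj hF v w]
  have hT := mul_act_formula hF hs ht
  rw [hwv] at hT
  have hA : ∀ x, hh (suM (s * t) *ᵥ x) w = hh x v * α := by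
    intro x
    rw [hT]
    simp only [herm_add_left, herm_smul_left, hww, ← hα]
    linear_combination hh x w * h2 + hh x w * h3
  have hB : ∀ x, hh (suM (s * t) *ᵥ x) v = hh x v + hh x w * α ^ 2 := by
    intro x
    rw [hT]
    simp only [herm_add_left, herm_smul_left, hvv, hwv]
    ring
  apply su_ext
  intro x
  have e0 : (s * t) ^ 3 = (s * t) * ((s * t) * (s * t)) := pow_three _
  rw [e0]
  change (suM (s * t) * (suM (s * t) * suM (s * t))) *ᵥ x = suM (1 : Cfsg.SU n F 2) *ᵥ x
  rw [← Matrix.mulVec_mulVec, ← Matrix.mulVec_mulVec]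
  have e1 : suM (1 : Cfsg.SU n F 2) = 1 := rfl
  rw [e1, Matrix.one_mulVec]
  have e2 := hT (suM (s * t) *ᵥ (suM (s * t) *ᵥ x))
  have e3 := hT (suM (s * t) *ᵥ x)
  have e4 := hT x
  simp only [hA, hB] at e2 e3
  rw [e2, e3, e4]
  ext i
  simp only [Pi.add_apply, Pi.smul_apply, smul_eq_mul]
  set a := hh x w
  set b := hh x v
  linear_combination ((a + b * α) * w i + (3 * b + 2 * a * α ^ 2) * v i) * h2 + (a * w i + (3 * b + a * α ^ 2) * v i) * h3

end product

omit [Fintype F] [DecidableEq F] in
theorem rank_one_of_vecMulVec {M : MM} {a b : VV} (hM : M = vecMulVec a b) (h0 : M ≠ 0) : M.rank = 1 := by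
  apply le_antisymm
  · rw [hM]
    exact Matrix.rank_vecMulVec_le a b
  · apply Nat.pos_of_ne_zero
    intro h
    apply h0
    have h1 : LinearMap.range M.mulVecLin = ⊥ := Submodule.finrank_eq_zero.1 h
    have h2 : M.mulVecLin = 0 := LinearMap.range_eq_bot.1 h1
    apply Matrix.ext_of_mulVec_single
    intro i
    rw [Matrix.zero_mulVec]
    have h3 : M.mulVecLin (Pi.single i 1) = 0 := by
      rw [h2]
      rfl
    exact h3

/-- The theorem, for the actual set. -/
theorem su2_three_trans (hF : Fintype.card F = 2 ^ 2) (hn : 4 ≤ n) :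
    Cfsg.IsThreeTranspositionClass {g : ↥(Cfsg.SU n F 2) | (((g : Matrix.SpecialLinearGroup (Fin n) F) : MM) - 1).rank = 1} := by
  have h2 := two_zero_of_four hF
  have hconj : ∀ (d g : Cfsg.SU n F 2), (((d : Matrix.SpecialLinearGroup (Fin n) F) : MM) - 1).rank = 1 →
      (((g * d * g⁻¹ : Cfsg.SU n F 2) : Matrix.SpecialLinearGroup (Fin n) F).1 - 1).rank = 1 := by
    intro d g hd
    have e1 : ((g * d * g⁻¹ : Cfsg.SU n F 2) : Matrix.SpecialLinearGroup (Fin n) F).1 - 1 =
        suM g * (suM d - 1) * suM g⁻¹ := by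
      have e2 : suM g * suM g⁻¹ = 1 := by
        change suM (g * g⁻¹) = 1
        rw [mul_inv_cancel]
        rfl
      change suM g * suM d * suM g⁻¹ - 1 = _
      rw [Matrix.mul_sub, Matrix.sub_mul, Matrix.mul_one, e2]
    rw [e1, Matrix.rank_mul_eq_left_of_isUnit_det _ _ (by rw [show (suM g⁻¹).det = 1 from g⁻¹.1.2]; exact isUnit_one),
      Matrix.rank_mul_eq_right_of_isUnit_det _ _ (by rw [show (suM g).det = 1 from g.1.2]; exact isUnit_one)]
    exact hd
  have hgen : ∀ (A : Cfsg.SU n F 2) (v : VV) (c : F),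
      ((A : Matrix.SpecialLinearGroup (Fin n) F) : MM) = Cfsg.unitaryTransvection n 2 v c → A ≠ 1 →
      (((A : Matrix.SpecialLinearGroup (Fin n) F) : MM) - 1).rank = 1 := by
    intro A v c hA hA1
    apply rank_one_of_vecMulVec (a := c • v) (b := fun j => v j ^ 2)
    · rw [hA, Cfsg.unitaryTransvection, add_sub_cancel_left, Matrix.smul_vecMulVec]
    · intro h0
      apply hA1
      apply su_ext
      intro x
      change suM A *ᵥ x = suM (1 : Cfsg.SU n F 2) *ᵥ x
      have e1 : suM (1 : Cfsg.SU n F 2) = 1 := rfl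
      rw [e1]
      have : suM A = 1 := sub_eq_zero.1 h0
      rw [this]
  have hclosure : Subgroup.closure {g : ↥(Cfsg.SU n F 2) | (((g : Matrix.SpecialLinearGroup (Fin n) F) : MM) - 1).rank = 1} = ⊤ := by
    rw [eq_top_iff, ← su_closure_transvections hF (by omega) (by omega), Subgroup.closure_le]
    rintro A ⟨v, c, hv, hA⟩
    by_cases hA1 : A = 1
    · rw [hA1]
      exact Subgroup.one_mem _
    · exact Subgroup.subset_closure (hgen A v c hA hA1)
  have hne : ∃ d : Cfsg.SU n F 2, (((d : Matrix.SpecialLinearGroup (Fin n) F) : MM) - 1).rank = 1 := by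
    let i₀ : Fin n := ⟨0, by omega⟩
    let i₁ : Fin n := ⟨1, by omega⟩
    have hi : i₀ ≠ i₁ := by simp [i₀, i₁, Fin.ext_iff]
    let v : VV := Pi.single i₀ 1 + Pi.single i₁ 1
    have hv0 : v i₀ = 1 := by simp [v, hi, hi.symm]
    have hv1 : v i₁ = 1 := by simp [v, hi, hi.symm]
    have hvv : hh v v = 0 := by
      have e1 : hh v v = hh v (Pi.single i₀ 1) + hh v (Pi.single i₁ 1) := herm_add_right hF _ _ _
      rw [e1, herm_right_single v i₀ (by norm_num), herm_right_single v i₁ (by norm_num), hv0, hv1]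
      linear_combination h2
    have H : UV 2 v (0 : VV) 1 := ⟨hvv, herm_zero_right hF v, by rw [herm_zero_right hF]; linear_combination h2⟩
    refine ⟨ue hF H, hgen _ v 1 (ueM_zero hF hvv) ?_⟩
    intro h1
    have h3 := ue_mulVec hF H (Pi.single i₀ 1)
    have h4 : suM (1 : Cfsg.SU n F 2) = 1 := rfl
    have h5 : ((ue hF H).1 : Matrix.SpecialLinearGroup (Fin n) F).1 = 1 := by
      rw [h1]
      exact h4
    rw [h5, Matrix.one_mulVec, herm_zero_right hF, zero_smul, sub_zero, zero_add, one_smul,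
      herm_conj hF v, herm_right_single v i₀ (by norm_num), hv0] at h3
    have h6 := congrFun h3 i₀
    simp only [one_pow, one_smul, Pi.add_apply, hv0] at h6
    have h7 : (1 : F) = 0 := by linear_combination -h6
    exact one_ne_zero h7
  obtain ⟨d₀, hd₀⟩ := hne
  refine ⟨⟨?_, ?_⟩, ⟨d₀, hd₀, ?_⟩, hclosure⟩
  · intro d hd
    obtain ⟨v, hvv, hv, hact⟩ := rank_one_form hF d hd
    refine orderOf_eq_prime ?_ ?_
    · apply su_ext
      intro x
      rw [pow_two]
      have e3 := mul_act_formula hF hact hact x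
      change suM (d * d) *ᵥ x = suM (1 : Cfsg.SU n F 2) *ᵥ x
      have h4 : suM (1 : Cfsg.SU n F 2) = 1 := rfl
      rw [e3, h4, Matrix.one_mulVec, hvv]
      ext i
      simp only [Pi.add_apply, Pi.smul_apply, smul_eq_mul]
      linear_combination (hh x v * v i) * h2
    · rintro rfl
      have h4 : ((1 : Cfsg.SU n F 2) : Matrix.SpecialLinearGroup (Fin n) F).1 = 1 := rfl
      have h5 := hd
      simp only [Set.mem_setOf_eq, h4, sub_self, Matrix.rank_zero] at h5
      exact zero_ne_one h5
  · intro d hd e he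
    obtain ⟨v, hvv, hv, hact⟩ := rank_one_form hF d hd
    obtain ⟨w, hww, hw, hact'⟩ := rank_one_form hF e he
    by_cases hvw : hh v w = 0
    · exact Or.inl (product_orth hF hvv hww hact hact' hvw)
    · exact Or.inr (product_nonorth hF hvv hww hact hact' hvw)
  · ext g
    constructor
    · intro hg
      exact transvection_conj hF (by omega) _ _ (rank_one_transv _ hd₀) (rank_one_transv _ hg)
    · intro hg
      obtain ⟨h, rfl⟩ := isConj_iff.1 hg
      exact hconj _ _ hd₀

end Cfsg.Agent.Lib.MinOrth
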